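import Cfsg.Prelude.Def_Sporadic_a

/-!
# Abstract self-dual binary codes of length 24 and minimum weight at least 8

Weight distribution by binomial moments: every set of at most 7 coordinates is an information set
for a subset, since a dependency would be a word of weight at most 7 of the dual, which is the code.
-/

set_option autoImplicit false

namespace Cfsg.Agent.Lib.Compute.AbstractGolay

/-- The ambient space. -/
abbrev V := Fin 24 → ZMod 2

/-- The hypotheses of an abstract extended binary Golay code. -/
structure IsAG (C : Submodule (ZMod 2) V) : Prop where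
  dim : Module.finrank (ZMod 2) C = 12
  orth : ∀ v ∈ C, ∀ w ∈ C, ∑ i, v i * w i = 0
  minw : ∀ w ∈ C, w ≠ 0 → 8 ≤ hammingNorm w

/-- The standard dot product as a bilinear form. -/
noncomputable def dotForm : LinearMap.BilinForm (ZMod 2) V :=
  Matrix.toBilin' (1 : Matrix (Fin 24) (Fin 24) (ZMod 2))

theorem dotForm_apply (v w : V) : dotForm v w = ∑ i, v i * w i := by
  simp [dotForm, Matrix.toBilin'_apply', dotProduct]

theorem dotForm_nondeg : dotForm.Nondegenerate := by
  apply LinearMap.BilinForm.nondegenerate_toBilin'_iff_det_ne_zero.mpr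
  simp

theorem dotForm_refl : dotForm.IsRefl := by
  intro v w h
  rw [dotForm_apply] at h ⊢
  rw [← h]
  exact Finset.sum_congr rfl fun i _ => mul_comm _ _

variable {C : Submodule (ZMod 2) V}

/-- The code is its own dual. -/
theorem mem_of_perp (hC : IsAG C) {v : V} (hv : ∀ w ∈ C, ∑ i, v i * w i = 0) : v ∈ C := by
  have hle : C ≤ dotForm.orthogonal C := by
    intro x hx y hy
    show dotForm y x = 0
    rw [dotForm_apply]
    exact hC.orth y hy x hx
  have hfin : Module.finrank (ZMod 2) (dotForm.orthogonal C) = 12 := by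
    rw [LinearMap.BilinForm.finrank_orthogonal dotForm_nondeg, hC.dim]
    simp
  have heq : C = dotForm.orthogonal C :=
    Submodule.eq_of_le_of_finrank_eq hle (by rw [hC.dim, hfin])
  rw [heq]
  intro y hy
  show dotForm y v = 0
  rw [dotForm_apply, ← hv y hy]
  exact Finset.sum_congr rfl fun i _ => mul_comm _ _

/-- A word of weight at most 7 orthogonal to the code is zero. -/
theorem eq_zero_of_perp (hC : IsAG C) {v : V} (hv : ∀ w ∈ C, ∑ i, v i * w i = 0)
    (hw : hammingNorm v ≤ 7) : v = 0 := by
  by_contra h
  have := hC.minw v (mem_of_perp hC hv) h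
  omega

/-- Restriction to a set of coordinates. -/
def restr (C : Submodule (ZMod 2) V) (T : Finset (Fin 24)) : C →ₗ[ZMod 2] (T → ZMod 2) where
  toFun c i := (c : V) i
  map_add' _ _ := rfl
  map_smul' _ _ := rfl

/-- Restriction to at most 7 coordinates is onto. -/
theorem restr_surjective (hC : IsAG C) {T : Finset (Fin 24)} (hT : T.card ≤ 7) :
    Function.Surjective (restr C T) := by
  classical
  rw [← LinearMap.range_eq_top]
  by_contra hne
  obtain ⟨f, hf0, hf⟩ := Submodule.exists_le_ker_of_lt_top _ (lt_top_iff_ne_top.mpr hne)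
  -- coefficients of the functional
  let a : T → ZMod 2 := fun i => f (Pi.single i 1)
  let v : V := fun j => if h : j ∈ T then a ⟨j, h⟩ else 0
  have hfa : ∀ x : T → ZMod 2, f x = ∑ i, x i * a i := by
    intro x
    have hx : x = ∑ i, x i • (Pi.single i 1 : T → ZMod 2) := by
      funext j
      simp [Finset.sum_apply, Pi.single_apply]
    conv_lhs => rw [hx]
    simp only [map_sum, map_smul, smul_eq_mul, a]
  have hperp : ∀ w ∈ C, ∑ i, v i * w i = 0 := by
    intro w hw
    have h1 : f (restr C T ⟨w, hw⟩) = 0 := hf (LinearMap.mem_range_self _ _)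
    rw [hfa] at h1
    rw [← h1]
    have h2 : ∑ i, v i * w i = ∑ i ∈ T, v i * w i := by
      symm
      apply Finset.sum_subset (Finset.subset_univ _)
      intro i _ hi
      simp [v, hi]
    rw [h2, ← Finset.sum_coe_sort T]
    apply Finset.sum_congr rfl
    intro i _
    simp only [v, i.2, dif_pos, Subtype.coe_eta]
    show a i * w i = w i * a i
    exact mul_comm _ _
  have hwt : hammingNorm v ≤ 7 := by
    refine le_trans (Finset.card_le_card ?_) hT
    intro i hi
    simp only [Finset.mem_filter, Finset.mem_univ, true_and, v] at hi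
    by_contra hiT
    simp [hiT] at hi
  have hv0 := eq_zero_of_perp hC hperp hwt
  apply hf0
  apply LinearMap.ext
  intro x
  rw [hfa]
  apply Finset.sum_eq_zero
  intro i _
  have : a i = 0 := by
    have := congrFun hv0 i.1
    simpa [v, i.2] using this
  rw [this, mul_zero]

open scoped Classical in
/-- The words of the code, as a finite set. -/
noncomputable def codeF (C : Submodule (ZMod 2) V) : Finset V := Finset.univ.filter (· ∈ C)

open scoped Classical in
theorem mem_codeF {v : V} : v ∈ codeF C ↔ v ∈ C := by simp [codeF]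

theorem card_codeF (hC : IsAG C) : (codeF C).card = 4096 := by
  classical
  have h1 : Nat.card C = 2 ^ 12 := by
    rw [Module.natCard_eq_pow_finrank (K := ZMod 2), hC.dim, Nat.card_zmod]
  have h2 : (codeF C).card = Nat.card C := by
    rw [Nat.card_eq_fintype_card, Fintype.card_subtype]
    rfl
  rw [h2, h1]
  norm_num

/-- The number of words of the code containing a given set of at most 7 coordinates. -/
theorem card_contains (hC : IsAG C) {T : Finset (Fin 24)} (hT : T.card ≤ 7) :
    ((codeF C).filter fun c => ∀ i ∈ T, c i = 1).card = 2 ^ (12 - T.card) := by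
  classical
  -- all fibres of the restriction have the same size
  let R := (restr C T).toAddMonoidHom
  have hsurj : Function.Surjective R := restr_surjective hC hT
  have hfib : ∀ x y : T → ZMod 2, (Finset.univ.filter fun g => R g = x).card =
      (Finset.univ.filter fun g => R g = y).card := by
    intro x y
    exact AddMonoidHom.card_fiber_eq_of_mem_range R (hsurj x) (hsurj y)
  have hsum : ∑ x : T → ZMod 2, (Finset.univ.filter fun g => R g = x).card = Fintype.card C := by
    rw [← Finset.card_univ (α := C)]
    exact (Finset.card_eq_sum_card_fiberwise (fun _ _ => Finset.mem_univ _)).symm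
  have hcardC : Fintype.card C = 2 ^ 12 := by
    rw [← Nat.card_eq_fintype_card, Module.natCard_eq_pow_finrank (K := ZMod 2), hC.dim,
      Nat.card_zmod]
  have hcardT : Fintype.card (T → ZMod 2) = 2 ^ T.card := by
    simp [ZMod.card]
  let one : T → ZMod 2 := fun _ => 1
  have hN : 2 ^ T.card * (Finset.univ.filter fun g => R g = one).card = 2 ^ 12 := by
    rw [← hcardC, ← hsum, Finset.sum_congr rfl (fun x _ => hfib x one), Finset.sum_const,
      Finset.card_univ, hcardT, smul_eq_mul]
  have hN' : (Finset.univ.filter fun g => R g = one).card = 2 ^ (12 - T.card) := by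
    have h2 : (2 : ℕ) ^ 12 = 2 ^ T.card * 2 ^ (12 - T.card) := by
      rw [← pow_add]
      congr 1
      omega
    rw [h2] at hN
    exact Nat.eq_of_mul_eq_mul_left (by positivity) hN
  rw [← hN']
  -- compare the two descriptions of the fibre
  refine Finset.card_bij (fun c hc => ⟨c, mem_codeF.mp (Finset.mem_filter.mp hc).1⟩) ?_ ?_ ?_
  · intro c hc
    simp only [Finset.mem_filter, Finset.mem_univ, true_and]
    funext i
    exact (Finset.mem_filter.mp hc).2 i.1 i.2
  · intro a _ b _ h
    exact congrArg Subtype.val h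
  · intro g hg
    simp only [Finset.mem_filter, Finset.mem_univ, true_and] at hg
    refine ⟨g.1, Finset.mem_filter.mpr ⟨mem_codeF.mpr g.2, fun i hi => ?_⟩, rfl⟩
    exact congrFun hg ⟨i, hi⟩

/-- Binomial moments of the weights. -/
theorem sum_choose (hC : IsAG C) {k : ℕ} (hk : k ≤ 7) :
    ∑ c ∈ codeF C, (hammingNorm c).choose k = (24 : ℕ).choose k * 2 ^ (12 - k) := by
  classical
  let P := Finset.powersetCard k (Finset.univ : Finset (Fin 24))
  have h1 : ∀ c : V, (hammingNorm c).choose k =
      (P.filter fun T => ∀ i ∈ T, c i = 1).card := by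
    intro c
    have hh : hammingNorm c = (Finset.univ.filter fun i => c i ≠ 0).card := rfl
    rw [hh, ← Finset.card_powersetCard]
    congr 1
    ext T
    have hone : ∀ x : ZMod 2, x ≠ 0 ↔ x = 1 := by decide
    rw [Finset.mem_powersetCard, Finset.mem_filter, Finset.mem_powersetCard]
    constructor
    · rintro ⟨h2, h3⟩
      refine ⟨⟨Finset.subset_univ _, h3⟩, fun i hi => (hone _).mp ?_⟩
      exact (Finset.mem_filter.mp (h2 hi)).2
    · rintro ⟨⟨_, h3⟩, h2⟩
      refine ⟨fun i hi => Finset.mem_filter.mpr ⟨Finset.mem_univ _, (hone _).mpr (h2 i hi)⟩, h3⟩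
  simp only [h1]
  have hswap := Finset.sum_card_bipartiteAbove_eq_sum_card_bipartiteBelow (s := codeF C) (t := P)
    (fun c T => ∀ i ∈ T, c i = 1)
  simp only [Finset.bipartiteAbove, Finset.bipartiteBelow] at hswap
  rw [hswap]
  have h2 : ∀ T ∈ P, ((codeF C).filter fun c => ∀ i ∈ T, c i = 1).card = 2 ^ (12 - k) := by
    intro T hT
    have hTk : T.card = k := (Finset.mem_powersetCard.mp hT).2
    rw [card_contains hC (by omega), hTk]
  rw [Finset.sum_congr rfl h2, Finset.sum_const, smul_eq_mul, Finset.card_powersetCard]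
  simp

/-! ### Weights -/

theorem hammingNorm_eq_sum (v : V) : hammingNorm v = ∑ i, if v i ≠ 0 then 1 else 0 := by
  rw [hammingNorm, Finset.card_filter]

/-- The parity of the weight is the sum of the coordinates. -/
theorem cast_hammingNorm (v : V) : ((hammingNorm v : ℕ) : ZMod 2) = ∑ i, v i := by
  rw [hammingNorm_eq_sum, Nat.cast_sum]
  apply Finset.sum_congr rfl
  intro i _
  have h : ∀ x : ZMod 2, ((if x ≠ 0 then 1 else 0 : ℕ) : ZMod 2) = x := by decide
  exact h _

theorem even_hammingNorm (hC : IsAG C) {v : V} (hv : v ∈ C) : Even (hammingNorm v) := by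
  have h1 : ((hammingNorm v : ℕ) : ZMod 2) = 0 := by
    rw [cast_hammingNorm, ← hC.orth v hv v hv]
    apply Finset.sum_congr rfl
    intro i _
    have h : ∀ x : ZMod 2, x = x * x := by decide
    exact h _
  exact (ZMod.natCast_eq_zero_iff_even).mp h1

theorem one_mem (hC : IsAG C) : (1 : V) ∈ C := by
  apply mem_of_perp hC
  intro w hw
  simp only [Pi.one_apply, one_mul]
  rw [← cast_hammingNorm]
  exact (ZMod.natCast_eq_zero_iff_even).mpr (even_hammingNorm hC hw)

theorem hammingNorm_one_add (c : V) : hammingNorm ((1 : V) + c) = 24 - hammingNorm c := by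
  have h : hammingNorm ((1 : V) + c) + hammingNorm c = 24 := by
    rw [hammingNorm_eq_sum, hammingNorm_eq_sum, ← Finset.sum_add_distrib]
    have h1 : ∀ x : ZMod 2, (if (1 + x : ZMod 2) ≠ 0 then 1 else 0) + (if x ≠ 0 then 1 else 0) = 1 := by
      decide
    simp only [Pi.add_apply, Pi.one_apply, h1]
    simp
  omega

theorem hammingNorm_add (a b : V) : hammingNorm (a + b) + 2 * (Finset.univ.filter
    fun i => a i ≠ 0 ∧ b i ≠ 0).card = hammingNorm a + hammingNorm b := by
  rw [hammingNorm_eq_sum, hammingNorm_eq_sum, hammingNorm_eq_sum, Finset.card_filter,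
    Finset.mul_sum, ← Finset.sum_add_distrib, ← Finset.sum_add_distrib]
  apply Finset.sum_congr rfl
  intro i _
  have h1 : ∀ x y : ZMod 2, (if (x + y : ZMod 2) ≠ 0 then 1 else 0) +
      2 * (if x ≠ 0 ∧ y ≠ 0 then 1 else 0) = (if x ≠ 0 then 1 else 0) + (if y ≠ 0 then 1 else 0) := by
    decide
  exact h1 _ _

theorem hammingNorm_neg (a : V) : hammingNorm (-a) = hammingNorm a := by
  simp [hammingNorm]

/-- The possible weights of words of the code. -/
theorem weight_cases (hC : IsAG C) {c : V} (hc : c ∈ C) :
    hammingNorm c ∈ ({0, 8, 10, 12, 14, 16, 24} : Finset ℕ) := by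
  have h24 : hammingNorm c ≤ 24 := by
    have : hammingNorm c ≤ Fintype.card (Fin 24) := hammingNorm_le_card_fintype
    simpa using this
  obtain ⟨k, hk⟩ := even_hammingNorm hC hc
  by_cases h0 : c = 0
  · subst h0
    simp
  have h8 := hC.minw c hc h0
  by_cases h1 : (1 : V) + c = 0
  · have hc1 : c = 1 := by
      have h2 : ∀ x y : ZMod 2, 1 + x = y → x = 1 + y := by decide
      funext i
      have := congrFun h1 i
      exact (h2 _ _ this).trans (by simp)
    subst hc1
    have : hammingNorm (1 : V) = 24 := by
      simp [hammingNorm, Finset.filter_true_of_mem]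
    rw [this]
    simp
  have h9 := hC.minw _ (C.add_mem (one_mem hC) hc) h1
  rw [hammingNorm_one_add] at h9
  simp only [Finset.mem_insert, Finset.mem_singleton]
  omega

/-- The number of words of a given weight. -/
noncomputable def cnt (C : Submodule (ZMod 2) V) (w : ℕ) : ℕ :=
  ((codeF C).filter fun c => hammingNorm c = w).card

theorem cnt_zero (hC : IsAG C) : cnt C 0 = 1 := by
  classical
  rw [cnt, Finset.card_eq_one]
  refine ⟨0, ?_⟩
  ext c
  simp only [Finset.mem_filter, Finset.mem_singleton, hammingNorm_eq_zero, mem_codeF]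
  constructor
  · exact fun h => h.2
  · rintro rfl
    exact ⟨C.zero_mem, rfl⟩

theorem cnt_24 (hC : IsAG C) : cnt C 24 = 1 := by
  classical
  rw [cnt, Finset.card_eq_one]
  refine ⟨1, ?_⟩
  have h1 : hammingNorm (1 : V) = 24 := by
    simp [hammingNorm, Finset.filter_true_of_mem]
  ext c
  simp only [Finset.mem_filter, Finset.mem_singleton, mem_codeF]
  constructor
  · rintro ⟨hc, h24⟩
    have h0 : hammingNorm ((1 : V) + c) = 0 := by
      rw [hammingNorm_one_add, h24]
    have h2 := hammingNorm_eq_zero.mp h0
    have h3 : ∀ x y : ZMod 2, 1 + x = y → x = 1 + y := by decide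
    funext i
    have := congrFun h2 i
    exact (h3 _ _ this).trans (by simp)
  · rintro rfl
    exact ⟨one_mem hC, h1⟩

/-- Sums over the code through the weight counts. -/
theorem sum_over_weights (hC : IsAG C) (f : ℕ → ℕ) :
    ∑ c ∈ codeF C, f (hammingNorm c) =
      f 0 + cnt C 8 * f 8 + cnt C 10 * f 10 + cnt C 12 * f 12 + cnt C 14 * f 14 +
        cnt C 16 * f 16 + f 24 := by
  classical
  have hmaps : ∀ c ∈ codeF C, hammingNorm c ∈ ({0, 8, 10, 12, 14, 16, 24} : Finset ℕ) :=
    fun c hc => weight_cases hC (mem_codeF.mp hc)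
  rw [← Finset.sum_fiberwise_of_maps_to hmaps]
  have hinner : ∀ w : ℕ, ∑ c ∈ (codeF C).filter (fun c => hammingNorm c = w), f (hammingNorm c) =
      cnt C w * f w := by
    intro w
    rw [Finset.sum_congr rfl (g := fun _ => f w), Finset.sum_const, smul_eq_mul, cnt]
    intro c hc
    rw [(Finset.mem_filter.mp hc).2]
  simp only [hinner]
  rw [Finset.sum_insert (by decide), Finset.sum_insert (by decide), Finset.sum_insert (by decide),
    Finset.sum_insert (by decide), Finset.sum_insert (by decide), Finset.sum_insert (by decide),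
    Finset.sum_singleton, cnt_zero hC, cnt_24 hC]
  ring

/-- The weight distribution of an abstract Golay code. -/
theorem weight_distribution (hC : IsAG C) :
    cnt C 8 = 759 ∧ cnt C 10 = 0 ∧ cnt C 12 = 2576 ∧ cnt C 14 = 0 ∧ cnt C 16 = 759 := by
  have m0 := sum_choose hC (k := 0) (by norm_num)
  have m1 := sum_choose hC (k := 1) (by norm_num)
  have m2 := sum_choose hC (k := 2) (by norm_num)
  have m3 := sum_choose hC (k := 3) (by norm_num)
  have m4 := sum_choose hC (k := 4) (by norm_num)
  rw [sum_over_weights hC (fun w => w.choose 0)] at m0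
  rw [sum_over_weights hC (fun w => w.choose 1)] at m1
  rw [sum_over_weights hC (fun w => w.choose 2)] at m2
  rw [sum_over_weights hC (fun w => w.choose 3)] at m3
  rw [sum_over_weights hC (fun w => w.choose 4)] at m4
  norm_num [Nat.choose] at m0 m1 m2 m3 m4
  omega

/-- Every word of an abstract Golay code has weight 0, 8, 12, 16 or 24. -/
theorem weight_cases' (hC : IsAG C) {c : V} (hc : c ∈ C) :
    hammingNorm c ∈ ({0, 8, 12, 16, 24} : Finset ℕ) := by
  have h := weight_cases hC hc
  obtain ⟨_, h10, _, h14, _⟩ := weight_distribution hC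
  have hne : ∀ w, cnt C w = 0 → hammingNorm c ≠ w := by
    intro w hw he
    have : c ∈ (codeF C).filter fun c => hammingNorm c = w :=
      Finset.mem_filter.mpr ⟨mem_codeF.mpr hc, he⟩
    rw [cnt, Finset.card_eq_zero] at hw
    rw [hw] at this
    simp at this
  have a1 := hne 10 h10
  have a2 := hne 14 h14
  simp only [Finset.mem_insert, Finset.mem_singleton] at h ⊢
  omega

end Cfsg.Agent.Lib.Compute.AbstractGolay
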