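import Cfsg.Agent.Lib.Compute.AbstractGolay

/-!
# Abstract Golay codes: the Steiner system of octads, coset leaders, generation by octads
-/

set_option autoImplicit false

namespace Cfsg.Agent.Lib.Compute.AbstractGolay2

open Cfsg Cfsg.Agent.Lib.Compute.AbstractGolay

variable {C : Submodule (ZMod 2) V}

theorem add_self_word (v : V) : v + v = 0 := by
  funext i
  exact CharTwo.add_self_eq_zero (v i)

theorem eq_of_add_eq_zero' {u v : V} (h : u + v = 0) : u = v := by
  funext i
  have h1 := congrFun h i
  have h2 : ∀ x y : ZMod 2, x + y = 0 → x = y := by decide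
  exact h2 _ _ h1

theorem sub_eq_add' (u v : V) : u - v = u + v := by
  funext i
  exact CharTwo.sub_eq_add (u i) (v i)

theorem support_inj {a b : V} (h : support₂ a = support₂ b) : a = b := by
  funext i
  have h1 := Finset.ext_iff.mp h i
  simp only [support₂, Finset.mem_filter, Finset.mem_univ, true_and] at h1
  have h2 : ∀ x y : ZMod 2, (x ≠ 0 ↔ y ≠ 0) → x = y := by decide
  exact h2 _ _ h1

theorem card_support (v : V) : (support₂ v).card = hammingNorm v := rfl

/-- The octads of the code, as a finite family. -/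
noncomputable def octF (C : Submodule (ZMod 2) V) : Finset (Finset (Fin 24)) :=
  ((codeF C).filter fun c => hammingNorm c = 8).image support₂

theorem mem_octF {b : Finset (Fin 24)} :
    b ∈ octF C ↔ ∃ v ∈ C, hammingNorm v = 8 ∧ support₂ v = b := by
  simp only [octF, Finset.mem_image, Finset.mem_filter, mem_codeF]
  constructor
  · rintro ⟨v, ⟨h1, h2⟩, h3⟩
    exact ⟨v, h1, h2, h3⟩
  · rintro ⟨v, h1, h2, h3⟩
    exact ⟨v, ⟨h1, h2⟩, h3⟩

theorem card_octF (hC : IsAG C) : (octF C).card = 759 := by
  rw [octF, Finset.card_image_of_injective _ (fun a b h => support_inj h)]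
  exact (weight_distribution hC).1

theorem coe_octF : (octF C : Set (Finset (Fin 24))) = wordsOfWeight (C : Set V) 8 := by
  ext b
  simp only [mem_octF, wordsOfWeight, supports, Set.mem_ofPred_eq, Set.mem_image,
    SetLike.mem_coe]
  constructor
  · rintro ⟨v, h1, h2, rfl⟩
    exact ⟨⟨v, h1, rfl⟩, h2⟩
  · rintro ⟨⟨v, h1, rfl⟩, h2⟩
    exact ⟨v, h1, h2, rfl⟩

theorem octad_unique (hC : IsAG C) (s b b' : Finset (Fin 24)) (hs : s.card = 5) (hb : b ∈ octF C)
    (hb' : b' ∈ octF C) (h1 : s ⊆ b) (h2 : s ⊆ b') : b = b' := by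
  classical
  obtain ⟨v, hv, hv8, rfl⟩ := mem_octF.mp hb
  obtain ⟨v', hv', hv8', rfl⟩ := mem_octF.mp hb'
  have hadd := hammingNorm_add v v'
  have hsub : s ⊆ Finset.univ.filter fun i => v i ≠ 0 ∧ v' i ≠ 0 := by
    intro i hi
    have h3 := h1 hi
    have h4 := h2 hi
    simp only [support₂, Finset.mem_filter, Finset.mem_univ, true_and] at h3 h4 ⊢
    exact ⟨h3, h4⟩
  have hcard := Finset.card_le_card hsub
  rw [hs] at hcard
  have hle : hammingNorm (v + v') ≤ 6 := by omega
  have h0 : v + v' = 0 := by
    by_contra hne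
    have := hC.minw _ (C.add_mem hv hv') hne
    omega
  rw [eq_of_add_eq_zero' h0]

/-- A family of `k`-subsets such that a `t`-subset lies in at most one member, and with the right
size, is a Steiner system. -/
theorem steinerOfCount {α : Type*} [Fintype α] [DecidableEq α] (t k : ℕ) (O : Finset (Finset α))
    (hk : ∀ b ∈ O, b.card = k)
    (huniq : ∀ s b b', s.card = t → b ∈ O → b' ∈ O → s ⊆ b → s ⊆ b' → b = b')
    (hcount : O.card * k.choose t = (Fintype.card α).choose t) :
    IsSteinerSystem t k (O : Set (Finset α)) := by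
  classical
  refine ⟨fun b hb => hk b (Finset.mem_coe.1 hb), ?_⟩
  set T : Finset (Finset α) := Finset.powersetCard t Finset.univ with hT
  have hcardT : T.card = (Fintype.card α).choose t := by
    rw [hT, Finset.card_powersetCard, Finset.card_univ]
  set U : Finset (Finset α) := O.biUnion (fun b => Finset.powersetCard t b) with hU
  have hdisj : (O : Set (Finset α)).PairwiseDisjoint (fun b => Finset.powersetCard t b) := by
    intro b hb b' hb' hne
    rw [Function.onFun, Finset.disjoint_left]
    intro s hs hs'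
    rw [Finset.mem_powersetCard] at hs hs'
    exact hne (huniq s b b' hs.2 (Finset.mem_coe.1 hb) (Finset.mem_coe.1 hb') hs.1 hs'.1)
  have hcardU : U.card = (Fintype.card α).choose t := by
    rw [hU, Finset.card_biUnion hdisj, ← hcount]
    have : ∀ b ∈ O, (Finset.powersetCard t b).card = k.choose t := by
      intro b hb
      rw [Finset.card_powersetCard, hk b hb]
    rw [Finset.sum_congr rfl this, Finset.sum_const, smul_eq_mul]
  have hUT : U ⊆ T := by
    intro s hs
    rw [hU, Finset.mem_biUnion] at hs
    obtain ⟨b, -, hs⟩ := hs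
    rw [Finset.mem_powersetCard] at hs
    rw [hT, Finset.mem_powersetCard]
    exact ⟨Finset.subset_univ _, hs.2⟩
  have hUeq : U = T := Finset.eq_of_subset_of_card_le hUT (by rw [hcardU, hcardT])
  intro s hs
  have hsT : s ∈ T := by
    rw [hT, Finset.mem_powersetCard]
    exact ⟨Finset.subset_univ _, hs⟩
  rw [← hUeq, hU, Finset.mem_biUnion] at hsT
  obtain ⟨b, hb, hsb⟩ := hsT
  rw [Finset.mem_powersetCard] at hsb
  refine ⟨b, ⟨Finset.mem_coe.2 hb, hsb.1⟩, ?_⟩
  rintro b' ⟨hb', hsb'⟩
  exact huniq s b' b hs (Finset.mem_coe.1 hb') hb hsb' hsb.1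

/-- The octads of an abstract Golay code form a Steiner system `S(5,8,24)`. -/
theorem steiner (hC : IsAG C) : IsSteinerSystem 5 8 (wordsOfWeight (C : Set V) 8) := by
  rw [← coe_octF]
  apply steinerOfCount
  · intro b hb
    obtain ⟨v, _, hv8, rfl⟩ := mem_octF.mp hb
    exact hv8
  · exact octad_unique hC
  · rw [card_octF hC]
    simp
    decide

/-! ### Generation by octads -/

theorem weight12_mem_span (hC : IsAG C) {c : V} (hc : c ∈ C) (h12 : hammingNorm c = 12) :
    c ∈ Submodule.span (ZMod 2) {w : V | w ∈ C ∧ hammingNorm w = 8} := by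
  classical
  have hcs : 5 ≤ (support₂ c).card := by
    rw [card_support, h12]
    norm_num
  obtain ⟨T, hT, hT5⟩ := Finset.exists_subset_card_eq hcs
  obtain ⟨b, ⟨hb, hTb⟩, _⟩ := (steiner hC).2 T hT5
  rw [← coe_octF] at hb
  obtain ⟨v, hv, hv8, rfl⟩ := mem_octF.mp (Finset.mem_coe.mp hb)
  have hadd := hammingNorm_add v c
  have hsub : T ⊆ Finset.univ.filter fun i => v i ≠ 0 ∧ c i ≠ 0 := by
    intro i hi
    have h3 := hTb hi
    have h4 := hT hi
    simp only [support₂, Finset.mem_filter, Finset.mem_univ, true_and] at h3 h4 ⊢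
    exact ⟨h3, h4⟩
  have hcard := Finset.card_le_card hsub
  rw [hT5] at hcard
  have hmem : v + c ∈ C := C.add_mem hv hc
  have hne : v + c ≠ 0 := by
    intro h0
    have := eq_of_add_eq_zero' h0
    rw [this] at hv8
    omega
  have hw := weight_cases' hC hmem
  have h8 : hammingNorm (v + c) = 8 := by
    have hmin := hC.minw _ hmem hne
    simp only [Finset.mem_insert, Finset.mem_singleton] at hw
    omega
  have hcv : c = v + (v + c) := by
    rw [← add_assoc, add_self_word, zero_add]
  rw [hcv]
  apply Submodule.add_mem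
  · exact Submodule.subset_span ⟨hv, hv8⟩
  · exact Submodule.subset_span ⟨hmem, h8⟩

/-- An abstract Golay code is spanned by its words of weight 8. -/
theorem span_octads (hC : IsAG C) :
    Submodule.span (ZMod 2) {w : V | w ∈ C ∧ hammingNorm w = 8} = C := by
  classical
  set D := Submodule.span (ZMod 2) {w : V | w ∈ C ∧ hammingNorm w = 8} with hD
  have hle : D ≤ C := Submodule.span_le.mpr fun w hw => hw.1
  have hcard12 : 2576 ≤ Nat.card D := by
    have h1 : ((codeF C).filter fun c => hammingNorm c = 12).card = 2576 :=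
      (weight_distribution hC).2.2.1
    rw [← h1, Nat.card_eq_fintype_card, Fintype.card_subtype]
    apply Finset.card_le_card
    intro c hc
    obtain ⟨hc1, hc2⟩ := Finset.mem_filter.mp hc
    exact Finset.mem_filter.mpr ⟨Finset.mem_univ _, weight12_mem_span hC (mem_codeF.mp hc1) hc2⟩
  have hnat : Nat.card D = 2 ^ Module.finrank (ZMod 2) D := by
    rw [Module.natCard_eq_pow_finrank (K := ZMod 2), Nat.card_zmod]
  have hfin12 : Module.finrank (ZMod 2) D ≤ 12 := by
    rw [← hC.dim]
    exact Submodule.finrank_mono hle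
  have hfin : Module.finrank (ZMod 2) D = 12 := by
    by_contra hne
    have hlt : Module.finrank (ZMod 2) D ≤ 11 := by omega
    have : 2 ^ Module.finrank (ZMod 2) D ≤ 2 ^ 11 := Nat.pow_le_pow_right (by norm_num) hlt
    rw [hnat] at hcard12
    omega
  exact Submodule.eq_of_le_of_finrank_eq hle (by rw [hfin, hC.dim])

/-! ### Coset leaders -/

/-- The number of words of a given weight. -/
theorem card_weight (j : ℕ) : (Finset.univ.filter fun v : V => hammingNorm v = j).card =
    (24 : ℕ).choose j := by
  classical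
  have h : (Finset.powersetCard j (Finset.univ : Finset (Fin 24))).card = (24 : ℕ).choose j := by
    simp
  rw [← h]
  refine Finset.card_bij (fun v _ => support₂ v) ?_ ?_ ?_
  · intro v hv
    simp only [Finset.mem_filter, Finset.mem_univ, true_and] at hv
    exact Finset.mem_powersetCard.mpr ⟨Finset.subset_univ _, hv⟩
  · intro a _ b _ h
    exact support_inj h
  · intro s hs
    have hs' := (Finset.mem_powersetCard.mp hs).2
    let v : V := fun i => if i ∈ s then 1 else 0
    have hv : support₂ v = s := by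
      ext i
      by_cases hi : i ∈ s <;> simp [support₂, v, hi]
    refine ⟨v, ?_, hv⟩
    simp only [Finset.mem_filter, Finset.mem_univ, true_and]
    rw [← card_support, hv, hs']

theorem card_le3 : (Finset.univ.filter fun v : V => hammingNorm v ≤ 3).card = 2325 := by
  classical
  have hmaps : ∀ v ∈ (Finset.univ.filter fun v : V => hammingNorm v ≤ 3),
      hammingNorm v ∈ Finset.range 4 := by
    intro v hv
    have := (Finset.mem_filter.mp hv).2
    exact Finset.mem_range.mpr (by omega)
  rw [Finset.card_eq_sum_card_fiberwise hmaps]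
  have hj : ∀ j ∈ Finset.range 4, ((Finset.univ.filter fun v : V => hammingNorm v ≤ 3).filter
      fun v => hammingNorm v = j).card = (24 : ℕ).choose j := by
    intro j hj
    rw [← card_weight]
    refine congrArg Finset.card (Finset.ext fun v => ?_)
    simp only [Finset.mem_filter, Finset.mem_univ, true_and]
    have := Finset.mem_range.mp hj
    constructor
    · exact fun h => h.2
    · exact fun h => ⟨by omega, h⟩
  rw [Finset.sum_congr rfl hj]
  decide

/-- Two distinct words of weight at most 4 in a coset have weight 4 and disjoint supports. -/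
theorem close (hC : IsAG C) {u u' : V} (h : u - u' ∈ C) (hne : u ≠ u') (hu : hammingNorm u ≤ 4)
    (hu' : hammingNorm u' ≤ 4) :
    hammingNorm u = 4 ∧ hammingNorm u' = 4 ∧ Disjoint (support₂ u) (support₂ u') := by
  have hadd := hammingNorm_add u u'
  rw [sub_eq_add'] at h
  have hne' : u + u' ≠ 0 := fun h0 => hne (eq_of_add_eq_zero' h0)
  have hmin := hC.minw _ h hne'
  refine ⟨by omega, by omega, ?_⟩
  have hI : (Finset.univ.filter fun i => u i ≠ 0 ∧ u' i ≠ 0).card = 0 := by omega
  rw [Finset.card_eq_zero] at hI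
  refine Finset.disjoint_left.mpr ?_
  intro i h1 h2
  simp only [support₂, Finset.mem_filter, Finset.mem_univ, true_and] at h1 h2
  have : i ∈ (Finset.univ.filter fun i => u i ≠ 0 ∧ u' i ≠ 0) := by
    simp [h1, h2]
  rw [hI] at this
  simp at this

/-- The coset of a word. -/
noncomputable abbrev mk (C : Submodule (ZMod 2) V) : V → V ⧸ C := Submodule.Quotient.mk

theorem mk_eq {u v : V} : mk C u = mk C v ↔ u - v ∈ C := Submodule.Quotient.eq C

open scoped Classical in
/-- Words of weight at most 3 in a coset. -/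
noncomputable def aF (C : Submodule (ZMod 2) V) (q : V ⧸ C) : Finset V :=
  (Finset.univ.filter fun v : V => hammingNorm v ≤ 3).filter fun v => mk C v = q

open scoped Classical in
/-- Words of weight 4 in a coset. -/
noncomputable def bF (C : Submodule (ZMod 2) V) (q : V ⧸ C) : Finset V :=
  (Finset.univ.filter fun v : V => hammingNorm v = 4).filter fun v => mk C v = q

theorem mem_aF {q : V ⧸ C} {v : V} : v ∈ aF C q ↔ hammingNorm v ≤ 3 ∧ mk C v = q := by
  classical
  simp [aF]

theorem mem_bF {q : V ⧸ C} {v : V} : v ∈ bF C q ↔ hammingNorm v = 4 ∧ mk C v = q := by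
  classical
  simp [bF]

theorem card_aF_le (hC : IsAG C) (q : V ⧸ C) : (aF C q).card ≤ 1 := by
  rw [Finset.card_le_one]
  intro a ha b hb
  obtain ⟨h1, h2⟩ := mem_aF.mp ha
  obtain ⟨h3, h4⟩ := mem_aF.mp hb
  by_contra hne
  have := close hC (mk_eq.mp (h2.trans h4.symm)) hne (by omega) (by omega)
  omega

theorem aF_bF (hC : IsAG C) (q : V ⧸ C) {a b : V} (ha : a ∈ aF C q) (hb : b ∈ bF C q) : False := by
  obtain ⟨h1, h2⟩ := mem_aF.mp ha
  obtain ⟨h3, h4⟩ := mem_bF.mp hb
  have hne : a ≠ b := by
    rintro rfl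
    omega
  have := close hC (mk_eq.mp (h2.trans h4.symm)) hne (by omega) (by omega)
  omega

theorem card_bF_le (hC : IsAG C) (q : V ⧸ C) : (bF C q).card ≤ 6 := by
  classical
  have hdisj : ((bF C q : Finset V) : Set V).PairwiseDisjoint support₂ := by
    intro a ha b hb hab
    obtain ⟨h1, h2⟩ := mem_bF.mp (Finset.mem_coe.mp ha)
    obtain ⟨h3, h4⟩ := mem_bF.mp (Finset.mem_coe.mp hb)
    exact (close hC (mk_eq.mp (h2.trans h4.symm)) hab (by omega) (by omega)).2.2
  have h1 := Finset.card_biUnion hdisj
  have h2 : ∑ v ∈ bF C q, (support₂ v).card = (bF C q).card * 4 := by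
    rw [Finset.sum_congr rfl (g := fun _ => 4), Finset.sum_const, smul_eq_mul]
    intro v hv
    rw [card_support]
    exact (mem_bF.mp hv).1
  have h3 : ((bF C q).biUnion support₂).card ≤ 24 := by
    have := Finset.card_le_univ ((bF C q).biUnion support₂)
    simpa using this
  omega

theorem bound (hC : IsAG C) (q : V ⧸ C) : 6 * (aF C q).card + (bF C q).card ≤ 6 := by
  have h1 := card_aF_le hC q
  have h2 := card_bF_le hC q
  by_cases h : (aF C q).card = 0
  · omega
  · have hpos : 0 < (aF C q).card := Nat.pos_of_ne_zero h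
    obtain ⟨a, ha⟩ := Finset.card_pos.mp hpos
    have h3 : bF C q = ∅ := by
      rw [Finset.eq_empty_iff_forall_notMem]
      intro b hb
      exact aF_bF hC q ha hb
    rw [h3, Finset.card_empty]
    omega

theorem card_quot (hC : IsAG C) : Fintype.card (V ⧸ C) = 4096 := by
  classical
  have h1 : Nat.card V = Nat.card C * Nat.card (V ⧸ C) := Submodule.card_eq_card_quotient_mul_card C
  have h2 : Nat.card C = 2 ^ 12 := by
    rw [Module.natCard_eq_pow_finrank (K := ZMod 2), hC.dim, Nat.card_zmod]
  have h3 : Nat.card V = 2 ^ 24 := by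
    rw [Nat.card_eq_fintype_card]
    simp [ZMod.card]
  rw [h2, h3] at h1
  rw [← Nat.card_eq_fintype_card]
  omega

/-- Every coset has the exact numbers of short words. -/
theorem count_eq (hC : IsAG C) (q : V ⧸ C) : 6 * (aF C q).card + (bF C q).card = 6 := by
  classical
  have hsumA : ∑ q, (aF C q).card = 2325 := by
    rw [← card_le3]
    exact (Finset.card_eq_sum_card_fiberwise (fun _ _ => Finset.mem_univ _)).symm
  have hsumB : ∑ q, (bF C q).card = 10626 := by
    have : (Finset.univ.filter fun v : V => hammingNorm v = 4).card = 10626 := by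
      rw [card_weight]
      decide
    rw [← this]
    exact (Finset.card_eq_sum_card_fiberwise (fun _ _ => Finset.mem_univ _)).symm
  have htotal : ∑ q : V ⧸ C, (6 * (aF C q).card + (bF C q).card) = ∑ _q : V ⧸ C, 6 := by
    rw [Finset.sum_add_distrib, ← Finset.mul_sum, hsumA, hsumB, Finset.sum_const, Finset.card_univ,
      card_quot hC]
    norm_num
  exact (Finset.sum_eq_sum_iff_of_le (fun q _ => bound hC q)).mp htotal q (Finset.mem_univ q)

/-- Coset leaders of an abstract Golay code. -/
theorem coset_leaders (hC : IsAG C) (w : V) :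
    (∃ u : V, {u : V | u - w ∈ C ∧ hammingNorm u ≤ 4} = {u} ∧ hammingNorm u ≤ 3) ∨
    ({u : V | u - w ∈ C ∧ hammingNorm u ≤ 4}.ncard = 6 ∧
      ∀ u ∈ {u : V | u - w ∈ C ∧ hammingNorm u ≤ 4}, hammingNorm u = 4 ∧
        ∀ u' ∈ {u : V | u - w ∈ C ∧ hammingNorm u ≤ 4}, u ≠ u' →
          Disjoint (Finset.univ.filter fun i => u i ≠ 0) (Finset.univ.filter fun i => u' i ≠ 0)) := by
  classical
  set q := mk C w with hq
  have hcount := count_eq hC q
  have hA := card_aF_le hC q
  by_cases ha : (aF C q).card = 1
  · left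
    obtain ⟨u0, hu0⟩ := Finset.card_eq_one.mp ha
    have hm : u0 ∈ aF C q := by rw [hu0]; simp
    obtain ⟨h1, h2⟩ := mem_aF.mp hm
    refine ⟨u0, ?_, h1⟩
    ext u
    simp only [Set.mem_ofPred_eq, Set.mem_singleton_iff]
    constructor
    · rintro ⟨h3, h4⟩
      have hmk : mk C u = q := mk_eq.mpr h3
      by_contra hne
      have h5 := close hC (mk_eq.mp (hmk.trans h2.symm)) hne h4 (by omega)
      omega
    · rintro rfl
      exact ⟨mk_eq.mp h2, by omega⟩
  · right
    have ha0 : (aF C q).card = 0 := by omega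
    have hb6 : (bF C q).card = 6 := by omega
    have ha' : aF C q = ∅ := Finset.card_eq_zero.mp ha0
    have hset : {u : V | u - w ∈ C ∧ hammingNorm u ≤ 4} = (bF C q : Set V) := by
      ext u
      simp only [Set.mem_ofPred_eq, Finset.mem_coe, mem_bF]
      constructor
      · rintro ⟨h3, h4⟩
        have hmk : mk C u = q := mk_eq.mpr h3
        refine ⟨?_, hmk⟩
        by_contra hne
        have : u ∈ aF C q := mem_aF.mpr ⟨by omega, hmk⟩
        rw [ha'] at this
        simp at this
      · rintro ⟨h3, h4⟩
        exact ⟨mk_eq.mp h4, by omega⟩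
    rw [hset]
    refine ⟨by rw [Set.ncard_coe_finset, hb6], ?_⟩
    intro u hu
    obtain ⟨h1, h2⟩ := mem_bF.mp (Finset.mem_coe.mp hu)
    refine ⟨h1, ?_⟩
    intro u' hu' hne
    obtain ⟨h3, h4⟩ := mem_bF.mp (Finset.mem_coe.mp hu')
    exact (close hC (mk_eq.mp (h2.trans h4.symm)) hne (by omega) (by omega)).2.2

end Cfsg.Agent.Lib.Compute.AbstractGolay2
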