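/-
Embeddings of the alternating group of degree 12 from elements with Carmichael's relations, and the permutation
representation of a simple group on the cosets of a subgroup, on `Fin N`.
-/
import Mathlib
import Cfsg.Agent.Lib.Schur.AltCover
import Cfsg.Agent.Lib.Presentations.Carmichael

set_option autoImplicit false

namespace Cfsg.Agent.Lib.Compute.AltEmbed

open Equiv Equiv.Perm
open Cfsg.Agent.Lib.Schur.AltCover

/-- the index type of the generators -/
abbrev Ix : Type := Idx (0 : Fin 12) 1

theorem h01 : (0 : Fin 12) ≠ 1 := by decide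

theorem card_ix : Fintype.card Ix = 10 := by decide

/-- Carmichael's relators -/
def RC : Set (FreeGroup Ix) :=
  {r | (∃ i, r = (FreeGroup.of i) ^ 3) ∨ ∃ i j, i ≠ j ∧ r = (FreeGroup.of i * FreeGroup.of j) ^ 2}

/-- Carmichael's group -/
abbrev PC : Type := PresentedGroup RC

/-- the generators of Carmichael's group -/
abbrev gc (i : Ix) : PC := PresentedGroup.of i

theorem gc3 (i : Ix) : gc i ^ 3 = 1 := by
  have h : (FreeGroup.of i) ^ 3 ∈ RC := Or.inl ⟨i, rfl⟩
  have h1 := PresentedGroup.one_of_mem h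
  rwa [map_pow] at h1

theorem gc2 (i j : Ix) (hij : i ≠ j) : (gc i * gc j) ^ 2 = 1 := by
  have h : (FreeGroup.of i * FreeGroup.of j) ^ 2 ∈ RC := Or.inr ⟨i, j, hij, rfl⟩
  have h1 := PresentedGroup.one_of_mem h
  rwa [map_pow, map_mul] at h1

theorem closure_gc : Subgroup.closure (Set.range gc) = ⊤ := PresentedGroup.closure_range_of RC

theorem bound : Finite PC ∧ 2 * Nat.card PC ≤ Nat.factorial 12 := by
  have h := Cfsg.Agent.Lib.Presentations.Carmichael.carmichael gc gc3 gc2
  rw [closure_gc, card_ix] at h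
  obtain ⟨h1, h2⟩ := h
  have e : (⊤ : Subgroup PC) ≃* PC := Subgroup.topEquiv
  refine ⟨Finite.of_equiv _ e.toEquiv, ?_⟩
  rwa [Nat.card_congr e.toEquiv] at h2

/-- A hom from Carmichael's group. -/
noncomputable def lift {G : Type*} [Group G] (c : Ix → G) (h3 : ∀ i, c i ^ 3 = 1)
    (h2 : ∀ i j, i ≠ j → (c i * c j) ^ 2 = 1) : PC →* G :=
  PresentedGroup.toGroup (f := c) (by
    rintro r (⟨i, rfl⟩ | ⟨i, j, hij, rfl⟩)
    · simp [h3]
    · simp [h2 i j hij])

theorem lift_of {G : Type*} [Group G] (c : Ix → G) (h3 : ∀ i, c i ^ 3 = 1)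
    (h2 : ∀ i j, i ≠ j → (c i * c j) ^ 2 = 1) (i : Ix) : lift c h3 h2 (gc i) = c i :=
  PresentedGroup.toGroup.of _

/-- the generators in the symmetric group -/
def xs (i : Ix) : Perm (Fin 12) := xx 0 1 i.1

theorem xs3 (i : Ix) : xs i ^ 3 = 1 := xx_cube h01 i.2.1 i.2.2

theorem xs2 (i j : Ix) (hij : i ≠ j) : (xs i * xs j) ^ 2 = 1 :=
  xx_mul_xx_sq h01 i.2.1 i.2.2 j.2.1 j.2.2 (fun h => hij (Subtype.ext h))

/-- the map to the symmetric group -/
noncomputable def th : PC →* Perm (Fin 12) := lift xs xs3 xs2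

theorem th_even (g : PC) : sign (th g) = 1 := by
  have h : g ∈ Subgroup.closure (Set.range gc) := by
    rw [closure_gc]
    trivial
  induction h using Subgroup.closure_induction with
  | mem x hx =>
    obtain ⟨i, rfl⟩ := hx
    rw [th, lift_of]
    exact sign_xx h01 i.2.2
  | one => simp
  | mul x y _ _ hx hy => simp [hx, hy]
  | inv x _ hx => simp [hx]

/-- the map to the alternating group -/
noncomputable def tha : PC →* alternatingGroup (Fin 12) :=
  th.codRestrict _ (fun g => Equiv.Perm.mem_alternatingGroup.2 (th_even g))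

theorem tha_surj : Function.Surjective tha := by
  rintro ⟨s, hs⟩
  have h1 : s ∈ Subgroup.closure (Set.range fun i : Idx (0 : Fin 12) 1 => xx 0 1 i.1) :=
    xx_closure h01 (Equiv.Perm.mem_alternatingGroup.1 hs)
  have h2 : Subgroup.closure (Set.range fun i : Idx (0 : Fin 12) 1 => xx (0 : Fin 12) 1 i.1) ≤ th.range := by
    rw [Subgroup.closure_le]
    rintro _ ⟨i, rfl⟩
    exact ⟨gc i, lift_of xs xs3 xs2 i⟩
  obtain ⟨g, hg⟩ := h2 h1
  exact ⟨g, Subtype.ext hg⟩

theorem card_alt : 2 * Nat.card (alternatingGroup (Fin 12)) = Nat.factorial 12 := by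
  have h := two_mul_nat_card_alternatingGroup (α := Fin 12)
  rw [Nat.card_perm, Nat.card_fin] at h
  exact h

theorem tha_bij : Function.Bijective tha := by
  haveI := bound.1
  refine Function.Surjective.bijective_of_nat_card_le tha_surj ?_
  have h1 := bound.2
  have h2 := card_alt
  omega

/-- Carmichael's group is the alternating group. -/
noncomputable def E : PC ≃* alternatingGroup (Fin 12) := MulEquiv.ofBijective tha tha_bij

instance simpleAlt : IsSimpleGroup (alternatingGroup (Fin 12)) :=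
  alternatingGroup.isSimpleGroup (by simp)

/-- An embedding from elements with Carmichael's relations. -/
theorem exists_embed {G : Type*} [Group G] (c : Ix → G) (h3 : ∀ i, c i ^ 3 = 1)
    (h2 : ∀ i j, i ≠ j → (c i * c j) ^ 2 = 1) (i0 : Ix) (hne : c i0 ≠ 1) :
    ∃ φ : alternatingGroup (Fin 12) →* G, Function.Injective φ := by
  let ψ : PC →* G := lift c h3 h2
  let φ : alternatingGroup (Fin 12) →* G := ψ.comp E.symm.toMonoidHom
  refine ⟨φ, ?_⟩
  rw [← MonoidHom.ker_eq_bot_iff]
  rcases IsSimpleGroup.eq_bot_or_eq_top_of_normal φ.ker φ.normal_ker with h | h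
  · exact h
  · exfalso
    apply hne
    have h4 : E (gc i0) ∈ φ.ker := by
      rw [h]
      trivial
    rw [MonoidHom.mem_ker] at h4
    have h5 : φ (E (gc i0)) = ψ (gc i0) := by
      show ψ (E.symm (E (gc i0))) = _
      rw [MulEquiv.symm_apply_apply]
    rw [h5] at h4
    rw [← lift_of c h3 h2 i0]
    exact h4

/-- The permutation representation of a simple group on the cosets of a subgroup. -/
theorem exists_perm_rep {G K : Type*} [Group G] [Group K] [Finite G] [IsSimpleGroup G] (φ : K →* G)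
    (hφ : Function.Injective φ) (N : ℕ) [NeZero N] (hN : Nat.card G = Nat.card K * N) (hN1 : 1 < N) :
    ∃ H : Subgroup (Perm (Fin N)), Nonempty (G ≃* H) ∧ MulAction.IsPretransitive H (Fin N) ∧
      Nonempty (MulAction.stabilizer H (0 : Fin N) ≃* K) := by
  classical
  let A : Subgroup G := φ.range
  have hcK : Nat.card A = Nat.card K := (Nat.card_congr (MonoidHom.ofInjective hφ).toEquiv).symm
  have hKpos : 0 < Nat.card K := by
    rw [← hcK]
    exact Nat.card_pos
  have hidx : Nat.card (G ⧸ A) = N := by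
    have h1 := Subgroup.card_mul_index A
    rw [hN, hcK] at h1
    exact Nat.eq_of_mul_eq_mul_left hKpos h1
  obtain ⟨e0⟩ : Nonempty ((G ⧸ A) ≃ Fin N) := ⟨Finite.equivFinOfCardEq hidx⟩
  let p0 : G ⧸ A := ((1 : G) : G ⧸ A)
  let e : (G ⧸ A) ≃ Fin N := e0.trans (swap (e0 p0) 0)
  have he0 : e p0 = 0 := by
    show swap (e0 p0) 0 (e0 p0) = 0
    rw [swap_apply_left]
  let ρ : G →* Perm (Fin N) := (e.permCongrHom.toMonoidHom).comp (MulAction.toPermHom G (G ⧸ A))
  have hρ : ∀ g x, ρ g (e x) = e (g • x) := by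
    intro g x
    show e ((MulAction.toPermHom G (G ⧸ A) g) (e.symm (e x))) = _
    rw [Equiv.symm_apply_apply]
    rfl
  have hmem : ∀ g, g • p0 = p0 ↔ g ∈ A := by
    intro g
    show g • ((1 : G) : G ⧸ A) = ((1 : G) : G ⧸ A) ↔ g ∈ A
    rw [MulAction.Quotient.smul_coe, smul_eq_mul, mul_one, QuotientGroup.eq, mul_one, inv_mem_iff]
  have hinj : Function.Injective ρ := by
    rw [← MonoidHom.ker_eq_bot_iff]
    rcases IsSimpleGroup.eq_bot_or_eq_top_of_normal ρ.ker ρ.normal_ker with h | h
    · exact h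
    · exfalso
      have h1 : ∀ g : G, g ∈ A := by
        intro g
        rw [← hmem]
        have h2 : g ∈ ρ.ker := by
          rw [h]
          trivial
        rw [MonoidHom.mem_ker] at h2
        apply e.injective
        rw [← hρ, h2]
        rfl
      have h3 : A = ⊤ := by
        ext g
        simp [h1]
      have h4 : Nat.card (G ⧸ A) = 1 := by
        have : A.index = 1 := by
          rw [h3]
          exact Subgroup.index_top
        exact this
      omega
  refine ⟨ρ.range, ⟨MonoidHom.ofInjective hinj⟩, ?_, ?_⟩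
  · refine ⟨fun a b => ?_⟩
    obtain ⟨x, rfl⟩ := e.surjective a
    obtain ⟨y, rfl⟩ := e.surjective b
    obtain ⟨g, hg⟩ := MulAction.exists_smul_eq G x y
    refine ⟨⟨ρ g, ⟨g, rfl⟩⟩, ?_⟩
    show ρ g (e x) = e y
    rw [hρ, hg]
  · have hst : ∀ g : G, ρ g (0 : Fin N) = 0 ↔ g ∈ A := by
      intro g
      rw [← he0, hρ, ← hmem]
      exact e.injective.eq_iff
    let f : A →* MulAction.stabilizer ρ.range (0 : Fin N) :=
      { toFun := fun a => ⟨⟨ρ a.1, ⟨a.1, rfl⟩⟩, (hst a.1).2 a.2⟩
        map_one' := by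
          apply Subtype.ext
          apply Subtype.ext
          simp
        map_mul' := by
          intro a b
          apply Subtype.ext
          apply Subtype.ext
          simp }
    have hf : Function.Bijective f := by
      constructor
      · intro a b hab
        have h1 : ρ a.1 = ρ b.1 := congrArg (fun x => (x.1.1 : Perm (Fin N))) hab
        exact Subtype.ext (hinj h1)
      · rintro ⟨⟨s, ⟨g, rfl⟩⟩, hs⟩
        have h1 : g ∈ A := (hst g).1 hs
        exact ⟨⟨g, h1⟩, rfl⟩
    exact ⟨(MulEquiv.ofBijective f hf).symm.trans (MonoidHom.ofInjective hφ).symm⟩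

end Cfsg.Agent.Lib.Compute.AltEmbed
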