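import Cfsg.Agent.Lib.Compute.SchurMain
import Cfsg.Agent.Lib.Sporadic.Stem
import Cfsg.Agent.S0102

/-!
# Stem extensions, in all universes

Variants of the lemmas on multipliers of `SchurLin` and `SchurPerm` for groups in any universe, and a way to produce
the table of an action by counting.
-/

set_option autoImplicit false

namespace Cfsg.Agent.Lib.Compute.SchurU

open Cfsg Cfsg.Agent.Lib.Compute.SchurLin
open Cfsg.Agent.Lib.Compute.ToddCoxeterCore (wordEl wordEl_nil wordEl_cons wordEl_append)

universe u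

/-- The multiplier of `L` is trivial: all finite stem extensions are isomorphisms. -/
def TrivM (L : Type u) [Group L] : Prop :=
  ∀ (Γ : Type u) [Group Γ] [Finite Γ] (σ : Γ →* L), IsStemExtension σ → Function.Injective σ

theorem TrivM.of_equiv {L L' : Type u} [Group L] [Group L'] (e : L ≃* L') (h : TrivM L') : TrivM L := by
  intro Γ _ _ σ hσ
  have hker : (e.toMonoidHom.comp σ).ker = σ.ker := by
    ext x
    simp [MonoidHom.mem_ker]
  have h1 : IsStemExtension (e.toMonoidHom.comp σ) := by
    refine ⟨e.surjective.comp hσ.1, ?_, ?_⟩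
    · rw [hker]; exact hσ.2.1
    · rw [hker]; exact hσ.2.2
  have h2 := h Γ _ h1
  intro a b hab
  exact h2 (by simp [hab])

section Mult

variable {Γ G : Type u} [Group Γ] [Group G]

/-- Over a perfect subgroup with trivial multiplier, a central extension has a section. -/
theorem exists_section_of_perfect [Finite Γ] (σ : Γ →* G) (hs : Function.Surjective σ)
    (hc : σ.ker ≤ Subgroup.center Γ) (L : Subgroup G) (hL : commutator L = ⊤) (hT : TrivM L) :
    ∃ s : L →* Γ, ∀ l, σ (s l) = l := by
  set E : Subgroup Γ := L.comap σ with hE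
  set D : Subgroup Γ := ⁅E, E⁆ with hD
  have hLL : ⁅L, L⁆ = L := by
    have h1 := Subgroup.map_subtype_commutator L
    rw [hL] at h1
    rw [← h1]
    ext x
    simp
  have hEmap : E.map σ = L := Subgroup.map_comap_eq_self_of_surjective hs L
  have hDmap : D.map σ = L := by
    rw [hD, Subgroup.map_commutator, hEmap, hLL]
  -- `D` is perfect
  have hdec : ∀ e ∈ E, ∃ d ∈ D, ∃ z ∈ σ.ker, e = d * z := by
    intro e he
    have h1 : σ e ∈ D.map σ := by rw [hDmap]; exact he
    obtain ⟨d, hd, hde⟩ := h1
    refine ⟨d, hd, d⁻¹ * e, ?_, by group⟩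
    rw [MonoidHom.mem_ker, map_mul, map_inv, hde, inv_mul_cancel]
  have hDD : D ≤ ⁅D, D⁆ := by
    show ⁅E, E⁆ ≤ ⁅D, D⁆
    rw [Subgroup.commutator_le]
    intro a ha b hb
    obtain ⟨d, hd, z, hz, rfl⟩ := hdec a ha
    obtain ⟨f, hf, y, hy, rfl⟩ := hdec b hb
    rw [commutatorElement_def, comm_central_mul d f z y (hc hz) (hc hy)]
    have h5 := Subgroup.commutator_mem_commutator hd hf
    rwa [commutatorElement_def] at h5
  let τ : D →* L := (σ.comp D.subtype).codRestrict L (fun x => by
    have : σ x ∈ D.map σ := ⟨x, x.2, rfl⟩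
    rw [hDmap] at this
    exact this)
  have hτ : ∀ x, ((τ x : L) : G) = σ x := fun _ => rfl
  have hτs : Function.Surjective τ := by
    rintro ⟨l, hl⟩
    rw [← hDmap] at hl
    obtain ⟨d, hd, rfl⟩ := hl
    exact ⟨⟨d, hd⟩, Subtype.ext rfl⟩
  have hstem : IsStemExtension τ := by
    refine ⟨hτs, ?_, ?_⟩
    · intro x hx
      have h1 : σ (x : Γ) = 1 := congrArg Subtype.val (MonoidHom.mem_ker.mp hx)
      have h2 := Subgroup.mem_center_iff.mp (hc (MonoidHom.mem_ker.mpr h1))
      rw [Subgroup.mem_center_iff]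
      intro y
      apply Subtype.ext
      exact h2 y
    · have h1 : commutator D = ⊤ := by
        apply Subgroup.map_injective D.subtype_injective
        rw [Subgroup.map_subtype_commutator]
        ext x
        simp only [Subgroup.mem_map, Subgroup.mem_top, true_and, Subgroup.subtype_apply]
        constructor
        · intro hx
          exact ⟨⟨x, comm_le_self D hx⟩, rfl⟩
        · rintro ⟨y, rfl⟩
          exact hDD y.2
      rw [h1]
      exact le_top
  have hinj := hT D τ hstem
  let e : D ≃* L := MulEquiv.ofBijective τ ⟨hinj, hτs⟩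
  refine ⟨D.subtype.comp e.symm.toMonoidHom, fun l => ?_⟩
  have : τ (e.symm l) = l := e.apply_symm_apply l
  have h2 := congrArg Subtype.val this
  exact h2

/-- Over a subgroup of coprime order, an extension has a section. -/
theorem exists_section_of_coprime [Finite Γ] (σ : Γ →* G) (hs : Function.Surjective σ)
    (L : Subgroup G) (hcop : Nat.Coprime (Nat.card σ.ker) (Nat.card L)) :
    ∃ s : L →* Γ, ∀ l, σ (s l) = l := by
  set E : Subgroup Γ := L.comap σ with hE
  let f : E →* L := (σ.comp E.subtype).codRestrict L (fun x => x.2)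
  have hf : ∀ x, ((f x : L) : G) = σ x := fun _ => rfl
  have hfs : Function.Surjective f := by
    rintro ⟨l, hl⟩
    obtain ⟨a, rfl⟩ := hs l
    exact ⟨⟨a, hl⟩, Subtype.ext rfl⟩
  have hcard : Nat.card f.ker = Nat.card σ.ker := by
    refine Nat.card_congr (Equiv.ofBijective (fun x : f.ker => (⟨x.1.1, ?_⟩ : σ.ker)) ⟨?_, ?_⟩)
    · have := congrArg Subtype.val (MonoidHom.mem_ker.mp x.2)
      exact this
    · intro a b hab
      apply Subtype.ext
      apply Subtype.ext
      have h1 : (a.1 : Γ) = (b.1 : Γ) := congrArg (fun u : σ.ker => (u : Γ)) hab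
      exact h1
    · rintro ⟨a, ha⟩
      have haE : a ∈ E := by
        rw [hE, Subgroup.mem_comap, (MonoidHom.mem_ker).1 ha]
        exact one_mem _
      refine ⟨⟨⟨a, haE⟩, ?_⟩, rfl⟩
      rw [MonoidHom.mem_ker]
      exact Subtype.ext ha
  have hindex : f.ker.index = Nat.card L := by
    rw [Subgroup.index_ker, MonoidHom.range_eq_top.mpr hfs]
    simp
  have hcop' : Nat.Coprime (Nat.card f.ker) f.ker.index := by
    rw [hcard, hindex]
    exact hcop
  obtain ⟨H, hH⟩ := Subgroup.exists_right_complement'_of_coprime hcop'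
  let g : H →* L := f.comp H.subtype
  have hg : Function.Bijective g := by
    constructor
    · rw [injective_iff_map_eq_one]
      intro a ha
      have h1 : (a : E) ∈ f.ker := ha
      have h2 : (a : E) ∈ f.ker ⊓ H := ⟨h1, a.2⟩
      rw [hH.disjoint.eq_bot] at h2
      exact Subtype.ext ((Subgroup.mem_bot).1 h2)
    · intro l
      obtain ⟨x, rfl⟩ := hfs l
      obtain ⟨⟨a, b⟩, hab⟩ := hH.existsUnique x |>.exists
      refine ⟨b, ?_⟩
      have : x = (a : E) * b := hab.symm
      rw [this, map_mul, (MonoidHom.mem_ker).1 a.2, one_mul]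
      rfl
  let e : H ≃* L := MulEquiv.ofBijective g hg
  refine ⟨E.subtype.comp (H.subtype.comp e.symm.toMonoidHom), fun l => ?_⟩
  have : g (e.symm l) = l := e.apply_symm_apply l
  exact congrArg Subtype.val this

end Mult

section Stem

variable {Γ G : Type*} [Group Γ] [Group G]

/-- In a stem extension of a perfect group, the middle group is perfect. -/
theorem commutator_top_of_stem {σ : Γ →* G} (hstem : IsStemExtension σ) (hG : commutator G = ⊤) :
    commutator Γ = ⊤ := by
  obtain ⟨hs, _, hcomm⟩ := hstem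
  rw [eq_top_iff]
  intro a _
  have h1 : σ a ∈ (commutator Γ).map σ := by
    rw [commutator_def, Subgroup.map_commutator, Subgroup.map_top_of_surjective σ hs, ← commutator_def,
      hG]
    trivial
  obtain ⟨d, hd, hda⟩ := h1
  have h2 : d⁻¹ * a ∈ σ.ker := by
    rw [MonoidHom.mem_ker, map_mul, map_inv, hda, inv_mul_cancel]
  have h3 := mul_mem hd (hcomm h2)
  simpa using h3

/-- The kernel of a stem extension of a finite group has exponent dividing the order of the group. -/
theorem pow_card_ker [Finite Γ] {σ : Γ →* G} (hstem : IsStemExtension σ) (a : σ.ker) :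
    a ^ Nat.card G = 1 := by
  obtain ⟨hs, hc, hcomm⟩ := hstem
  have h1 := Cfsg.Agent.Lib.Sporadic.Stem.pow_index_eq_one σ.ker
    (fun p hp q _ => (Subgroup.mem_center_iff.mp (hc hp) q).symm) (hc a.2) (hcomm a.2)
  have h2 : σ.ker.index = Nat.card G := by
    rw [Subgroup.index_ker, MonoidHom.range_eq_top.mpr hs]
    simp
  rw [h2] at h1
  exact Subtype.ext h1

end Stem

/-- A Sylow subgroup of a group whose order is not divisible by the square of the prime is cyclic. -/
theorem sylow_cyclic_of_not_sq {G : Type*} [Group G] [Finite G] {p : ℕ} [hp : Fact p.Prime]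
    (h : ¬ p ^ 2 ∣ Nat.card G) (Q : Sylow p G) : IsCyclic Q := by
  obtain ⟨k, hk⟩ := (IsPGroup.iff_card).1 Q.isPGroup'
  have h1 : p ^ k ∣ Nat.card G := by
    rw [← hk]
    exact Subgroup.card_subgroup_dvd_card _
  have hk2 : k < 2 := by
    by_contra h2
    exact h ((pow_dvd_pow p (by omega)).trans h1)
  interval_cases k
  · have : Nat.card Q = 1 := by simpa using hk
    have hsub : Subsingleton Q := (Nat.card_eq_one_iff_unique.1 this).1
    exact isCyclic_of_subsingleton
  · exact isCyclic_of_prime_card (p := p) (by simpa using hk)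

/-! ### The table of cosets, by counting -/

section Cosets

variable {G : Type*} [Group G]

/-- The table on the cosets of a subgroup, from the Schreier elements of the generators. -/
theorem tab_of_count (L : Subgroup G) {g : ℕ → G} {n N : ℕ} {t : ℕ → ℕ → ℕ} {par lt : ℕ → ℕ}
    (hgen : ∀ h : G, h ∈ Subgroup.closure (g '' Set.Iio n)) (hcard : Nat.card (G ⧸ L) = N) (hN : 0 < N)
    (hlt : ∀ i < N, ∀ x < 2 * n, t i x < N) (hflp : ∀ i < N, ∀ x < 2 * n, t (t i x) (flp x) = i)
    (hpar : ∀ i < N, i ≠ 0 → par i < i ∧ lt i < 2 * n ∧ t (par i) (lt i) = i)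
    (hS : ∀ i < N, ∀ j < n, (repOf g par lt (t i (2 * j)))⁻¹ * (g j * repOf g par lt i) ∈ L) :
    Tab g (fun i => ((repOf g par lt i : G) : G ⧸ L)) n N t par lt := by
  set ω : ℕ → G ⧸ L := fun i => ((repOf g par lt i : G) : G ⧸ L) with hω
  have hev : ∀ i < N, ∀ j < n, g j • ω i = ω (t i (2 * j)) := by
    intro i hi j hj
    show g j • ((repOf g par lt i : G) : G ⧸ L) = _
    rw [MulAction.Quotient.smul_coe, QuotientGroup.eq]
    have h1 := inv_mem (hS i hi j hj)
    simpa using h1
  have hact : ∀ i < N, ∀ x < 2 * n, ltr g x • ω i = ω (t i x) := by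
    intro i hi x hx
    have hj : x / 2 < n := by omega
    by_cases h0 : x % 2 = 0
    · have h2 : 2 * (x / 2) = x := by omega
      have h3 := hev i hi _ hj
      rw [h2] at h3
      simpa [ltr, h0] using h3
    · have h2 : flp x = 2 * (x / 2) := by
        unfold flp
        rw [if_neg h0]
        omega
      have hti := hlt i hi x hx
      have h3 := hev _ hti _ hj
      rw [← h2, hflp i hi x hx] at h3
      simp only [ltr, if_neg h0]
      rw [← h3, inv_smul_smul]
  have hword : ∀ (w : List ℕ), (∀ x ∈ w, x < 2 * n) → ∀ i < N, ∃ j, j < N ∧ wordEl (ltr g) w • ω i = ω j := by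
    intro w
    induction w with
    | nil =>
      intro _ i hi
      exact ⟨i, hi, by simp⟩
    | cons x u ih =>
      intro hw i hi
      have hx := hw x (by simp)
      obtain ⟨j, hj, e⟩ := ih (fun y hy => hw y (by simp [hy])) _ (hlt i hi x hx)
      refine ⟨j, hj, ?_⟩
      rw [wordEl_cons, mul_smul, hact i hi x hx, e]
  have h0 : repOf g par lt 0 = 1 := repOf_zero g par lt
  have hsurj : Function.Surjective (fun i : Fin N => ω i) := by
    intro y
    obtain ⟨h, rfl⟩ := QuotientGroup.mk_surjective y
    obtain ⟨w, hw, rfl⟩ := exists_word (hgen h)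
    obtain ⟨j, hj, e⟩ := hword w hw 0 hN
    refine ⟨⟨j, hj⟩, ?_⟩
    show ω j = _
    rw [← e]
    simp only [hω, h0]
    rw [MulAction.Quotient.smul_coe]
    simp
  have hinj : Function.Injective (fun i : Fin N => ω i) :=
    (hsurj.bijective_of_nat_card_le (by simp [hcard])).1
  refine ⟨hN, hlt, hact, hflp, ?_, hpar⟩
  intro i hi h
  have := @hinj ⟨i, hi⟩ ⟨0, hN⟩ h
  exact congrArg Fin.val this

end Cosets

/-! ### Words and representatives -/

section Words

variable {K H : Type*} [Group K] [Group H]

theorem wordEl_mem_closure (g : ℕ → K) {n : ℕ} {w : List ℕ} (hw : ∀ x ∈ w, x < 2 * n) :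
    wordEl (ltr g) w ∈ Subgroup.closure (g '' Set.Iio n) := by
  induction w with
  | nil => exact one_mem _
  | cons x u ih =>
    rw [wordEl_cons]
    refine mul_mem (ih (fun y hy => hw y (by simp [hy]))) ?_
    have hx := hw x (by simp)
    have hj : g (x / 2) ∈ Subgroup.closure (g '' Set.Iio n) :=
      Subgroup.subset_closure ⟨x / 2, by show x / 2 < n; omega, rfl⟩
    unfold ltr
    split_ifs
    · exact hj
    · exact inv_mem hj

theorem map_repOf (f : K →* H) (Y : ℕ → K) (par lt : ℕ → ℕ) (i : ℕ) :
    f (repOf Y par lt i) = repOf (fun j => f (Y j)) par lt i := by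
  induction i using Nat.strong_induction_on with
  | _ i ih =>
    by_cases h : i ≠ 0 ∧ par i < i
    · rw [repOf_step Y par lt h.1 h.2, repOf_step _ par lt h.1 h.2, map_mul, ih _ h.2, map_ltr]
    · rw [repOf, dif_neg h, repOf, dif_neg h, map_one]

theorem repOf_mem_closure (Y : ℕ → K) (par lt : ℕ → ℕ) {n N : ℕ} (hlt : ∀ i < N, i ≠ 0 → par i < i ∧ lt i < 2 * n) :
    ∀ i < N, repOf Y par lt i ∈ Subgroup.closure (Y '' Set.Iio n) := by
  intro i
  induction i using Nat.strong_induction_on with
  | _ i ih =>
    intro hi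
    by_cases h0 : i = 0
    · subst h0
      rw [repOf_zero]
      exact one_mem _
    · obtain ⟨h1, h2⟩ := hlt i hi h0
      rw [repOf_step Y par lt h0 h1]
      refine mul_mem ?_ (ih _ h1 (by omega))
      have hj : Y (lt i / 2) ∈ Subgroup.closure (Y '' Set.Iio n) :=
        Subgroup.subset_closure ⟨lt i / 2, by show lt i / 2 < n; omega, rfl⟩
      unfold ltr
      split_ifs
      · exact hj
      · exact inv_mem hj

/-- Perfectness transported along an isomorphism. -/
theorem commutator_top_of_equiv {A B : Type*} [Group A] [Group B] (e : A ≃* B) (h : commutator B = ⊤) :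
    commutator A = ⊤ := by
  have h1 := Subgroup.map_commutator (⊤ : Subgroup B) ⊤ e.symm.toMonoidHom
  rw [Subgroup.map_top_of_surjective _ e.symm.surjective] at h1
  rw [commutator_def, ← h1, ← commutator_def, h, Subgroup.map_top_of_surjective _ e.symm.surjective]

theorem getD_mem_or {α : Type*} {W : List (List α)} (k : ℕ) : W.getD k [] ∈ W ∨ W.getD k [] = [] := by
  by_cases h : k < W.length
  · left
    rw [List.getD_eq_getElem _ _ h]
    exact List.getElem_mem h
  · right
    rw [List.getD_eq_default _ _ (by omega)]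

/-- A surjection from a cyclic group of order `m`. -/
theorem exists_surj_of_cyclic {B : Type*} [CommGroup B] {u : B} {m : ℕ} (h1 : u ^ m = 1) (h2 : ∀ x : B, x ∈ Subgroup.zpowers u) :
    ∃ π : Multiplicative (ZMod m) →* B, Function.Surjective π := by
  let f : ℤ →+ Additive B := zmultiplesHom _ (Additive.ofMul u)
  have hf : f (m : ℤ) = 0 := by
    show (m : ℤ) • Additive.ofMul u = 0
    rw [natCast_zsmul, ← ofMul_pow, h1]
    rfl
  let g : ZMod m →+ Additive B := ZMod.lift m ⟨f, hf⟩
  refine ⟨AddMonoidHom.toMultiplicativeLeft g, fun x => ?_⟩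
  obtain ⟨k, rfl⟩ := h2 x
  refine ⟨Multiplicative.ofAdd ((k : ℤ) : ZMod m), ?_⟩
  show Additive.toMul (g ((k : ℤ) : ZMod m)) = _
  rw [ZMod.lift_coe]
  show Additive.toMul (f k) = u ^ k
  show Additive.toMul (k • Additive.ofMul u) = u ^ k
  rw [← ofMul_zpow]
  rfl

end Words

end Cfsg.Agent.Lib.Compute.SchurU
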