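import Cfsg.Agent.Lib.Compute.PeelCert
import Cfsg.Agent.Lib.Compute.SchurU

/-!
# Covers of a simple group from edge labels of a table

Let `G` be a simple group with a presentation, and let `t` be a permutation table on which the generators act.  Edge
labels with values in an abelian group `A` define permutations of `A × Fin N`, commuting with the translations by `A`.
If each relator of the presentation has, at all points, a constant label sum, the group generated by the permutations
is a central extension of `G`.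

The same table, without the labels, gives the action of `G` needed for the peeling certificates, with no element of `G`
computed.
-/

set_option autoImplicit false
set_option linter.unusedSectionVars false
set_option linter.unusedVariables false

namespace Cfsg.Agent.Lib.Compute.CoverCert

open Cfsg Cfsg.Agent.Lib.Compute.SchurLin Cfsg.Agent.Lib.Compute.SchurU Cfsg.Agent.Lib.Compute.PeelCert
open Cfsg.Agent.Lib.Compute.ToddCoxeterCore (wordEl wordEl_nil wordEl_cons wordEl_append frc frc_eq)

universe u v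

/-! ### Changing the universe -/

section Transport

/-- Stem extensions and isomorphisms of the middle group. -/
theorem isStem_comp_domain {Γ₀ Γ G : Type*} [Group Γ₀] [Group Γ] [Group G] (m : Γ₀ ≃* Γ) {σ : Γ →* G}
    (hσ : IsStemExtension σ) : IsStemExtension (σ.comp m.toMonoidHom) := by
  obtain ⟨h1, h2, h3⟩ := hσ
  refine ⟨h1.comp m.surjective, ?_, ?_⟩
  · intro x hx
    have hk : m x ∈ σ.ker := hx
    have h4 := Subgroup.mem_center_iff.mp (h2 hk)
    rw [Subgroup.mem_center_iff]
    intro y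
    apply m.injective
    simpa using h4 (m y)
  · intro x hx
    have hk : m x ∈ σ.ker := hx
    have h4 := h3 hk
    have h5 : (commutator Γ₀).map m.toMonoidHom = commutator Γ := by
      rw [commutator_def, Subgroup.map_commutator, Subgroup.map_top_of_surjective _ m.surjective,
        ← commutator_def]
    rw [← h5] at h4
    obtain ⟨y, hy, hyx⟩ := h4
    have : y = x := m.injective hyx
    exact this ▸ hy

/-- A type with the points of `Fin k` and no structure. -/
def FinBox (k : ℕ) : Type := Fin k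

/-- A finite group has a model in the universe zero. -/
theorem exists_model (Γ' : Type*) [Group Γ'] [Finite Γ'] :
    ∃ (Γ₀ : Type) (_ : Group Γ₀) (_ : Finite Γ₀), Nonempty (Γ₀ ≃* Γ') := by
  obtain ⟨k, ⟨eqv⟩⟩ := Finite.exists_equiv_fin Γ'
  let e : FinBox k ≃ Γ' := eqv.symm
  letI : Group (FinBox k) := e.group
  exact ⟨FinBox k, inferInstance, Finite.of_equiv _ e.symm,
    ⟨{ toEquiv := e, map_mul' := fun x y => e.apply_symm_apply _ }⟩⟩

/-- The multiplier can be computed in the universe zero. -/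
theorem hasSchur_transport {G : Type u} {G₀ : Type} [Group G] [Group G₀] {A : Type v} [CommGroup A]
    (e : G ≃* G₀) (h : HasSchurMultiplier G₀ A) : HasSchurMultiplier G A := by
  obtain ⟨⟨Γ, iΓ, fΓ, σ, hσ, ⟨e'⟩⟩, h₂⟩ := h
  let mU : ULift.{u} Γ ≃* Γ :=
    { toFun := ULift.down, invFun := ULift.up, left_inv := fun _ => rfl, right_inv := fun _ => rfl,
      map_mul' := fun _ _ => rfl }
  have hE : ∀ {Γ₁ : Type} [Group Γ₁] {τ : Γ₁ →* G₀}, IsStemExtension τ →
      IsStemExtension (e.symm.toMonoidHom.comp τ) := by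
    intro Γ₁ _ τ hτ
    have hker : (e.symm.toMonoidHom.comp τ).ker = τ.ker :=
      MonoidHom.ker_comp_of_injective _ _ e.symm.injective
    refine ⟨e.symm.surjective.comp hτ.1, ?_, ?_⟩
    · rw [hker]
      exact hτ.2.1
    · rw [hker]
      exact hτ.2.2
  refine ⟨⟨ULift.{u} Γ, inferInstance, inferInstance, (e.symm.toMonoidHom.comp σ).comp mU.toMonoidHom, ?_, ?_⟩, ?_⟩
  · exact isStem_comp_domain mU (hE hσ)
  · -- the kernel
    have hker : ∀ x : ULift.{u} Γ, x ∈ ((e.symm.toMonoidHom.comp σ).comp mU.toMonoidHom).ker ↔ x.down ∈ σ.ker := by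
      intro x
      rw [MonoidHom.mem_ker, MonoidHom.mem_ker]
      show e.symm (σ x.down) = 1 ↔ _
      exact map_eq_one_iff e.symm e.symm.injective
    refine ⟨MulEquiv.trans ?_ e'⟩
    exact
      { toFun := fun x => ⟨x.1.down, (hker x.1).1 x.2⟩
        invFun := fun x => ⟨ULift.up x.1, (hker _).2 x.2⟩
        left_inv := fun x => rfl
        right_inv := fun x => rfl
        map_mul' := fun x y => rfl }
  · intro Γ' _ _ τ hτ
    obtain ⟨Γ₀, _, _, ⟨m⟩⟩ := exists_model Γ'
    let τ₀ : Γ₀ →* G₀ := (e.toMonoidHom.comp τ).comp m.toMonoidHom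
    have hτ₀ : IsStemExtension τ₀ := by
      refine isStem_comp_domain m ?_
      refine ⟨e.surjective.comp hτ.1, ?_, ?_⟩
      · have hker : (e.toMonoidHom.comp τ).ker = τ.ker :=
          MonoidHom.ker_comp_of_injective _ _ e.injective
        rw [hker]
        exact hτ.2.1
      · have hker : (e.toMonoidHom.comp τ).ker = τ.ker :=
          MonoidHom.ker_comp_of_injective _ _ e.injective
        rw [hker]
        exact hτ.2.2
    obtain ⟨π, hπ⟩ := h₂ Γ₀ τ₀ hτ₀
    have hk : ∀ x : Γ₀, x ∈ τ₀.ker → m x ∈ τ.ker := by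
      intro x hx
      have h1 : e (τ (m x)) = 1 := hx
      rw [MonoidHom.mem_ker]
      exact (map_eq_one_iff e e.injective).1 h1
    let ρ : τ₀.ker →* τ.ker :=
      { toFun := fun x => ⟨m x.1, hk x.1 x.2⟩
        map_one' := Subtype.ext (by simp)
        map_mul' := fun x y => Subtype.ext (by simp) }
    refine ⟨ρ.comp π, ?_⟩
    have hρ : Function.Surjective ρ := by
      rintro ⟨y, hy⟩
      refine ⟨⟨m.symm y, ?_⟩, Subtype.ext (by simp [ρ])⟩
      show e (τ (m (m.symm y))) = 1
      rw [m.apply_symm_apply, (MonoidHom.mem_ker).1 hy, map_one]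
    exact hρ.comp hπ

end Transport

/-! ### Central extensions of a simple group from a presentation -/

section Abstract

variable {G E α : Type*} [Group G] [Group E]

/-- A central quotient of a group generated by the images of the generators, in which the relators of a simple group
vanish, is that simple group. -/
theorem exists_stem_of_simple [IsSimpleGroup G] (f : FreeGroup α →* G) (hf : Function.Surjective f)
    (R : Set (FreeGroup α)) (hker : f.ker = Subgroup.normalClosure R)
    (φ : FreeGroup α →* E) (hφ : Function.Surjective φ) (C : Subgroup E) (hC : C ≤ Subgroup.center E)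
    (hR : ∀ r ∈ R, φ r ∈ C) (hne : C ≠ ⊤) :
    ∃ σ : E →* G, Function.Surjective σ ∧ σ.ker = C ∧ ∀ w, σ (φ w) = f w := by
  haveI hN : C.Normal := ⟨fun n hn g => by
    have h1 := Subgroup.mem_center_iff.mp (hC hn) g
    rw [h1]
    simpa using hn⟩
  let q : E →* E ⧸ C := QuotientGroup.mk' C
  have hk : f.ker ≤ (q.comp φ).ker := by
    rw [hker]
    apply Subgroup.normalClosure_le_normal
    intro r hr
    show q (φ r) = 1
    exact (QuotientGroup.eq_one_iff _).2 (hR r hr)
  let ψ : G →* E ⧸ C := f.liftOfSurjective hf ⟨q.comp φ, hk⟩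
  have hψ : ∀ w, ψ (f w) = q (φ w) := fun w =>
    MonoidHom.liftOfRightInverse_comp_apply f _ _ ⟨q.comp φ, hk⟩ w
  have hψs : Function.Surjective ψ := by
    intro y
    obtain ⟨e, rfl⟩ := QuotientGroup.mk_surjective y
    obtain ⟨w, rfl⟩ := hφ e
    exact ⟨f w, hψ w⟩
  have hψi : Function.Injective ψ := by
    rcases (IsSimpleGroup.eq_bot_or_eq_top_of_normal ψ.ker (MonoidHom.normal_ker ψ)) with h | h
    · exact (MonoidHom.ker_eq_bot_iff ψ).1 h
    · exfalso
      apply hne
      rw [eq_top_iff]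
      intro e _
      obtain ⟨w, rfl⟩ := hφ e
      have h1 : f w ∈ ψ.ker := by rw [h]; trivial
      have h2 : ψ (f w) = 1 := h1
      rw [hψ] at h2
      exact (QuotientGroup.eq_one_iff _).1 h2
  let e₀ : G ≃* E ⧸ C := MulEquiv.ofBijective ψ ⟨hψi, hψs⟩
  refine ⟨e₀.symm.toMonoidHom.comp q, ?_, ?_, ?_⟩
  · exact e₀.symm.surjective.comp (QuotientGroup.mk'_surjective C)
  · rw [MonoidHom.ker_comp_of_injective _ _ e₀.symm.injective]
    exact QuotientGroup.ker_mk' C
  · intro w
    show e₀.symm (q (φ w)) = f w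
    rw [← hψ]
    exact e₀.symm_apply_apply (f w)

/-- A presentation from a bound on the order of the presented group. -/
theorem ker_eq_of_card [Finite G] (f : FreeGroup α →* G) (hf : Function.Surjective f) (R : Set (FreeGroup α))
    (hR : ∀ r ∈ R, f r = 1) [Finite (PresentedGroup R)] (hc : Nat.card (PresentedGroup R) ≤ Nat.card G) :
    f.ker = Subgroup.normalClosure R := by
  have hn : Subgroup.normalClosure R ≤ f.ker := by
    apply Subgroup.normalClosure_le_normal
    intro r hr
    exact hR r hr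
  let ψ : PresentedGroup R →* G := QuotientGroup.lift (Subgroup.normalClosure R) f hn
  have hψ : ∀ w, ψ (PresentedGroup.mk R w) = f w := fun w => rfl
  have hs : Function.Surjective ψ := by
    intro y
    obtain ⟨w, rfl⟩ := hf y
    exact ⟨PresentedGroup.mk R w, hψ w⟩
  have hb := (Function.Surjective.bijective_of_nat_card_le hs hc).1
  apply le_antisymm _ hn
  intro w hw
  have h1 : ψ (PresentedGroup.mk R w) = ψ 1 := by
    rw [hψ, map_one]
    exact hw
  have h2 := hb h1
  exact (QuotientGroup.eq_one_iff w).1 h2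

end Abstract

/-! ### The table -/

section Table

variable {n N : ℕ} {t : ℕ → ℕ → ℕ}

/-- A table on `N` points. -/
structure PTab (t : ℕ → ℕ → ℕ) (n N : ℕ) : Prop where
  hlt : ∀ i < N, ∀ x < 2 * n, t i x < N
  hflp : ∀ i < N, ∀ x < 2 * n, t (t i x) (flp x) = i

theorem flp_even (j : ℕ) : flp (2 * j) = 2 * j + 1 := by
  unfold flp
  rw [if_pos (by omega)]

theorem flp_odd (j : ℕ) : flp (2 * j + 1) = 2 * j := by
  unfold flp
  rw [if_neg (by omega)]
  omega

/-- The permutation of a generator. -/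
def tp (c : PTab t n N) (j : ℕ) : Equiv.Perm (Fin N) :=
  if hj : j < n then
    { toFun := fun i => ⟨t i (2 * j), c.hlt i i.2 _ (by omega)⟩
      invFun := fun i => ⟨t i (2 * j + 1), c.hlt i i.2 _ (by omega)⟩
      left_inv := fun i => Fin.ext (by
        have := c.hflp i i.2 (2 * j) (by omega)
        rwa [flp_even] at this)
      right_inv := fun i => Fin.ext (by
        have := c.hflp i i.2 (2 * j + 1) (by omega)
        rwa [flp_odd] at this) }
  else 1

theorem ltr_tp (c : PTab t n N) {x : ℕ} (hx : x < 2 * n) (i : Fin N) :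
    ((ltr (tp c) x i : Fin N) : ℕ) = t i x := by
  have hj : x / 2 < n := by omega
  by_cases h0 : x % 2 = 0
  · have h1 : 2 * (x / 2) = x := by omega
    simp only [ltr, if_pos h0, tp, dif_pos hj]
    show t i (2 * (x / 2)) = _
    rw [h1]
  · have h1 : 2 * (x / 2) + 1 = x := by omega
    simp only [ltr, if_neg h0, tp, dif_pos hj]
    show t i (2 * (x / 2) + 1) = _
    rw [h1]

theorem word_tp (c : PTab t n N) : ∀ (w : List ℕ), (∀ x ∈ w, x < 2 * n) → ∀ i : Fin N,
    ((wordEl (ltr (tp c)) w i : Fin N) : ℕ) = walkEnd t i w := by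
  intro w
  induction w with
  | nil => intro _ i; rfl
  | cons x u ih =>
    intro hw i
    have hx := hw x (by simp)
    rw [wordEl_cons, Equiv.Perm.mul_apply, ih (fun y hy => hw y (by simp [hy])), ltr_tp c hx]
    rfl

end Table

/-! ### The action of a presented group on a table -/

section Action

variable {G : Type*} [Group G] {n N : ℕ} {t : ℕ → ℕ → ℕ} {g : ℕ → G}

/-- The free generators as a function on the integers. -/
def gF (n : ℕ) (j : ℕ) : FreeGroup (Fin n) := if h : j < n then FreeGroup.of ⟨j, h⟩ else 1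

/-- The value of a word in the generators. -/
theorem lift_wordEl {X : Type*} [Group X] (Y : ℕ → X) (w : List ℕ) (hw : ∀ x ∈ w, x < 2 * n) :
    FreeGroup.lift (fun j : Fin n => Y j) (wordEl (ltr (gF n)) w) = wordEl (ltr Y) w := by
  induction w with
  | nil => simp
  | cons x u ih =>
    have hx := hw x (by simp)
    have hj : x / 2 < n := by omega
    rw [wordEl_cons, wordEl_cons, map_mul, ih (fun y hy => hw y (by simp [hy]))]
    congr 1
    unfold ltr
    split_ifs
    · simp [gF, hj]
    · simp [gF, hj]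

/-- A table in which the relators of a presentation hold gives an action of the group. -/
theorem exists_action (f : FreeGroup (Fin n) →* G) (hf : Function.Surjective f)
    (hfg : ∀ j : Fin n, f (FreeGroup.of j) = g j) (R : Set (FreeGroup (Fin n)))
    (hker : f.ker = Subgroup.normalClosure R) (c : PTab t n N) (Lt : FreeGroup (Fin n) → List ℕ)
    (hLt : ∀ r, wordEl (ltr (gF n)) (Lt r) = r) (hLtlt : ∀ r, ∀ x ∈ Lt r, x < 2 * n)
    (hrow : ∀ r ∈ R, ∀ i < N, walkEnd t i (Lt r) = i) :
    ∃ ρ : G →* Equiv.Perm (Fin N), ∀ j < n, ρ (g j) = tp c j := by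
  let τ : FreeGroup (Fin n) →* Equiv.Perm (Fin N) := FreeGroup.lift (fun j : Fin n => tp c j)
  have hk : f.ker ≤ τ.ker := by
    rw [hker]
    apply Subgroup.normalClosure_le_normal
    intro r hr
    show τ r = 1
    have h1 : τ r = wordEl (ltr (tp c)) (Lt r) := by
      conv_lhs => rw [← hLt r]
      exact lift_wordEl (tp c) _ (hLtlt r)
    rw [h1]
    ext i
    rw [word_tp c _ (hLtlt r), hrow r hr i i.2]
    rfl
  refine ⟨f.liftOfSurjective hf ⟨τ, hk⟩, fun j hj => ?_⟩
  have h1 := MonoidHom.liftOfRightInverse_comp_apply f (Function.surjInv hf) (Function.rightInverse_surjInv hf) ⟨τ, hk⟩ (FreeGroup.of ⟨j, hj⟩)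
  rw [hfg] at h1
  refine h1.trans ?_
  simp [τ]

/-- The table of an action from the permutations of the generators. -/
theorem tab_of_action (c : PTab t n N) (hN : 0 < N) {par lt : ℕ → ℕ} (ρ : G →* Equiv.Perm (Fin N))
    (hρ : ∀ j < n, ρ (g j) = tp c j)
    (hpar : ∀ i < N, i ≠ 0 → par i < i ∧ lt i < 2 * n ∧ t (par i) (lt i) = i) :
    @Tab G (Fin N) _ (MulAction.compHom (Fin N) ρ) g (fun i => if h : i < N then ⟨i, h⟩ else ⟨0, hN⟩) n N t par lt := by
  letI : MulAction G (Fin N) := MulAction.compHom (Fin N) ρ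
  have hω : ∀ i (h : i < N), (if h : i < N then (⟨i, h⟩ : Fin N) else ⟨0, hN⟩) = ⟨i, h⟩ := fun i h => dif_pos h
  refine ⟨hN, c.hlt, ?_, c.hflp, ?_, hpar⟩
  · intro i hi x hx
    have hlt := c.hlt i hi x hx
    rw [hω i hi, hω _ hlt]
    show ρ (ltr g x) ⟨i, hi⟩ = _
    have h1 : ρ (ltr g x) = ltr (tp c) x := by
      have hj : x / 2 < n := by omega
      unfold ltr
      split_ifs
      · exact hρ _ hj
      · rw [map_inv, hρ _ hj]
    rw [h1]
    apply Fin.ext
    exact ltr_tp c hx _
  · intro i hi h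
    rw [hω i hi, hω 0 hN] at h
    exact congrArg Fin.val h

/-- The order of the stabilizer of a point of a transitive table. -/
theorem card_stabilizer_of_table [Finite G] (c : PTab t n N) (hN : 0 < N) {par lt : ℕ → ℕ} (ρ : G →* Equiv.Perm (Fin N))
    (hρ : ∀ j < n, ρ (g j) = tp c j)
    (hpar : ∀ i < N, i ≠ 0 → par i < i ∧ lt i < 2 * n ∧ t (par i) (lt i) = i) :
    Nat.card (@MulAction.stabilizer G (Fin N) _ (MulAction.compHom (Fin N) ρ) ⟨0, hN⟩) * N = Nat.card G := by
  letI : MulAction G (Fin N) := MulAction.compHom (Fin N) ρ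
  have hL : ∀ x < 2 * n, ρ (ltr g x) = ltr (tp c) x := by
    intro x hx
    have hj : x / 2 < n := by omega
    unfold ltr
    split_ifs
    · exact hρ _ hj
    · rw [map_inv, hρ _ hj]
  have htr : ∀ i (hi : i < N), ∃ h : G, h • (⟨0, hN⟩ : Fin N) = ⟨i, hi⟩ := by
    intro i
    induction i using Nat.strong_induction_on with
    | _ i ih =>
      intro hi
      by_cases h0 : i = 0
      · subst h0
        exact ⟨1, one_smul _ _⟩
      · obtain ⟨h1, h2, h3⟩ := hpar i hi h0
        obtain ⟨h, hh⟩ := ih _ h1 (by omega)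
        refine ⟨ltr g (lt i) * h, ?_⟩
        rw [mul_smul, hh]
        show ρ (ltr g (lt i)) _ = _
        rw [hL _ h2]
        apply Fin.ext
        rw [ltr_tp c h2]
        exact h3
  have horb : MulAction.orbit G (⟨0, hN⟩ : Fin N) = Set.univ := by
    ext y
    simp only [Set.mem_univ, iff_true]
    obtain ⟨h, hh⟩ := htr y y.2
    exact ⟨h, hh⟩
  have h1 := MulAction.index_stabilizer G (⟨0, hN⟩ : Fin N)
  have h2 : (MulAction.orbit G (⟨0, hN⟩ : Fin N)).ncard = N := by
    rw [horb, Set.ncard_univ]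
    simp
  rw [h2] at h1
  have h3 := Subgroup.card_mul_index (MulAction.stabilizer G (⟨0, hN⟩ : Fin N))
  rw [h1] at h3
  exact h3

end Action

/-! ### The central extension -/

section Cover

variable {A : Type} [CommGroup A] {n N : ℕ} {t : ℕ → ℕ → ℕ} {z : ℕ → ℕ → A}

/-- A table with edge labels. -/
structure VTab (t : ℕ → ℕ → ℕ) (z : ℕ → ℕ → A) (n N : ℕ) : Prop extends PTab t n N where
  hz : ∀ i < N, ∀ x < 2 * n, z (t i x) (flp x) = (z i x)⁻¹

/-- The permutation of a generator. -/
def Yp (c : VTab t z n N) (j : ℕ) : Equiv.Perm (A × Fin N) :=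
  if hj : j < n then
    { toFun := fun p => (z p.2 (2 * j) * p.1, ⟨t p.2 (2 * j), c.hlt _ p.2.2 _ (by omega)⟩)
      invFun := fun p => (z p.2 (2 * j + 1) * p.1, ⟨t p.2 (2 * j + 1), c.hlt _ p.2.2 _ (by omega)⟩)
      left_inv := fun p => by
        have h1 := c.hz _ p.2.2 (2 * j) (by omega)
        have h2 := c.hflp _ p.2.2 (2 * j) (by omega)
        rw [flp_even] at h1 h2
        apply Prod.ext
        · show z (t p.2 (2 * j)) (2 * j + 1) * (z p.2 (2 * j) * p.1) = p.1
          rw [h1, inv_mul_cancel_left]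
        · exact Fin.ext h2
      right_inv := fun p => by
        have h1 := c.hz _ p.2.2 (2 * j + 1) (by omega)
        have h2 := c.hflp _ p.2.2 (2 * j + 1) (by omega)
        rw [flp_odd] at h1 h2
        apply Prod.ext
        · show z (t p.2 (2 * j + 1)) (2 * j) * (z p.2 (2 * j + 1) * p.1) = p.1
          rw [h1, inv_mul_cancel_left]
        · exact Fin.ext h2 }
  else 1

theorem ltr_Yp (c : VTab t z n N) {x : ℕ} (hx : x < 2 * n) (p : A × Fin N) :
    (ltr (Yp c) x p).1 = z p.2 x * p.1 ∧ (((ltr (Yp c) x p).2 : Fin N) : ℕ) = t p.2 x := by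
  have hj : x / 2 < n := by omega
  by_cases h0 : x % 2 = 0
  · have h1 : 2 * (x / 2) = x := by omega
    simp only [ltr, if_pos h0, Yp, dif_pos hj]
    constructor
    · show z p.2 (2 * (x / 2)) * p.1 = _
      rw [h1]
    · show t p.2 (2 * (x / 2)) = _
      rw [h1]
  · have h1 : 2 * (x / 2) + 1 = x := by omega
    simp only [ltr, if_neg h0, Yp, dif_pos hj]
    constructor
    · show z p.2 (2 * (x / 2) + 1) * p.1 = _
      rw [h1]
    · show t p.2 (2 * (x / 2) + 1) = _
      rw [h1]

theorem word_Yp (c : VTab t z n N) : ∀ (w : List ℕ), (∀ x ∈ w, x < 2 * n) → ∀ p : A × Fin N,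
    (wordEl (ltr (Yp c)) w p).1 = walkProd t z p.2 w * p.1 ∧
      (((wordEl (ltr (Yp c)) w p).2 : Fin N) : ℕ) = walkEnd t p.2 w := by
  intro w
  induction w with
  | nil => intro _ p; simp [walkProd, walkEnd]
  | cons x u ih =>
    intro hw p
    have hx := hw x (by simp)
    obtain ⟨h1, h2⟩ := ltr_Yp c hx p
    obtain ⟨h3, h4⟩ := ih (fun y hy => hw y (by simp [hy])) (ltr (Yp c) x p)
    rw [wordEl_cons, Equiv.Perm.mul_apply]
    constructor
    · rw [h3, h1, h2]
      simp only [walkProd, mul_assoc]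
    · rw [h4, h2]
      rfl

/-- The translations. -/
def trans : A →* Equiv.Perm (A × Fin N) where
  toFun a :=
    { toFun := fun p => (a * p.1, p.2)
      invFun := fun p => (a⁻¹ * p.1, p.2)
      left_inv := fun p => by simp
      right_inv := fun p => by simp }
  map_one' := by
    ext p <;> simp
  map_mul' a b := by
    ext p <;> simp [mul_assoc]

theorem trans_apply (a : A) (p : A × Fin N) : (trans a : Equiv.Perm (A × Fin N)) p = (a * p.1, p.2) := rfl

theorem Yp_comm (c : VTab t z n N) (j : ℕ) (a : A) : Yp c j * trans a = trans a * Yp c j := by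
  by_cases hj : j < n
  · ext p
    · simp only [Equiv.Perm.mul_apply, trans_apply, Yp, dif_pos hj]
      show z p.2 (2 * j) * (a * p.1) = a * (z p.2 (2 * j) * p.1)
      exact mul_left_comm _ _ _
    · simp only [Equiv.Perm.mul_apply, trans_apply, Yp, dif_pos hj]
      rfl
  · simp [Yp, dif_neg hj]

/-- The group generated by the permutations. -/
def Gm (c : VTab t z n N) : Subgroup (Equiv.Perm (A × Fin N)) := Subgroup.closure (Yp c '' Set.Iio n)

theorem Yp_mem (c : VTab t z n N) (j : ℕ) : Yp c j ∈ Gm c := by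
  by_cases hj : j < n
  · exact Subgroup.subset_closure ⟨j, hj, rfl⟩
  · have : Yp c j = 1 := by simp [Yp, dif_neg hj]
    rw [this]
    exact one_mem _

/-- The generators in the group. -/
def Yg (c : VTab t z n N) (j : ℕ) : Gm c := ⟨Yp c j, Yp_mem c j⟩

theorem trans_comm_Gm (c : VTab t z n N) (a : A) {y : Equiv.Perm (A × Fin N)} (hy : y ∈ Gm c) :
    y * trans a = trans a * y := by
  induction hy using Subgroup.closure_induction with
  | mem y hy =>
    obtain ⟨j, _, rfl⟩ := hy
    exact Yp_comm c j a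
  | one => simp
  | mul u v _ _ hu hv => rw [mul_assoc, hv, ← mul_assoc, hu, mul_assoc]
  | inv u _ hu =>
    calc u⁻¹ * trans a = u⁻¹ * (trans a * u) * u⁻¹ := by group
      _ = u⁻¹ * (u * trans a) * u⁻¹ := by rw [hu]
      _ = trans a * u⁻¹ := by group

/-- The translations in the group. -/
def Cg (c : VTab t z n N) : Subgroup (Gm c) := (trans (A := A) (N := N)).range.comap (Gm c).subtype

theorem Cg_central (c : VTab t z n N) : Cg c ≤ Subgroup.center (Gm c) := by
  intro x hx
  obtain ⟨a, ha⟩ := hx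
  rw [Subgroup.mem_center_iff]
  intro y
  apply Subtype.ext
  show (y : Equiv.Perm (A × Fin N)) * x = x * y
  have h1 : (x : Equiv.Perm (A × Fin N)) = trans a := ha.symm
  rw [h1]
  exact trans_comm_Gm c a y.2

theorem word_coe (c : VTab t z n N) (w : List ℕ) :
    ((wordEl (ltr (Yg c)) w : Gm c) : Equiv.Perm (A × Fin N)) = wordEl (ltr (Yp c)) w :=
  map_wordEl_ltr (Gm c).subtype (Yg c) w

theorem Gm_word (c : VTab t z n N) (x : Gm c) : ∃ w : List ℕ, (∀ y ∈ w, y < 2 * n) ∧ wordEl (ltr (Yg c)) w = x := by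
  obtain ⟨w, hw, hx⟩ := exists_word x.2
  exact ⟨w, hw, Subtype.ext ((word_coe c w).trans hx)⟩

variable {G : Type} [Group G]

/-- A finite central extension of a simple group from labels on a table: the relators have constant label sums, and the
label sums of the given words, which are trivial in the group, generate the group of labels. -/
theorem cover_exists [IsSimpleGroup G] [Finite A] {g : ℕ → G} (f : FreeGroup (Fin n) →* G) (hf : Function.Surjective f)
    (hfg : ∀ j : Fin n, f (FreeGroup.of j) = g j) (R : Set (FreeGroup (Fin n)))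
    (hker : f.ker = Subgroup.normalClosure R) (c : VTab t z n N) (hN : 0 < N) (Lt : FreeGroup (Fin n) → List ℕ)
    (hLt : ∀ r, wordEl (ltr (gF n)) (Lt r) = r) (hLtlt : ∀ r, ∀ x ∈ Lt r, x < 2 * n)
    (hrow : ∀ r ∈ R, ∃ a : A, ∀ i < N, walkEnd t i (Lt r) = i ∧ walkProd t z i (Lt r) = a)
    (hmove : ∃ j < n, ∃ i < N, t i (2 * j) ≠ i)
    (Ce : ℕ → List ℕ) (hCe : ∀ j < n, ∀ x ∈ Ce j, x < 2 * n) (hCexp : ∀ j < n, ∀ k < n, expV (Ce j) k = 0)
    (hCg : ∀ j < n, wordEl (ltr g) (Ce j ++ [2 * j + 1]) = 1)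
    (hCz : ∀ j < n, walkProd t z 0 (Ce j ++ [2 * j + 1]) = 1)
    (U : List (List ℕ)) (hU : ∀ w ∈ U, (∀ x ∈ w, x < 2 * n) ∧ wordEl (ltr g) w = 1)
    (hUgen : ∀ S : Subgroup A, (∀ w ∈ U, walkProd t z 0 w ∈ S) → S = ⊤) :
    ∃ (Γ : Type) (_ : Group Γ) (_ : Finite Γ) (σ : Γ →* G), IsStemExtension σ ∧ Nonempty (σ.ker ≃* A) := by
  classical
  let φ : FreeGroup (Fin n) →* Gm c := FreeGroup.lift (fun j : Fin n => Yg c j)
  have hφw : ∀ w : List ℕ, (∀ x ∈ w, x < 2 * n) → φ (wordEl (ltr (gF n)) w) = wordEl (ltr (Yg c)) w :=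
    fun w hw => lift_wordEl (Yg c) w hw
  have hfw : ∀ w : List ℕ, (∀ x ∈ w, x < 2 * n) → f (wordEl (ltr (gF n)) w) = wordEl (ltr g) w := by
    intro w hw
    have h1 : f = FreeGroup.lift (fun j : Fin n => g j) := by
      ext j
      simp [hfg]
    rw [h1]
    exact lift_wordEl g w hw
  have hφs : Function.Surjective φ := by
    intro x
    obtain ⟨w, hw, rfl⟩ := Gm_word c x
    exact ⟨_, hφw w hw⟩
  have hRC : ∀ r ∈ R, φ r ∈ Cg c := by
    intro r hr
    obtain ⟨a, ha⟩ := hrow r hr
    refine ⟨a, ?_⟩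
    have h1 : ((φ r : Gm c) : Equiv.Perm (A × Fin N)) = wordEl (ltr (Yp c)) (Lt r) := by
      conv_lhs => rw [← hLt r]
      rw [hφw _ (hLtlt r), word_coe]
    show trans a = ((φ r : Gm c) : Equiv.Perm (A × Fin N))
    rw [h1]
    ext p
    · obtain ⟨h2, _⟩ := word_Yp c _ (hLtlt r) p
      rw [h2, (ha p.2 p.2.2).2]
      rfl
    · obtain ⟨_, h3⟩ := word_Yp c _ (hLtlt r) p
      rw [h3, (ha p.2 p.2.2).1]
      rfl
  have hne : Cg c ≠ ⊤ := by
    intro h
    obtain ⟨j, hj, i, hi, hti⟩ := hmove
    have h1 : Yg c j ∈ Cg c := by rw [h]; trivial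
    obtain ⟨a, ha⟩ := h1
    apply hti
    have h2 := congrArg (fun y : Equiv.Perm (A × Fin N) => ((y (1, ⟨i, hi⟩)).2 : ℕ)) ha
    have h3 : ((Yp c j (1, ⟨i, hi⟩)).2 : ℕ) = t i (2 * j) := by
      simp only [Yp, dif_pos hj]
      rfl
    have h4 : (((Yg c j : Gm c) : Equiv.Perm (A × Fin N)) = Yp c j) := rfl
    simp only [Subgroup.subtype_apply] at h2
    rw [h4, h3] at h2
    exact h2.symm
  obtain ⟨σ, hσs, hσk, hσφ⟩ := exists_stem_of_simple f hf R hker φ hφs (Cg c) (Cg_central c) hRC hne
  -- the values of words which vanish in the group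
  have hval : ∀ w : List ℕ, (∀ x ∈ w, x < 2 * n) → wordEl (ltr g) w = 1 →
      wordEl (ltr (Yp c)) w = trans (walkProd t z 0 w) := by
    intro w hw h1
    have h2 : wordEl (ltr (Yg c)) w ∈ σ.ker := by
      rw [MonoidHom.mem_ker, ← hφw w hw, hσφ, hfw w hw, h1]
    rw [hσk] at h2
    obtain ⟨a, ha⟩ := h2
    have h3 : trans a = wordEl (ltr (Yp c)) w := ha.trans (word_coe c w)
    have h4 := (word_Yp c w hw (1, ⟨0, hN⟩)).1
    rw [← h3, trans_apply] at h4
    simp only [mul_one] at h4
    rw [← h3, h4]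
  -- perfect
  have hperf : commutator (Gm c) = ⊤ := by
    refine commutator_eq_top_of_words (n := n) (g := Yg c) (C := Ce) ?_ ?_ hCe hCexp
    · intro h
      obtain ⟨w, hw, rfl⟩ := Gm_word c h
      exact wordEl_mem_closure _ hw
    · intro j hj
      apply Subtype.ext
      rw [word_coe]
      have hlet : ∀ x ∈ Ce j ++ [2 * j + 1], x < 2 * n := by
        intro x hx
        rcases List.mem_append.1 hx with hx | hx
        · exact hCe j hj x hx
        · rw [List.mem_singleton] at hx
          omega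
      have h1 := hval _ hlet (hCg j hj)
      rw [hCz j hj, map_one, wordEl_append] at h1
      have h2 : ltr (Yp c) (2 * j + 1) = (Yp c j)⁻¹ := by
        have h4 : (2 * j + 1) / 2 = j := by omega
        simp [ltr, h4]
      rw [wordEl_cons, wordEl_nil, one_mul, h2] at h1
      exact (inv_mul_eq_one.1 h1).symm
  refine ⟨Gm c, inferInstance, inferInstance, σ, ⟨hσs, ?_, ?_⟩, ?_⟩
  · rw [hσk]
    exact Cg_central c
  · rw [hperf]
    exact le_top
  · -- the kernel
    have hT : ∀ a : A, trans a ∈ Gm c := by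
      have h1 : (Gm c).comap (trans (A := A) (N := N)) = ⊤ := by
        apply hUgen
        intro w hw
        obtain ⟨h2, h3⟩ := hU w hw
        show trans (walkProd t z 0 w) ∈ Gm c
        rw [← hval w h2 h3, ← word_coe]
        exact (wordEl (ltr (Yg c)) w).2
      intro a
      have : a ∈ (Gm c).comap (trans (A := A) (N := N)) := by rw [h1]; trivial
      exact this
    let e : A →* Cg c :=
      { toFun := fun a => ⟨⟨trans a, hT a⟩, ⟨a, rfl⟩⟩
        map_one' := by
          apply Subtype.ext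
          apply Subtype.ext
          exact map_one _
        map_mul' := fun a b => by
          apply Subtype.ext
          apply Subtype.ext
          exact map_mul _ _ _ }
    have he : Function.Bijective e := by
      constructor
      · intro a b hab
        have h1 : trans a = trans b := congrArg (fun x : Cg c => ((x : Gm c) : Equiv.Perm (A × Fin N))) hab
        have h2 := congrArg (fun y : Equiv.Perm (A × Fin N) => (y (1, ⟨0, hN⟩)).1) h1
        simpa [trans_apply] using h2
      · rintro ⟨x, a, ha⟩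
        exact ⟨a, Subtype.ext (Subtype.ext ha)⟩
    exact ⟨(MulEquiv.subgroupCongr hσk).trans (MulEquiv.ofBijective e he).symm⟩

end Cover

/-! ### Generators -/

section Gen

variable {G : Type*} [Group G] {n : ℕ} {g : ℕ → G}

/-- The map from the free group is onto if the elements generate. -/
theorem lift_surjective (hgen : ∀ h : G, h ∈ Subgroup.closure (g '' Set.Iio n)) :
    Function.Surjective (FreeGroup.lift (fun j : Fin n => g j)) := by
  intro h
  obtain ⟨w, hw, rfl⟩ := exists_word (hgen h)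
  exact ⟨_, lift_wordEl g w hw⟩

/-- A bound for the order of a presented group from the index of a cyclic subgroup. -/
theorem card_le_of_cyclic {α : Type*} {R : Set (FreeGroup α)} {h : FreeGroup α} {m N : ℕ} (hm : 0 < m)
    (hN : N ≠ 0) (hpow : h ^ m ∈ R)
    (hi : ((Subgroup.closure {x | x ∈ [h]}).map (PresentedGroup.mk R)).index = N) :
    Finite (PresentedGroup R) ∧ Nat.card (PresentedGroup R) ≤ N * m := by
  set H := (Subgroup.closure {x | x ∈ [h]}).map (PresentedGroup.mk R) with hH
  have h1 : H = Subgroup.zpowers (PresentedGroup.mk R h) := by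
    rw [hH, MonoidHom.map_closure, Subgroup.zpowers_eq_closure]
    congr 1
    ext x
    simp
  have hp : (PresentedGroup.mk R h) ^ m = 1 := by
    rw [← map_pow]
    exact PresentedGroup.one_of_mem hpow
  have h2 : orderOf (PresentedGroup.mk R h) ≤ m := orderOf_le_of_pow_eq_one hm hp
  have h3 : 0 < orderOf (PresentedGroup.mk R h) := orderOf_pos_iff.2 (isOfFinOrder_iff_pow_eq_one.2 ⟨m, hm, hp⟩)
  have h4 : Nat.card H = orderOf (PresentedGroup.mk R h) := by
    rw [h1, Nat.card_zpowers]
  have h5 := Subgroup.card_mul_index H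
  rw [hi, h4] at h5
  have h6 : Nat.card (PresentedGroup R) ≠ 0 := by
    rw [← h5]
    exact Nat.mul_ne_zero h3.ne' hN
  refine ⟨Nat.finite_of_card_ne_zero h6, ?_⟩
  rw [← h5, mul_comm]
  exact Nat.mul_le_mul_left _ h2

end Gen

/-! ### Numeric walks -/

section Numeric

/-- The sum of the labels along a walk. -/
def wsumN (t zc : ℕ → ℕ → ℕ) : ℕ → List ℕ → ℕ
  | _, [] => 0
  | i, x :: u => zc i x + wsumN t zc (t i x) u

/-- A forced walk adding labels, for the kernel. -/
noncomputable def wfold (t zc : ℕ → ℕ → ℕ) (w : List ℕ) : (ℕ → ℕ → Bool) → ℕ → ℕ → Bool :=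
  List.rec (motive := fun _ => (ℕ → ℕ → Bool) → ℕ → ℕ → Bool) (fun fin i s => fin i s)
    (fun x _ ih fin i s => frc (t i x) fun i' => frc (Nat.add s (zc i x)) fun s' => ih fin i' s') w

theorem wfold_spec (t zc : ℕ → ℕ → ℕ) (w : List ℕ) (fin : ℕ → ℕ → Bool) (i s : ℕ) :
    wfold t zc w fin i s = fin (walkEnd t i w) (s + wsumN t zc i w) := by
  induction w generalizing i s with
  | nil => rfl
  | cons x u ih =>
    have e : wfold t zc (x :: u) fin i s = wfold t zc u fin (t i x) (s + zc i x) := by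
      show frc (t i x) (fun i' => frc (Nat.add s (zc i x)) fun s' => wfold t zc u fin i' s') = _
      rw [frc_eq, frc_eq]
      rfl
    rw [e, ih]
    simp only [walkEnd, wsumN, Nat.add_assoc]

theorem map_walkProd_cast {A : Type*} [CommGroup A] {m : ℕ} (χ : A →* Multiplicative (ZMod m))
    {t zc : ℕ → ℕ → ℕ} {z : ℕ → ℕ → A} (h : ∀ i x, χ (z i x) = Multiplicative.ofAdd ((zc i x : ℕ) : ZMod m))
    (i : ℕ) (w : List ℕ) :
    χ (walkProd t z i w) = Multiplicative.ofAdd ((wsumN t zc i w : ℕ) : ZMod m) := by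
  induction w generalizing i with
  | nil =>
    simp [walkProd, wsumN]
  | cons x u ih =>
    simp only [walkProd, wsumN, map_mul, ih, h, Nat.cast_add, ofAdd_add]
    exact mul_comm _ _

end Numeric

/-! ### Peeling, general form -/

section PeelCore

variable {A : Type*} [CommGroup A] {t : ℕ → ℕ → ℕ} {z : ℕ → ℕ → A} {rr : ℕ → A} {n N : ℕ} {W : List (List ℕ)} {e : ℕ}

/-- The consequences of a peeling certificate: the parameters satisfy the relations, and generate the group. -/
theorem peel_core {par lt : ℕ → ℕ} {rk formT kk ss pV : ℕ → ℕ} {off E B kmax R c0 a Lm a2 : ℕ}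
    (hcoc : Cocy t par lt n N W e z rr) (hn : 0 < n) (hlt : ∀ i < N, ∀ x < 2 * n, t i x < N)
    (hlet : ∀ k, ∀ x ∈ W.getD k [], x < 2 * n)
    (hpar : ∀ i < N, i ≠ 0 → par i < N ∧ lt i < 2 * n ∧ t (par i) (lt i) = i)
    (hB : 1 < B) (hE : E = B ^ (R + c0)) (hkmax : kmax ≤ e + R) (hss : ∀ u < N * n, ss u < N) (hLm1 : 1 ≤ Lm)
    (hLm : Lm * (a + 1) + 2 + 1 < B) (hLm2 : Lm * a + a2 + 1 + 1 < B) (hlen : ∀ k, (W.getD k []).length ≤ Lm)
    (hoff : bdB B a (R + c0) off = true) (hbd : ∀ u < N * n, bdB B a (R + c0) (formT (rk u)) = true)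
    (hchk : ∀ u < N * n, chkVar t n par lt rk formT kk ss pV W off E e B kmax R c0 u = true)
    {rels : List (ℕ × ℕ × ℕ × ℕ)} (hrels : relsOK t n N rk formT W off e B a2 (R + c0) kmax rels = true) :
    (∀ {ps ms τ : List ℕ}, cmbOK (relVecs B (R + c0) rels) ps ms τ = true → ev (qOf z rr n N e R pV) 0 τ = 1) ∧
      ∀ S : Subgroup A, (∀ j, j < R + c0 → qOf z rr n N e R pV j ∈ S) → S = ⊤ := by
  have ctx : LinCtx t z rr n N W := hcoc.toLin (MonoidHom.id A) hn hlt hlet
  have hall := peel_main (kk := kk) (ss := ss) (pV := pV) (E := E) (kmax := kmax) (a := a) (Lm := Lm) ctx hpar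
    hcoc.htree hcoc.hexact hB hE hkmax hss hLm1 hLm hlen hoff hbd hchk
  set q := qOf z rr n N e R pV with hq
  have hbd' : ∀ u < N * n, Bd B a (R + c0) (formT (rk u)) := fun u hu => Bd_of_bdB (hbd u hu)
  have hrel : ∀ r ∈ relVecs B (R + c0) rels, ev q 0 r.1 = ev q 0 r.2 := by
    intro r hr
    obtain ⟨x, hx, rfl⟩ := List.mem_map.mp hr
    have h1 := List.all_eq_true.mp hrels x hx
    simp only [Bool.and_eq_true, Nat.blt_eq] at h1
    exact rel_of_row ctx hcoc.hexact hB hkmax h1.1 hLm1 hLm2 (hlen _) (Bd_of_bdB hoff) hbd' hall h1.2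
  refine ⟨?_, ?_⟩
  · intro ps ms τ h
    exact ev_target hrel (of_decide_eq_true h)
  · intro S hS
    have h3 := labels_mem (f := fun u => formT (rk u)) ctx hall S hS
    exact hcoc.hgen _ h3

end PeelCore

end Cfsg.Agent.Lib.Compute.CoverCert
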