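import Mathlib

/-!
# Codes of `4 × 4` matrices over `ZMod 2`

Vectors are coded by 4-bit numbers, matrices by 16-bit numbers (column by column).
-/

set_option autoImplicit false

namespace Cfsg.Agent.Lib.Compute.F2Mat4

open Matrix

/-- Matrices. -/
abbrev M4 := Matrix (Fin 4) (Fin 4) (ZMod 2)
/-- Vectors. -/
abbrev V4 := Fin 4 → ZMod 2

/-- The code of a vector. -/
def vc (v : V4) : ℕ := (v 0).val + 2 * ((v 1).val + 2 * ((v 2).val + 2 * (v 3).val))

/-- The vector of a code. -/
def cv (c : ℕ) : V4 := ![(c % 2 : ℕ), (c / 2 % 2 : ℕ), (c / 4 % 2 : ℕ), (c / 8 % 2 : ℕ)]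

theorem vc_cv : ∀ v : V4, cv (vc v) = v := by decide +kernel

theorem vc_injective : Function.Injective vc := fun v w h => by
  rw [← vc_cv v, h, vc_cv]

theorem vc_lt : ∀ v : V4, vc v < 16 := by decide +kernel

theorem vc_add : ∀ v w : V4, vc (v + w) = Nat.xor (vc v) (vc w) := by decide +kernel

theorem vc_zero : vc (0 : V4) = 0 := by decide +kernel

theorem vc_eq_zero : ∀ v : V4, vc v = 0 ↔ v = 0 := by decide +kernel

/-- Bit `k` of `c`, as a Boolean. -/
def bit (c k : ℕ) : Bool := Nat.beq (Nat.land (Nat.shiftRight c k) 1) 1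

theorem vc_smul_bit : ∀ (v : V4) (k : Fin 4) (w : V4),
    vc (v k • w) = cond (bit (vc v) k.val) (vc w) 0 := by decide +kernel

/-- Column `j` of a matrix. -/
def colV (A : M4) (j : Fin 4) : V4 := fun i => A i j

/-- The code of a matrix. -/
def mc (A : M4) : ℕ :=
  vc (colV A 0) + 16 * (vc (colV A 1) + 16 * (vc (colV A 2) + 16 * vc (colV A 3)))

/-- Column `0` of a code. -/
def col0 (x : ℕ) : ℕ := x % 16
/-- Column `1` of a code. -/
def col1 (x : ℕ) : ℕ := x / 16 % 16
/-- Column `2` of a code. -/
def col2 (x : ℕ) : ℕ := x / 256 % 16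
/-- Column `3` of a code. -/
def col3 (x : ℕ) : ℕ := x / 4096

theorem col0_mc (A : M4) : col0 (mc A) = vc (colV A 0) := by
  have h0 := vc_lt (colV A 0)
  simp only [col0, mc]
  omega

theorem col1_mc (A : M4) : col1 (mc A) = vc (colV A 1) := by
  have h0 := vc_lt (colV A 0)
  have h1 := vc_lt (colV A 1)
  simp only [col1, mc]
  omega

theorem col2_mc (A : M4) : col2 (mc A) = vc (colV A 2) := by
  have h0 := vc_lt (colV A 0)
  have h1 := vc_lt (colV A 1)
  have h2 := vc_lt (colV A 2)
  simp only [col2, mc]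
  omega

theorem col3_mc (A : M4) : col3 (mc A) = vc (colV A 3) := by
  have h0 := vc_lt (colV A 0)
  have h1 := vc_lt (colV A 1)
  have h2 := vc_lt (colV A 2)
  simp only [col3, mc]
  omega

theorem mc_lt (A : M4) : mc A < 65536 := by
  have h0 := vc_lt (colV A 0)
  have h1 := vc_lt (colV A 1)
  have h2 := vc_lt (colV A 2)
  have h3 := vc_lt (colV A 3)
  simp only [mc]
  omega

/-- The product of a coded matrix and a coded vector. -/
def app (x c : ℕ) : ℕ :=
  Nat.xor (cond (bit c 0) (col0 x) 0) (Nat.xor (cond (bit c 1) (col1 x) 0)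
    (Nat.xor (cond (bit c 2) (col2 x) 0) (cond (bit c 3) (col3 x) 0)))

theorem mulVec_eq (A : M4) (v : V4) :
    A *ᵥ v = v 0 • colV A 0 + (v 1 • colV A 1 + (v 2 • colV A 2 + v 3 • colV A 3)) := by
  funext i
  simp only [Matrix.mulVec, dotProduct, Fin.sum_univ_four, colV, Pi.add_apply, Pi.smul_apply, smul_eq_mul]
  ring

theorem vc_mulVec (A : M4) (v : V4) : vc (A *ᵥ v) = app (mc A) (vc v) := by
  rw [mulVec_eq, vc_add, vc_add, vc_add]
  have h0 := vc_smul_bit v 0 (colV A 0)
  have h1 := vc_smul_bit v 1 (colV A 1)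
  have h2 := vc_smul_bit v 2 (colV A 2)
  have h3 := vc_smul_bit v 3 (colV A 3)
  simp only [app, col0_mc, col1_mc, col2_mc, col3_mc]
  rw [h0, h1, h2, h3]
  rfl

/-- The product of two codes. -/
def mul4 (x y : ℕ) : ℕ :=
  app x (col0 y) + 16 * (app x (col1 y) + 16 * (app x (col2 y) + 16 * app x (col3 y)))

theorem colV_mul (A B : M4) (j : Fin 4) : colV (A * B) j = A *ᵥ colV B j := by
  funext i
  simp only [colV, Matrix.mul_apply, Matrix.mulVec, dotProduct]

theorem mc_mul (A B : M4) : mc (A * B) = mul4 (mc A) (mc B) := by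
  have e : ∀ j, vc (colV (A * B) j) = app (mc A) (vc (colV B j)) := fun j => by
    rw [colV_mul, vc_mulVec]
  unfold mul4
  rw [col0_mc, col1_mc, col2_mc, col3_mc, ← e, ← e, ← e, ← e]
  rfl

theorem mc_one : mc (1 : M4) = 33825 := by decide +kernel

theorem colV_ext {A B : M4} (h : ∀ j, colV A j = colV B j) : A = B := by
  funext i j
  exact congrFun (h j) i

theorem mc_injective : Function.Injective mc := by
  intro A B h
  have h0 : vc (colV A 0) = vc (colV B 0) := by rw [← col0_mc, h, col0_mc]
  have h1 : vc (colV A 1) = vc (colV B 1) := by rw [← col1_mc, h, col1_mc]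
  have h2 : vc (colV A 2) = vc (colV B 2) := by rw [← col2_mc, h, col2_mc]
  have h3 : vc (colV A 3) = vc (colV B 3) := by rw [← col3_mc, h, col3_mc]
  apply colV_ext
  intro j
  fin_cases j
  · exact vc_injective h0
  · exact vc_injective h1
  · exact vc_injective h2
  · exact vc_injective h3

/-- Nat-level power of a code. -/
def pow4 (x : ℕ) : ℕ → ℕ
  | 0 => 33825
  | n + 1 => mul4 (pow4 x n) x

theorem mc_pow (A : M4) (n : ℕ) : mc (A ^ n) = pow4 (mc A) n := by
  induction n with
  | zero => simp only [pow_zero, pow4]; exact mc_one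
  | succ k ih => rw [pow_succ, mc_mul, ih, pow4]

/-- Run a certificate of reachability: each step adds the image of a reached code under a generator. -/
def runCert (act : ℕ → ℕ → ℕ) (gens : List ℕ) : ℕ → List (ℕ × ℕ) → ℕ
  | mask, [] => mask
  | mask, (g, q) :: rest =>
    if mask.testBit q && gens.contains g then
      runCert act gens (Nat.lor mask (Nat.shiftLeft 1 (act g q))) rest
    else runCert act gens mask rest

theorem runCert_spec {P : ℕ → Prop} (act : ℕ → ℕ → ℕ) (gens : List ℕ)
    (hstep : ∀ g ∈ gens, ∀ p, P p → P (act g p)) :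
    ∀ (cert : List (ℕ × ℕ)) (mask : ℕ), (∀ p, mask.testBit p = true → P p) →
      ∀ p, (runCert act gens mask cert).testBit p = true → P p := by
  intro cert
  induction cert with
  | nil => intro mask h p hp; exact h p hp
  | cons c rest ih =>
    intro mask h p hp
    obtain ⟨g, q⟩ := c
    simp only [runCert] at hp
    split_ifs at hp with hc
    · refine ih _ ?_ p hp
      intro r hr
      simp only [Bool.and_eq_true, List.contains_iff_mem] at hc
      have h1 : Nat.lor mask (Nat.shiftLeft 1 (act g q)) = mask ||| (1 <<< act g q) := rfl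
      rw [h1, Nat.testBit_or, Bool.or_eq_true] at hr
      rcases hr with hr | hr
      · exact h r hr
      · rw [Nat.one_shiftLeft, Nat.testBit_two_pow] at hr
        have h2 : act g q = r := by simpa using hr
        rw [← h2]
        exact hstep g hc.2 q (h q hc.1)
    · exact ih _ h p hp

end Cfsg.Agent.Lib.Compute.F2Mat4
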