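/-
Small matrices over a `FieldModel`, applied to vectors coded as natural numbers (base 16), with an evaluation of words in the
matrices fast enough for the kernel.
-/
import Mathlib
import Cfsg.Agent.Lib.Compute.GFModel
import Cfsg.Agent.Lib.Compute.PMat

set_option autoImplicit false

namespace Cfsg.Agent.Lib.Compute.FMat

open Matrix
open Cfsg.Agent.Lib.Compute.GFModel Cfsg.Agent.Lib.Compute.PMat Cfsg.Agent.Lib.Compute.ToddCoxeterCore

universe v

variable {K : Type v} [Field K] (m : FieldModel K) (z0 : ℕ)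

/-- The dot product of two lists of codes. -/
def dotC : List ℕ → List ℕ → ℕ
  | a :: r, b :: w => m.addN (m.mulN a b) (dotC r w)
  | _, _ => z0

/-- The action of a list of rows on a code. -/
def appC (d : ℕ) (A : List (List ℕ)) (n : ℕ) : ℕ :=
  cod (A.map fun r => dotC m z0 r (digs d n))

/-- The vector of a code. -/
def decV (d n : ℕ) : Fin d → K := fun i => m.dec ((digs d n).getD i z0)

/-- The matrix of a list of rows. -/
def decM (d : ℕ) (A : List (List ℕ)) : Matrix (Fin d) (Fin d) K :=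
  fun i j => m.dec ((A.getD i []).getD j z0)

/-- A valid code of a vector. -/
def okN (d n : ℕ) : Prop := ∀ a ∈ digs d n, a < m.q

/-- A valid list of rows, as a boolean. -/
def okA (d : ℕ) (A : List (List ℕ)) : Bool :=
  Nat.beq A.length d && A.all fun r => Nat.beq r.length d && r.all fun a => Nat.blt a m.q

/-- The evaluation of a word on a code: the first letter acts first. -/
noncomputable def evC (d : ℕ) (ltr : ℕ → List (List ℕ)) : List ℕ → ℕ → ℕ
  | [], n => n
  | x :: u, n => frc (appC m z0 d (ltr x) n) (evC d ltr u)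

/-- The matrix of a word: the first letter acts first. -/
def evM (d : ℕ) (ltr : ℕ → List (List ℕ)) : List ℕ → Matrix (Fin d) (Fin d) K
  | [] => 1
  | x :: u => evM d ltr u * decM m z0 d (ltr x)

variable {m z0}

theorem mulN_spec {a b : ℕ} (ha : a < m.q) (hb : b < m.q) :
    m.mulN a b < m.q ∧ m.dec (m.mulN a b) = m.dec a * m.dec b := by
  have h1 := m.enc_mul (m.dec a) (m.dec b)
  rw [m.enc_dec a ha, m.enc_dec b hb] at h1
  rw [← h1]
  exact ⟨m.enc_lt _, m.dec_enc _⟩

theorem addN_spec {a b : ℕ} (ha : a < m.q) (hb : b < m.q) :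
    m.addN a b < m.q ∧ m.dec (m.addN a b) = m.dec a + m.dec b := by
  have h1 := m.enc_add (m.dec a) (m.dec b)
  rw [m.enc_dec a ha, m.enc_dec b hb] at h1
  rw [← h1]
  exact ⟨m.enc_lt _, m.dec_enc _⟩

theorem z0_spec (hz : m.enc 0 = z0) : z0 < m.q ∧ m.dec z0 = 0 := by
  subst hz
  exact ⟨m.enc_lt _, m.dec_enc _⟩

theorem dotC_spec (hz : m.enc 0 = z0) : ∀ (d : ℕ) (r w : List ℕ), r.length = d → w.length = d →
    (∀ a ∈ r, a < m.q) → (∀ a ∈ w, a < m.q) →
    dotC m z0 r w < m.q ∧
      m.dec (dotC m z0 r w) = ∑ j : Fin d, m.dec (r.getD j z0) * m.dec (w.getD j z0)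
  | 0, [], [], _, _, _, _ => by
    simpa [dotC] using z0_spec hz
  | d + 1, a :: r, b :: w, hr, hw, h1, h2 => by
    have hr' : r.length = d := by simpa using hr
    have hw' : w.length = d := by simpa using hw
    have ha : a < m.q := h1 a (by simp)
    have hb : b < m.q := h2 b (by simp)
    obtain ⟨i1, i2⟩ := dotC_spec hz d r w hr' hw' (fun c hc => h1 c (by simp [hc])) (fun c hc => h2 c (by simp [hc]))
    obtain ⟨j1, j2⟩ := mulN_spec ha hb
    obtain ⟨k1, k2⟩ := addN_spec j1 i1
    refine ⟨k1, ?_⟩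
    rw [Fin.sum_univ_succ]
    simp only [dotC]
    rw [k2, j2, i2]
    simp

theorem digs_lt_of_cod (d : ℕ) (l : List ℕ) (hl : l.length = d) (hq : m.q ≤ 16) (h : ∀ a ∈ l, a < m.q) :
    digs d (cod l) = l := by
  subst hl
  exact digs_cod l (fun a ha => lt_of_lt_of_le (h a ha) hq)

theorem okA_spec {d : ℕ} {A : List (List ℕ)} (h : okA m d A = true) :
    A.length = d ∧ ∀ r ∈ A, r.length = d ∧ ∀ a ∈ r, a < m.q := by
  simp only [okA, Bool.and_eq_true, List.all_eq_true, Nat.beq_eq, Nat.blt_eq] at h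
  exact ⟨h.1, h.2⟩

theorem app_spec (hz : m.enc 0 = z0) (hq : m.q ≤ 16) {d : ℕ} {A : List (List ℕ)} (hA : okA m d A = true) {n : ℕ}
    (hn : okN m d n) :
    okN m d (appC m z0 d A n) ∧ decV m z0 d (appC m z0 d A n) = decM m z0 d A *ᵥ decV m z0 d n := by
  obtain ⟨h1, h2⟩ := okA_spec hA
  have hdl : (digs d n).length = d := digs_length d n
  have hv : ∀ r ∈ A, dotC m z0 r (digs d n) < m.q := fun r hr =>
    (dotC_spec hz d r _ (h2 r hr).1 hdl (h2 r hr).2 hn).1
  have hlt : ∀ a ∈ A.map (fun r => dotC m z0 r (digs d n)), a < m.q := by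
    intro a ha
    obtain ⟨r, hr, rfl⟩ := List.mem_map.1 ha
    exact hv r hr
  have hlen : (A.map fun r => dotC m z0 r (digs d n)).length = d := by simp [h1]
  have hd := digs_lt_of_cod d _ hlen hq hlt
  constructor
  · unfold okN appC
    rw [hd]
    exact hlt
  · funext i
    have hi : i.val < A.length := by rw [h1]; exact i.2
    have hrm : A.getD i [] ∈ A := by
      rw [List.getD_eq_getElem _ _ hi]
      exact List.getElem_mem _
    have e1 : decV m z0 d (appC m z0 d A n) i = m.dec (dotC m z0 (A.getD i []) (digs d n)) := by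
      unfold decV appC
      rw [hd, List.getD_eq_getElem _ _ (by simp [h1]), List.getElem_map, List.getD_eq_getElem _ _ hi]
    rw [e1, (dotC_spec hz d _ _ (h2 _ hrm).1 hdl (h2 _ hrm).2 hn).2]
    rfl

theorem evC_spec (hz : m.enc 0 = z0) (hq : m.q ≤ 16) {d : ℕ} {ltr : ℕ → List (List ℕ)} {k : ℕ}
    (hl : ∀ x < k, okA m d (ltr x) = true) (w : List ℕ) (hw : ∀ x ∈ w, x < k) {n : ℕ} (hn : okN m d n) :
    okN m d (evC m z0 d ltr w n) ∧
      decV m z0 d (evC m z0 d ltr w n) = evM m z0 d ltr w *ᵥ decV m z0 d n := by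
  induction w generalizing n with
  | nil => simpa [evC, evM] using hn
  | cons x u ih =>
    have hx := hl x (hw x (by simp))
    obtain ⟨a1, a2⟩ := app_spec hz hq hx hn
    obtain ⟨b1, b2⟩ := ih (fun y hy => hw y (by simp [hy])) a1
    simp only [evC, frc_eq, evM]
    refine ⟨b1, ?_⟩
    rw [b2, a2, Matrix.mulVec_mulVec]

/-- A word and a matrix agreeing on the `16 ^ j` are equal. -/
theorem evM_eq (hz : m.enc 0 = z0) (hq : m.q ≤ 16) {d : ℕ} {ltr : ℕ → List (List ℕ)} {k : ℕ}
    (hl : ∀ x < k, okA m d (ltr x) = true) (hb : ∀ j : Fin d, decV m z0 d (16 ^ j.val) = Pi.single j 1)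
    (hok : ∀ j : Fin d, okN m d (16 ^ j.val)) (w : List ℕ) (hw : ∀ x ∈ w, x < k) {T : List (List ℕ)}
    (hT : okA m d T = true)
    (h : ∀ j : Fin d, evC m z0 d ltr w (16 ^ j.val) = appC m z0 d T (16 ^ j.val)) :
    evM m z0 d ltr w = decM m z0 d T := by
  ext i j
  have h1 := (evC_spec hz hq hl w hw (hok j)).2
  have h2 := (app_spec hz hq hT (hok j)).2
  rw [h j, h2, hb j, Matrix.mulVec_single_one, Matrix.mulVec_single_one] at h1
  exact (congrFun h1 i).symm

/-- A word agreeing with the identity on the `16 ^ j` is the identity. -/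
theorem evM_eq_one (hz : m.enc 0 = z0) (hq : m.q ≤ 16) {d : ℕ} {ltr : ℕ → List (List ℕ)} {k : ℕ}
    (hl : ∀ x < k, okA m d (ltr x) = true) (hb : ∀ j : Fin d, decV m z0 d (16 ^ j.val) = Pi.single j 1)
    (hok : ∀ j : Fin d, okN m d (16 ^ j.val)) (w : List ℕ) (hw : ∀ x ∈ w, x < k)
    (h : ∀ j : Fin d, evC m z0 d ltr w (16 ^ j.val) = 16 ^ j.val) :
    evM m z0 d ltr w = 1 := by
  ext i j
  have h1 := (evC_spec hz hq hl w hw (hok j)).2
  rw [h j, hb j, Matrix.mulVec_single_one] at h1
  have h2 := congrFun h1 i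
  rw [Matrix.col_apply, Pi.single_apply] at h2
  rw [← h2, Matrix.one_apply]

end Cfsg.Agent.Lib.Compute.FMat
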