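import Mathlib

/-!
# Matrix representations over `ZMod p` from packed computations

Matrices are lists of rows; products are computed by adding multiples of packed rows (one limb of 16 bits per entry), so the
kernel does `n` big number operations per row. `hom_of_checks` turns identities checked this way into a homomorphism from a
presented group to the general linear group.
-/

set_option autoImplicit false

namespace Cfsg.Agent.Lib.Compute.FpMat

/-- the limb base -/
abbrev Lm : ℕ := 65536

/-- a row as a number -/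
noncomputable def pk (l : List ℕ) : ℕ :=
  List.rec (motive := fun _ => ℕ) 0 (fun x _ ih => Nat.add x (Nat.mul Lm ih)) l

/-- a linear combination of packed rows -/
noncomputable def vm (a : List ℕ) : List ℕ → ℕ :=
  List.rec (motive := fun _ => List ℕ → ℕ) (fun _ => 0)
    (fun x _ ih Bp => List.casesOn (motive := fun _ => ℕ) Bp 0 (fun r rs => Nat.add (Nat.mul x r) (ih rs))) a

/-- the entries of a packed row, reduced modulo `p` -/
noncomputable def up (p : ℕ) (n : ℕ) : ℕ → List ℕ :=
  Nat.rec (motive := fun _ => ℕ → List ℕ) (fun _ => [])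
    (fun _ ih N => Nat.mod (Nat.mod N Lm) p :: ih (Nat.div N Lm)) n

/-- the product of two matrices -/
noncomputable def mulM (p n : ℕ) (A B : List (List ℕ)) : List (List ℕ) :=
  List.map (fun a => up p n (vm a (List.map pk B))) A

/-- the identity matrix -/
def idM (n : ℕ) : List (List ℕ) :=
  (List.range n).map fun i => (List.range n).map fun j => if i = j then 1 else 0

/-- the entry of a matrix -/
def ent (A : List (List ℕ)) (i j : ℕ) : ℕ := (A.getD i []).getD j 0

/-- the shape of a matrix -/
def WF (p n : ℕ) (A : List (List ℕ)) : Prop := A.length = n ∧ ∀ r ∈ A, r.length = n ∧ ∀ x ∈ r, x < p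

/-- the matrix of a list of rows -/
def toM (p n : ℕ) (A : List (List ℕ)) : Matrix (Fin n) (Fin n) (ZMod p) :=
  fun i j => ((ent A i j : ℕ) : ZMod p)

theorem pk_nil : pk [] = 0 := rfl
theorem pk_cons (x : ℕ) (l : List ℕ) : pk (x :: l) = x + Lm * pk l := rfl
theorem vm_nil (l : List ℕ) : vm [] l = 0 := rfl
theorem vm_cons_nil (x : ℕ) (a : List ℕ) : vm (x :: a) [] = 0 := rfl
theorem vm_cons (x : ℕ) (a : List ℕ) (r : ℕ) (rs : List ℕ) : vm (x :: a) (r :: rs) = x * r + vm a rs := rfl
theorem up_zero (p N : ℕ) : up p 0 N = [] := rfl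
theorem up_succ (p n N : ℕ) : up p (n + 1) N = (N % Lm) % p :: up p n (N / Lm) := rfl

theorem pk_sum (l : List ℕ) : pk l = ∑ j ∈ Finset.range l.length, l.getD j 0 * Lm ^ j := by
  induction l with
  | nil => simp [pk_nil]
  | cons x l ih =>
    rw [pk_cons, ih, List.length_cons, Finset.sum_range_succ', Finset.mul_sum]
    simp only [List.getD_cons_zero, pow_zero, mul_one, List.getD_cons_succ]
    rw [add_comm]
    congr 1
    apply Finset.sum_congr rfl
    intro j _
    ring

theorem vm_sum (a Bp : List ℕ) (h : a.length = Bp.length) :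
    vm a Bp = ∑ k ∈ Finset.range a.length, a.getD k 0 * Bp.getD k 0 := by
  induction a generalizing Bp with
  | nil => simp [vm_nil]
  | cons x a ih =>
    cases Bp with
    | nil => simp at h
    | cons r rs =>
      rw [vm_cons, ih rs (by simpa using h), List.length_cons, Finset.sum_range_succ']
      simp only [List.getD_cons_zero, List.getD_cons_succ]
      rw [add_comm]

theorem up_sum (p : ℕ) (n : ℕ) : ∀ (c : ℕ → ℕ), (∀ j, c j < Lm) →
    up p n (∑ j ∈ Finset.range n, c j * Lm ^ j) = (List.range n).map (fun j => c j % p) := by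
  induction n with
  | zero => intro c _; simp [up_zero]
  | succ n ih =>
    intro c hc
    rw [up_succ, Finset.sum_range_succ']
    have h1 : ∑ j ∈ Finset.range n, c (j + 1) * Lm ^ (j + 1) =
        Lm * ∑ j ∈ Finset.range n, c (j + 1) * Lm ^ j := by
      rw [Finset.mul_sum]
      apply Finset.sum_congr rfl
      intro j _
      ring
    have hs : (∑ j ∈ Finset.range n, c (j + 1) * Lm ^ (j + 1) + c 0 * Lm ^ 0) =
        c 0 + Lm * ∑ j ∈ Finset.range n, c (j + 1) * Lm ^ j := by
      rw [h1]; simp; ring
    rw [hs]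
    have hm : (c 0 + Lm * ∑ j ∈ Finset.range n, c (j + 1) * Lm ^ j) % Lm = c 0 := by
      rw [Nat.add_mul_mod_self_left, Nat.mod_eq_of_lt (hc 0)]
    have hd : (c 0 + Lm * ∑ j ∈ Finset.range n, c (j + 1) * Lm ^ j) / Lm =
        ∑ j ∈ Finset.range n, c (j + 1) * Lm ^ j := by
      rw [Nat.add_mul_div_left _ _ (by norm_num), Nat.div_eq_of_lt (hc 0), zero_add]
    rw [hm, hd, ih (fun j => c (j + 1)) (fun j => hc _), List.range_succ_eq_map]
    simp [Function.comp_def]

variable {p n : ℕ}

theorem ent_lt {A : List (List ℕ)} (hA : WF p n A) (hp : 0 < p) (i j : ℕ) : ent A i j < p := by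
  unfold ent
  by_cases hi : i < A.length
  · rw [List.getD_eq_getElem _ _ hi]
    have h1 := hA.2 _ (List.getElem_mem hi)
    by_cases hj : j < A[i].length
    · rw [List.getD_eq_getElem _ _ hj]
      exact h1.2 _ (List.getElem_mem hj)
    · rw [List.getD_eq_default _ _ (by omega)]
      exact hp
  · rw [List.getD_eq_default A _ (by omega : A.length ≤ i)]
    simpa using hp

/-- The row of a product. -/
theorem row_mul {A B : List (List ℕ)} (hA : WF p n A) (hB : WF p n B) (hp : 0 < p) (hn : n * (p * p) < Lm)
    (a : List ℕ) (ha : a.length = n ∧ ∀ x ∈ a, x < p) :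
    up p n (vm a (List.map pk B)) = (List.range n).map
      (fun j => (∑ k ∈ Finset.range n, a.getD k 0 * ent B k j) % p) := by
  have hlen : a.length = (List.map pk B).length := by
    rw [List.length_map, hB.1, ha.1]
  rw [vm_sum _ _ hlen, ha.1]
  have hk : ∀ k ∈ Finset.range n, a.getD k 0 * (List.map pk B).getD k 0 =
      ∑ j ∈ Finset.range n, (a.getD k 0 * ent B k j) * Lm ^ j := by
    intro k hk
    have hk' : k < B.length := by rw [hB.1]; exact Finset.mem_range.1 hk
    have h1 : (List.map pk B).getD k 0 = pk B[k] := by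
      rw [List.getD_eq_getElem _ _ (by simpa using hk')]
      simp
    rw [h1, pk_sum, (hB.2 _ (List.getElem_mem hk')).1, Finset.mul_sum]
    apply Finset.sum_congr rfl
    intro j _
    unfold ent
    rw [List.getD_eq_getElem _ _ hk']
    ring
  rw [Finset.sum_congr rfl hk, Finset.sum_comm]
  have h2 : ∀ j ∈ Finset.range n, ∑ k ∈ Finset.range n, (a.getD k 0 * ent B k j) * Lm ^ j =
      (∑ k ∈ Finset.range n, a.getD k 0 * ent B k j) * Lm ^ j := by
    intro j _
    rw [Finset.sum_mul]
  rw [Finset.sum_congr rfl h2]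
  apply up_sum
  intro j
  have hb : ∀ k ∈ Finset.range n, a.getD k 0 * ent B k j ≤ p * p := by
    intro k hk
    have h3 : a.getD k 0 < p := by
      have hk' : k < a.length := by rw [ha.1]; exact Finset.mem_range.1 hk
      rw [List.getD_eq_getElem _ _ hk']
      exact ha.2 _ (List.getElem_mem hk')
    exact Nat.mul_le_mul h3.le (ent_lt hB hp k j).le
  calc ∑ k ∈ Finset.range n, a.getD k 0 * ent B k j ≤ (Finset.range n).card • (p * p) :=
        Finset.sum_le_card_nsmul _ _ _ hb
    _ = n * (p * p) := by simp
    _ < Lm := hn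

theorem wf_mul {A B : List (List ℕ)} (hA : WF p n A) (hB : WF p n B) (hp : 0 < p) (hn : n * (p * p) < Lm) :
    WF p n (mulM p n A B) := by
  constructor
  · rw [mulM, List.length_map, hA.1]
  · intro r hr
    rw [mulM, List.mem_map] at hr
    obtain ⟨a, ha, rfl⟩ := hr
    rw [row_mul hA hB hp hn a (hA.2 a ha)]
    constructor
    · simp
    · intro x hx
      rw [List.mem_map] at hx
      obtain ⟨j, _, rfl⟩ := hx
      exact Nat.mod_lt _ hp

theorem toM_mul {A B : List (List ℕ)} (hA : WF p n A) (hB : WF p n B) (hp : 0 < p) (hn : n * (p * p) < Lm) :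
    toM p n (mulM p n A B) = toM p n A * toM p n B := by
  ext i j
  have hi : (i : ℕ) < A.length := by rw [hA.1]; exact i.2
  have h1 : ent (mulM p n A B) i j = (∑ k ∈ Finset.range n, ent A i k * ent B k j) % p := by
    unfold ent
    have hi' : (i : ℕ) < (mulM p n A B).length := by rw [mulM, List.length_map]; exact hi
    rw [List.getD_eq_getElem _ _ hi']
    have h2 : (mulM p n A B)[(i : ℕ)] = up p n (vm A[(i : ℕ)] (List.map pk B)) := by
      simp [mulM]
    rw [h2, row_mul hA hB hp hn _ (hA.2 _ (List.getElem_mem hi))]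
    rw [List.getD_eq_getElem _ _ (by simp), List.getD_eq_getElem _ _ hi]
    simp [ent]
  show ((ent (mulM p n A B) i j : ℕ) : ZMod p) = _
  rw [h1, ZMod.natCast_mod, Matrix.mul_apply, Nat.cast_sum, Finset.sum_range]
  apply Finset.sum_congr rfl
  intro k _
  rw [Nat.cast_mul]
  rfl

theorem toM_id (hp : 1 < p) : toM p n (idM n) = 1 := by
  ext i j
  have h1 : ent (idM n) i j = if (i : ℕ) = j then 1 else 0 := by
    have hi := i.2
    have hj := j.2
    simp [ent, idM, List.getD_eq_getElem?_getD, hi, hj]
  show ((ent (idM n) i j : ℕ) : ZMod p) = _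
  rw [h1, Matrix.one_apply]
  by_cases h : i = j
  · subst h; simp
  · have : (i : ℕ) ≠ j := fun h' => h (Fin.ext h')
    simp [h, this]

theorem wf_id (hp : 1 < p) : WF p n (idM n) := by
  constructor
  · simp [idM]
  · intro r hr
    simp only [idM, List.mem_map] at hr
    obtain ⟨i, _, rfl⟩ := hr
    constructor
    · simp
    · intro x hx
      rw [List.mem_map] at hx
      obtain ⟨j, _, rfl⟩ := hx
      split_ifs <;> omega

/-- The product of a word. -/
noncomputable def prodL (p n : ℕ) (I : List (List ℕ)) (M : ℕ → List (List ℕ)) (w : List ℕ) : List (List ℕ) :=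
  List.rec (motive := fun _ => List (List ℕ)) I (fun x _ ih => mulM p n (M x) ih) w

theorem prodL_nil (I : List (List ℕ)) (M : ℕ → List (List ℕ)) : prodL p n I M [] = I := rfl
theorem prodL_cons (I : List (List ℕ)) (M : ℕ → List (List ℕ)) (x : ℕ) (w : List ℕ) :
    prodL p n I M (x :: w) = mulM p n (M x) (prodL p n I M w) := rfl

theorem prodL_spec (hp : 1 < p) (hn : n * (p * p) < Lm) (M : ℕ → List (List ℕ)) (w : List ℕ)
    (hM : ∀ x ∈ w, WF p n (M x)) :
    WF p n (prodL p n (idM n) M w) ∧ toM p n (prodL p n (idM n) M w) = (w.map fun x => toM p n (M x)).prod := by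
  induction w with
  | nil => exact ⟨wf_id hp, by rw [prodL_nil, toM_id hp]; simp⟩
  | cons x w ih =>
    have h1 := ih (fun y hy => hM y (List.mem_cons_of_mem _ hy))
    have h2 := hM x List.mem_cons_self
    refine ⟨wf_mul h2 h1.1 (by omega) hn, ?_⟩
    rw [prodL_cons, toM_mul h2 h1.1 (by omega) hn, h1.2, List.map_cons, List.prod_cons]

/-! ### The homomorphism -/

section Hom

variable {α : Type*} [DecidableEq α]

/-- The letter of a signed generator. -/
def lett (idx : α → ℕ) (a : α × Bool) : ℕ := if a.2 then 2 * idx a.1 else 2 * idx a.1 + 1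

/-- The matrices of the letters: even index for a generator, odd index for its inverse. -/
theorem hom_of_checks (hp : 1 < p) (hn : n * (p * p) < Lm) (I : List (List ℕ)) (hI' : I = idM n)
    (M : ℕ → List (List ℕ)) (idx : α → ℕ)
    (hwf : ∀ x : α, WF p n (M (2 * idx x)) ∧ WF p n (M (2 * idx x + 1)))
    (hinv : ∀ x : α, prodL p n I M [2 * idx x, 2 * idx x + 1] = I ∧ prodL p n I M [2 * idx x + 1, 2 * idx x] = I)
    (R : Set (FreeGroup α))
    (hR : ∀ r ∈ R, prodL p n I M (r.toWord.map (lett idx)) = I) :
    ∃ φ : PresentedGroup R →* Matrix.GeneralLinearGroup (Fin n) (ZMod p),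
      ∀ x : α, ((φ (PresentedGroup.of x) : Matrix.GeneralLinearGroup (Fin n) (ZMod p)) :
        Matrix (Fin n) (Fin n) (ZMod p)) = toM p n (M (2 * idx x)) := by
  subst hI'
  have hI : toM p n (idM n) = 1 := toM_id hp
  have hpair : ∀ x : α, toM p n (M (2 * idx x)) * toM p n (M (2 * idx x + 1)) = 1 ∧
      toM p n (M (2 * idx x + 1)) * toM p n (M (2 * idx x)) = 1 := by
    intro x
    obtain ⟨h1, h2⟩ := hinv x
    obtain ⟨h3, h4⟩ := hwf x
    constructor
    · have h5 := (prodL_spec hp hn M [2 * idx x, 2 * idx x + 1] (by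
        intro y hy
        simp only [List.mem_cons, List.not_mem_nil, or_false] at hy
        rcases hy with rfl | rfl
        · exact h3
        · exact h4)).2
      rw [h1, hI] at h5
      simpa using h5.symm
    · have h5 := (prodL_spec hp hn M [2 * idx x + 1, 2 * idx x] (by
        intro y hy
        simp only [List.mem_cons, List.not_mem_nil, or_false] at hy
        rcases hy with rfl | rfl
        · exact h4
        · exact h3)).2
      rw [h2, hI] at h5
      simpa using h5.symm
  let g : α → Matrix.GeneralLinearGroup (Fin n) (ZMod p) := fun x =>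
    ⟨toM p n (M (2 * idx x)), toM p n (M (2 * idx x + 1)), (hpair x).1, (hpair x).2⟩
  have hword : ∀ w : List (α × Bool),
      ((FreeGroup.lift g (FreeGroup.mk w) : Matrix.GeneralLinearGroup (Fin n) (ZMod p)) :
        Matrix (Fin n) (Fin n) (ZMod p)) = (w.map (fun a => toM p n (M (lett idx a)))).prod := by
    intro w
    induction w with
    | nil =>
      have : FreeGroup.mk ([] : List (α × Bool)) = 1 := rfl
      rw [this, map_one]
      simp
    | cons a w ih =>
      have h1 : FreeGroup.mk (a :: w) = FreeGroup.mk [a] * FreeGroup.mk w := by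
        rw [FreeGroup.mul_mk]; rfl
      rw [h1, map_mul, Units.val_mul, ih, List.map_cons, List.prod_cons]
      congr 1
      obtain ⟨x, b⟩ := a
      cases b with
      | true =>
        rw [FreeGroup.lift_mk]
        simp [g, lett]
      | false =>
        rw [FreeGroup.lift_mk]
        simp [g, lett]
  have hrel : ∀ r ∈ R, FreeGroup.lift g r = 1 := by
    intro r hr
    apply Units.ext
    have h1 := hword r.toWord
    rw [FreeGroup.mk_toWord] at h1
    rw [h1, Units.val_one]
    have h2 := (prodL_spec hp hn M (r.toWord.map (lett idx)) (by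
      intro y hy
      rw [List.mem_map] at hy
      obtain ⟨a, _, rfl⟩ := hy
      obtain ⟨x, b⟩ := a
      cases b
      · simpa [lett] using (hwf x).2
      · simpa [lett] using (hwf x).1)).2
    rw [hR r hr, hI, List.map_map] at h2
    exact h2.symm
  refine ⟨PresentedGroup.toGroup hrel, fun x => ?_⟩
  rw [PresentedGroup.toGroup.of]

end Hom

end Cfsg.Agent.Lib.Compute.FpMat
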