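import Mathlib

/-!
# A concrete field with twenty-five elements

`F25` is `Fin 25` with `a + 5 b` standing for `a + b θ`, `θ ^ 2 = θ + 3`. Every field of cardinality 25 is isomorphic
to it. The operations are plain `Nat` arithmetic, so that `decide +kernel` evaluates them quickly.
-/

set_option autoImplicit false

namespace Cfsg.Agent.Lib.Compute.GF25

/-- The field with twenty-five elements. -/
def F25 : Type := Fin 25

namespace F25

instance instDecEq : DecidableEq F25 := inferInstanceAs (DecidableEq (Fin 25))
instance instFintype : Fintype F25 := inferInstanceAs (Fintype (Fin 25))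

def addN (a b : Nat) : Nat := (a % 5 + b % 5) % 5 + 5 * ((a / 5 + b / 5) % 5)

def mulN (a b : Nat) : Nat :=
  (a % 5 * (b % 5) + 3 * (a / 5) * (b / 5)) % 5 +
    5 * ((a % 5 * (b / 5) + (a / 5) * (b % 5) + (a / 5) * (b / 5)) % 5)

def negN (a : Nat) : Nat := (5 - a % 5) % 5 + 5 * ((5 - a / 5) % 5)

/-- The table of inverses (`0` goes to `0`). -/
def invN (a : Nat) : Nat :=
  [0, 1, 3, 2, 4, 13, 8, 16, 6, 10, 9, 18, 19, 5, 23, 21, 7, 20, 11, 12, 17, 15, 24, 14, 22].getD a 0

def mk' (n : Nat) : F25 := ⟨n % 25, Nat.mod_lt _ (by norm_num)⟩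

def add (a b : F25) : F25 := mk' (addN a.1 b.1)
def mul (a b : F25) : F25 := mk' (mulN a.1 b.1)
def neg (a : F25) : F25 := mk' (negN a.1)
def inv (a : F25) : F25 := mk' (invN a.1)

instance instAdd : Add F25 := ⟨add⟩
instance instZero : Zero F25 := ⟨mk' 0⟩
instance instNeg : Neg F25 := ⟨neg⟩
instance instMul : Mul F25 := ⟨mul⟩
instance instOne : One F25 := ⟨mk' 1⟩

instance instCommRing : CommRing F25 where
  add_assoc := by decide +kernel
  zero_add := by decide +kernel
  add_zero := by decide +kernel
  nsmul := nsmulRec
  zsmul := zsmulRec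
  neg_add_cancel := by decide +kernel
  add_comm := by decide +kernel
  left_distrib := by decide +kernel
  right_distrib := by decide +kernel
  zero_mul := by decide +kernel
  mul_zero := by decide +kernel
  mul_assoc := by decide +kernel
  one_mul := by decide +kernel
  mul_one := by decide +kernel
  mul_comm := by decide +kernel

instance instField : Field F25 where
  __ := instCommRing
  inv := inv
  exists_pair_ne := ⟨mk' 0, mk' 1, by decide +kernel⟩
  mul_inv_cancel := by decide +kernel
  inv_zero := by decide +kernel
  nnqsmul := _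
  nnqsmul_def := fun _ _ => rfl
  qsmul := _
  qsmul_def := fun _ _ => rfl

theorem card_eq : Fintype.card F25 = 25 := by decide +kernel

end F25

/-- Every field of cardinality twenty-five is isomorphic to `F25`. -/
noncomputable def equivOfCard (F : Type*) [Field F] [Fintype F] (hF : Fintype.card F = 25) : F ≃+* F25 :=
  FiniteField.ringEquivOfCardEq (hF.trans F25.card_eq.symm)

end Cfsg.Agent.Lib.Compute.GF25
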