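import Mathlib
import Cfsg.Agent.Lib.Compute.F2Mat4
import Cfsg.Agent.Lib.Compute.ConjCount

/-!
# Subgroups of `GL₄(2)` isomorphic to `A₇`

Every subgroup of `GL₄(2)` isomorphic to `A₇` is 2-transitive on the non-zero vectors.
A conjugate of it contains the fixed element `Y` of order 7 and a conjugate of a fixed element `t₁` under `⟨Y⟩`.
-/

set_option autoImplicit false

namespace Cfsg.Agent.Lib.Compute.GL42A7

open Matrix
open scoped Pointwise
open Cfsg.Agent.Lib.Compute.F2Mat4 Cfsg.Agent.Lib.Compute.ConjCount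

/-- `GL₄(2)`. -/
abbrev G := Matrix.GeneralLinearGroup (Fin 4) (ZMod 2)

theorem card_G : Nat.card G = 20160 := by
  rw [Matrix.card_GL_field]
  simp [Fin.prod_univ_four, ZMod.card]

/-- The code of an element of `GL₄(2)`. -/
def gc (g : G) : ℕ := mc g.1

theorem gc_mul (g h : G) : gc (g * h) = mul4 (gc g) (gc h) := mc_mul g.1 h.1
theorem gc_pow (g : G) (n : ℕ) : gc (g ^ n) = pow4 (gc g) n := by
  rw [gc, Units.val_pow_eq_pow_val, mc_pow]
  rfl
theorem gc_one : gc 1 = 33825 := mc_one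
theorem gc_injective : Function.Injective gc := fun _ _ h => Units.ext (mc_injective h)

/-- The matrix of an element of order 7. -/
def Ym : M4 := !![0, 0, 1, 0; 1, 0, 1, 0; 0, 1, 0, 0; 0, 0, 0, 1]

/-- An element of order 7. -/
def Y : G := ⟨Ym, Ym ^ 6, by decide +kernel, by decide +kernel⟩

/-- The code of `Y`. -/
def yc : ℕ := 33602

theorem gc_Y : gc Y = yc := by decide +kernel

theorem order_Y : orderOf Y = 7 := by
  have : Fact (Nat.Prime 7) := ⟨by norm_num⟩
  refine orderOf_eq_prime ?_ ?_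
  · apply gc_injective
    rw [gc_pow, gc_Y, gc_one]
    decide +kernel
  · intro h
    have h1 := congrArg gc h
    rw [gc_Y, gc_one] at h1
    exact absurd h1 (by decide)

/-- The relations satisfied by a 3-cycle and a 7-cycle. -/
def relT (c : ℕ) : Bool :=
  Nat.beq (pow4 c 3) 33825 && Nat.beq (pow4 (mul4 (mul4 (mul4 yc c) (pow4 yc 6)) c) 2) 33825 &&
    Nat.beq (pow4 (mul4 (pow4 yc 2) c) 3) 33825

/-- A necessary condition for `c ^ 3 = 1`, fast to check. -/
def quick (c : ℕ) : Bool := Nat.beq (app c (app c (app c 1))) 1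

/-- The code of the fixed element `t₁`. -/
def t1c : ℕ := 8137

/-- Up to conjugation under `Y`, the relations determine `t₁`. -/
theorem classify_chk : (List.range 65536).all (fun c => !quick c || !relT c ||
    (List.range 7).any (fun k => Nat.beq (mul4 (mul4 (pow4 yc k) c) (pow4 yc (7 - k))) t1c)) = true := by
  decide +kernel

theorem classify_t (t : G) (h3 : t ^ 3 = 1) (h2 : (Y * t * Y ^ 6 * t) ^ 2 = 1) (h33 : (Y ^ 2 * t) ^ 3 = 1) :
    ∃ k : ℕ, gc (Y ^ k * t * Y ^ (7 - k)) = t1c := by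
  have h := List.all_eq_true.mp classify_chk (gc t) (List.mem_range.mpr (mc_lt _))
  have hr : relT (gc t) = true := by
    simp only [relT, Bool.and_eq_true, Nat.beq_eq]
    refine ⟨⟨?_, ?_⟩, ?_⟩
    · have := congrArg gc h3
      rwa [gc_pow, gc_one] at this
    · have := congrArg gc h2
      rwa [gc_pow, gc_mul, gc_mul, gc_mul, gc_pow, gc_Y, gc_one] at this
    · have := congrArg gc h33
      rwa [gc_pow, gc_mul, gc_pow, gc_Y, gc_one] at this
  have hq : quick (gc t) = true := by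
    have h5 : ((t ^ 3 : G)).1 *ᵥ cv 1 = cv 1 := by rw [h3]; simp
    have h6 : vc (cv 1) = 1 := by decide +kernel
    have h7 : (t ^ 3 : G).1 = t.1 * (t.1 * t.1) := by
      rw [Units.val_pow_eq_pow_val, pow_succ, pow_two, Matrix.mul_assoc]
    rw [h7, ← Matrix.mulVec_mulVec, ← Matrix.mulVec_mulVec] at h5
    have h8 := congrArg vc h5
    rw [vc_mulVec, vc_mulVec, vc_mulVec, h6] at h8
    simp only [quick, Nat.beq_eq]
    exact h8
  rw [hr, hq] at h
  simp only [Bool.not_true, Bool.false_or, List.any_eq_true, List.mem_range] at h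
  obtain ⟨k, -, hk⟩ := h
  refine ⟨k, ?_⟩
  rw [gc_mul, gc_mul, gc_pow, gc_pow, gc_Y]
  exact Nat.eq_of_beq_eq_true hk

/-- The action of a coded matrix on a coded pair of vectors. -/
def act (c p : ℕ) : ℕ := app c (p % 16) + 16 * app c (p / 16)

/-- A certificate for the transitivity on pairs: the generator and the source of a new pair. -/
def cert : List (ℕ × ℕ) := [(33602, 33), (8137, 33), (33602, 66), (8137, 66), (33602, 201), (8137, 201), (33602, 52), (8137, 52), (33602, 252), (8137, 252), (33602, 186), (8137, 186), (33602, 232), (33602, 99), (8137, 99), (33602, 95), (8137, 95), (33602, 219), (8137, 219), (33602, 190), (33602, 236), (8137, 236), (33602, 77), (8137, 77), (33602, 248), (8137, 248), (33602, 118), (8137, 118), (33602, 53), (8137, 53), (33602, 29), (8137, 29), (33602, 107), (33602, 158), (8137, 158), (33602, 116), (33602, 239), (8137, 239), (33602, 251), (8137, 251), (33602, 46), (8137, 46), (33602, 57), (8137, 57), (33602, 247), (33602, 216),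 (8137, 216), (33602, 177), (8137, 177), (33602, 87), (33602, 163), (33602, 97), (33602, 86), (33602, 41), (8137, 41), (33602, 151), (8137, 151), (8137, 126), (33602, 175), (33602, 130), (8137, 130), (33602, 83), (8137, 83), (33602, 253), (8137, 253), (33602, 43), (8137, 43), (33602, 222), (33602, 180), (33602, 79), (33602, 106), (33602, 88), (33602, 213), (33602, 152), (8137, 152), (33602, 113), (8137, 113), (33602, 226), (8137, 226), (33602, 73), (8137, 21), (33602, 114), (8137, 114), (33602, 23), (8137, 23), (33602, 74), (33602, 200), (8137, 200), (33602, 165), (8137, 165), (33602, 138), (8137, 162), (33602, 205), (8137, 205), (33602, 132), (8137, 132), (33602, 22), (8137, 22), (8137, 101), (8137, 217), (33602, 183), (33602, 78), (8137, 78), (33602, 196), (33602, 159), (8137, 159), (33602, 227), (33602, 61), (33602, 124), (8137, 124), (33602, 24), (8137, 145), (8137, 168), (8137, 129), (33602, 82), (8137, 82), (33602, 169), (33602, 244), (8137, 244), (33602,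 44), (8137, 44), (8137, 58), (33602, 150), (33602, 84), (8137, 84), (33602, 172), (33602, 37), (8137, 154), (8137, 60), (33602, 193), (8137, 193), (8137, 214), (8137, 140), (33602, 220), (33602, 185), (8137, 185), (33602, 231), (8137, 231), (33602, 131), (33602, 31), (33602, 39), (33602, 147), (8137, 147), (33602, 54), (8137, 120), (33602, 229), (8137, 229), (33602, 63), (33602, 242), (8137, 242), (33602, 179), (8137, 173), (33602, 139), (33602, 105), (8137, 105), (8137, 91), (33602, 174), (8137, 174), (33602, 209), (8137, 209), (33602, 20), (33602, 108), (8137, 108), (8137, 202), (8137, 211), (33602, 167), (8137, 167), (8137, 19), (33602, 111), (8137, 111), (8137, 203), (33602, 65), (8137, 65), (8137, 94), (8137, 178), (33602, 233), (33602, 30), (8137, 245), (33602, 134), (8137, 45), (33602, 69), (33602, 38), (8137, 38), (8137, 109), (8137, 212), (33602, 188), (33602, 142), (8137, 142), (33602, 122), (33602, 56), (8137, 56), (33602, 207), (33602, 210), (33602,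 146), (33602, 121), (33602, 35), (33602, 218), (33602, 125), (33602, 59), (33602, 228), (8137, 76), (8137, 182), (8137, 135), (33602, 199), (8137, 127), (8137, 235), (8137, 143), (8137, 164), (8137, 26)]

/-- The reached pairs. -/
def reached : ℕ := runCert act [yc, t1c] (Nat.shiftLeft 1 33) cert

theorem reached_all : (List.range 16).all (fun a => (List.range 16).all (fun b =>
    Nat.beq a 0 || Nat.beq b 0 || Nat.beq a b || reached.testBit (a + 16 * b))) = true := by
  decide +kernel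

/-- The first basis vector. -/
def e1 : V4 := cv 1
/-- The second basis vector. -/
def e2 : V4 := cv 2

theorem vc_e1 : vc e1 = 1 := by decide +kernel
theorem vc_e2 : vc e2 = 2 := by decide +kernel

private theorem act_pair (s : G) (v w : V4) :
    act (gc s) (vc v + 16 * vc w) = vc (s.1 *ᵥ v) + 16 * vc (s.1 *ᵥ w) := by
  have h1 := vc_lt v
  have h2 := vc_lt w
  have h3 : (vc v + 16 * vc w) % 16 = vc v := by omega
  have h4 : (vc v + 16 * vc w) / 16 = vc w := by omega
  rw [act, h3, h4, vc_mulVec, vc_mulVec]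
  rfl

/-- A subgroup containing `Y` and an element of code `t₁` is transitive on ordered pairs of distinct non-zero
vectors. -/
theorem pairs_of_mem (L : Subgroup G) (hY : Y ∈ L) (T : G) (hT : T ∈ L) (hTc : gc T = t1c)
    (v w : V4) (hv : v ≠ 0) (hw : w ≠ 0) (hvw : v ≠ w) :
    ∃ g ∈ L, g.1 *ᵥ e1 = v ∧ g.1 *ᵥ e2 = w := by
  let P : ℕ → Prop := fun p => ∃ g ∈ L, p = vc (g.1 *ᵥ e1) + 16 * vc (g.1 *ᵥ e2)
  have hstep : ∀ c ∈ [yc, t1c], ∀ p, P p → P (act c p) := by
    have key : ∀ s ∈ L, ∀ p, P p → P (act (gc s) p) := by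
      rintro s hs p ⟨g, hg, rfl⟩
      refine ⟨s * g, L.mul_mem hs hg, ?_⟩
      rw [act_pair s]
      simp only [Units.val_mul, Matrix.mulVec_mulVec]
    intro c hc p hp
    rcases List.mem_cons.mp hc with rfl | hc
    · rw [← gc_Y]; exact key Y hY p hp
    · rcases List.mem_cons.mp hc with rfl | hc
      · rw [← hTc]; exact key T hT p hp
      · simp at hc
  have hbase : ∀ p, (Nat.shiftLeft 1 33).testBit p = true → P p := by
    intro p hp
    have h1 : p = 33 := by
      have h2 : Nat.shiftLeft 1 33 = 2 ^ 33 := by decide +kernel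
      rw [h2, Nat.testBit_two_pow] at hp
      simpa [eq_comm] using hp
    subst h1
    refine ⟨1, L.one_mem, ?_⟩
    simp only [Units.val_one, Matrix.one_mulVec, vc_e1, vc_e2]
  have hfin := runCert_spec act [yc, t1c] hstep cert _ hbase
  have hv' : vc v ≠ 0 := fun h => hv ((vc_eq_zero v).mp h)
  have hw' : vc w ≠ 0 := fun h => hw ((vc_eq_zero w).mp h)
  have hvw' : vc v ≠ vc w := fun h => hvw (vc_injective h)
  have h1 := List.all_eq_true.mp reached_all (vc v) (List.mem_range.mpr (vc_lt v))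
  have h2 := List.all_eq_true.mp h1 (vc w) (List.mem_range.mpr (vc_lt w))
  simp only [Bool.or_eq_true] at h2
  rcases h2 with ((h3 | h3) | h3) | h3
  · exact absurd (Nat.eq_of_beq_eq_true h3) hv'
  · exact absurd (Nat.eq_of_beq_eq_true h3) hw'
  · exact absurd (Nat.eq_of_beq_eq_true h3) hvw'
  · obtain ⟨g, hg, he⟩ := hfin _ h3
    refine ⟨g, hg, ?_, ?_⟩
    · apply vc_injective
      have h4 := vc_lt v
      have h5 := vc_lt w
      have h6 := vc_lt (g.1 *ᵥ e1)
      have h7 := vc_lt (g.1 *ᵥ e2)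
      omega
    · apply vc_injective
      have h4 := vc_lt v
      have h5 := vc_lt w
      have h6 := vc_lt (g.1 *ᵥ e1)
      have h7 := vc_lt (g.1 *ᵥ e2)
      omega

/-- The permutation `(0 1 2 3 4 5 6)`. -/
def y7 : Equiv.Perm (Fin 7) := finRotate 7

/-- The permutation `(0 1 2)`. -/
def t7 : Equiv.Perm (Fin 7) where
  toFun := ![1, 2, 0, 3, 4, 5, 6]
  invFun := ![2, 0, 1, 3, 4, 5, 6]
  left_inv := by decide +kernel
  right_inv := by decide +kernel

theorem y7_rel : y7 ^ 7 = 1 := by decide +kernel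
theorem y7_ne : y7 ≠ 1 := by decide +kernel
theorem t7_rel1 : t7 ^ 3 = 1 := by decide +kernel
theorem t7_rel2 : (y7 * t7 * y7 ^ 6 * t7) ^ 2 = 1 := by decide +kernel
theorem t7_rel3 : (y7 ^ 2 * t7) ^ 3 = 1 := by decide +kernel

/-- In `A₇`, an element of order 7 is one of a pair with the relations. -/
theorem a7_fact (a : alternatingGroup (Fin 7)) (ha : orderOf a = 7) :
    ∃ b : alternatingGroup (Fin 7), b ^ 3 = 1 ∧ (a * b * a ^ 6 * b) ^ 2 = 1 ∧ (a ^ 2 * b) ^ 3 = 1 := by
  have hp7 : Nat.Prime 7 := by norm_num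
  have : Fact (Nat.Prime 7) := ⟨hp7⟩
  have hy : orderOf y7 = 7 := orderOf_eq_prime y7_rel y7_ne
  have ha' : orderOf a.1 = 7 := (Subgroup.orderOf_coe a).trans ha
  have hcy : y7.IsCycle := Equiv.Perm.isCycle_of_prime_order' (by rw [hy]; exact hp7)
    (by rw [hy]; simp)
  have hca : a.1.IsCycle := Equiv.Perm.isCycle_of_prime_order' (by rw [ha']; exact hp7)
    (by rw [ha']; simp)
  have hconj : IsConj y7 a.1 := hcy.isConj hca (by rw [← hcy.orderOf, ← hca.orderOf, hy, ha'])
  obtain ⟨c, hc⟩ := isConj_iff.mp hconj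
  let κ : Equiv.Perm (Fin 7) ≃* Equiv.Perm (Fin 7) := MulAut.conj c
  have hκy : κ y7 = a.1 := hc
  have hsign : Equiv.Perm.sign (κ t7) = 1 := by
    have h1 : (κ t7) ^ 3 = 1 := by rw [← map_pow, t7_rel1, map_one]
    have h2 : (Equiv.Perm.sign (κ t7)) ^ 3 = 1 := by rw [← map_pow, h1, map_one]
    rcases Int.units_eq_one_or (Equiv.Perm.sign (κ t7)) with h3 | h3
    · exact h3
    · rw [h3] at h2
      exact absurd h2 (by decide)
  refine ⟨⟨κ t7, Equiv.Perm.mem_alternatingGroup.mpr hsign⟩, ?_, ?_, ?_⟩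
  · apply Subtype.ext
    change (κ t7) ^ 3 = 1
    rw [← map_pow, t7_rel1, map_one]
  · apply Subtype.ext
    change (a.1 * κ t7 * a.1 ^ 6 * κ t7) ^ 2 = 1
    rw [← hκy, ← map_pow, ← map_mul, ← map_mul, ← map_mul, ← map_pow, t7_rel2, map_one]
  · apply Subtype.ext
    change (a.1 ^ 2 * κ t7) ^ 3 = 1
    rw [← hκy, ← map_pow, ← map_mul, ← map_pow, t7_rel3, map_one]

theorem card_alt7 : Nat.card (alternatingGroup (Fin 7)) = 2520 := by
  rw [Nat.card_eq_fintype_card]
  have h2 := two_mul_card_alternatingGroup (α := Fin 7)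
  have h3 : Fintype.card (Equiv.Perm (Fin 7)) = 5040 := by
    rw [Fintype.card_perm, Fintype.card_fin]
    decide
  omega

/-- Every subgroup of `GL₄(2)` isomorphic to `A₇` is 2-transitive on non-zero vectors. -/
theorem two_trans (H : Subgroup G) (hH : Nonempty (H ≃* alternatingGroup (Fin 7))) (v w v' w' : V4)
    (hv : v ≠ 0) (hw : w ≠ 0) (hvw : v ≠ w) (hv' : v' ≠ 0) (hw' : w' ≠ 0) (hvw' : v' ≠ w') :
    ∃ g ∈ H, g.1 *ᵥ v = v' ∧ g.1 *ᵥ w = w' := by
  obtain ⟨e⟩ := hH
  have hcardH : Nat.card H = 2520 := by rw [Nat.card_congr e.toEquiv, card_alt7]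
  have : Fact (Nat.Prime 7) := ⟨by norm_num⟩
  obtain ⟨z, hz⟩ := exists_prime_orderOf_dvd_card' (G := H) 7 (by rw [hcardH]; norm_num)
  have hz' : orderOf (z : G) = 7 := by rw [Subgroup.orderOf_coe, hz]
  obtain ⟨g, hg⟩ := exists_conj_of_order 7 2880 (by rw [card_G]) (by norm_num) Y (z : G)
    order_Y hz' H z.2
  -- `L = g H g⁻¹` contains `Y`
  let e' : (MulAut.conj g • H : Subgroup G) ≃* alternatingGroup (Fin 7) :=
    (Subgroup.equivSMul (MulAut.conj g) H).symm.trans e
  have hord : orderOf (e' ⟨Y, hg⟩) = 7 := by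
    rw [MulEquiv.orderOf_eq, Subgroup.orderOf_mk, order_Y]
  obtain ⟨b, hb1, hb2, hb3⟩ := a7_fact _ hord
  let t' := e'.symm b
  have hsymm : e'.symm (e' ⟨Y, hg⟩) = ⟨Y, hg⟩ := e'.symm_apply_apply _
  have ht1 : t' ^ 3 = 1 := by
    change (e'.symm b) ^ 3 = 1
    rw [← map_pow, hb1, map_one]
  have ht2 : ((⟨Y, hg⟩ : (MulAut.conj g • H : Subgroup G)) * t' * ⟨Y, hg⟩ ^ 6 * t') ^ 2 = 1 := by
    have h := congrArg e'.symm hb2
    simpa only [map_pow, map_mul, map_one, hsymm] using h
  have ht3 : ((⟨Y, hg⟩ : (MulAut.conj g • H : Subgroup G)) ^ 2 * t') ^ 3 = 1 := by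
    have h := congrArg e'.symm hb3
    simpa only [map_pow, map_mul, map_one, hsymm] using h
  obtain ⟨k, hk⟩ := classify_t t'.1 (congrArg Subtype.val ht1) (congrArg Subtype.val ht2)
    (congrArg Subtype.val ht3)
  have hTmem : Y ^ k * t'.1 * Y ^ (7 - k) ∈ (MulAut.conj g • H : Subgroup G) :=
    Subgroup.mul_mem _ (Subgroup.mul_mem _ (Subgroup.pow_mem _ hg _) t'.2) (Subgroup.pow_mem _ hg _)
  have hpairs := pairs_of_mem _ hg _ hTmem hk
  -- transport to `H`
  have hgne : ∀ u : V4, u ≠ 0 → g.1 *ᵥ u ≠ 0 := by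
    intro u hu h0
    apply hu
    have h1 := congrArg (fun x => g⁻¹.1 *ᵥ x) h0
    simpa [Matrix.mulVec_mulVec] using h1
  have hginj : ∀ u u' : V4, u ≠ u' → g.1 *ᵥ u ≠ g.1 *ᵥ u' := by
    intro u u' hu h0
    apply hu
    have h1 := congrArg (fun x => g⁻¹.1 *ᵥ x) h0
    simpa [Matrix.mulVec_mulVec] using h1
  obtain ⟨a, ha, ha1, ha2⟩ := hpairs (g.1 *ᵥ v) (g.1 *ᵥ w) (hgne _ hv) (hgne _ hw) (hginj _ _ hvw)
  obtain ⟨a', ha', ha1', ha2'⟩ := hpairs (g.1 *ᵥ v') (g.1 *ᵥ w') (hgne _ hv') (hgne _ hw') (hginj _ _ hvw')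
  have hmem : a' * a⁻¹ ∈ (MulAut.conj g • H : Subgroup G) := Subgroup.mul_mem _ ha' (Subgroup.inv_mem _ ha)
  refine ⟨g⁻¹ * (a' * a⁻¹) * g, mem_conj_smul.mp hmem, ?_, ?_⟩
  · have h1 : a⁻¹.1 *ᵥ (g.1 *ᵥ v) = e1 := by
      rw [← ha1]
      simp [Matrix.mulVec_mulVec]
    have h2 : g⁻¹.1 *ᵥ (a'.1 *ᵥ e1) = v' := by
      rw [ha1']
      simp [Matrix.mulVec_mulVec]
    have h3 : (g⁻¹ * (a' * a⁻¹) * g).1 = g⁻¹.1 * (a'.1 * a⁻¹.1) * g.1 := rfl
    rw [h3, ← Matrix.mulVec_mulVec, ← Matrix.mulVec_mulVec, ← Matrix.mulVec_mulVec, h1, h2]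
  · have h1 : a⁻¹.1 *ᵥ (g.1 *ᵥ w) = e2 := by
      rw [← ha2]
      simp [Matrix.mulVec_mulVec]
    have h2 : g⁻¹.1 *ᵥ (a'.1 *ᵥ e2) = w' := by
      rw [ha2']
      simp [Matrix.mulVec_mulVec]
    have h3 : (g⁻¹ * (a' * a⁻¹) * g).1 = g⁻¹.1 * (a'.1 * a⁻¹.1) * g.1 := rfl
    rw [h3, ← Matrix.mulVec_mulVec, ← Matrix.mulVec_mulVec, ← Matrix.mulVec_mulVec, h1, h2]

end Cfsg.Agent.Lib.Compute.GL42A7
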