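import Mathlib

/-!
# Subgroups of `GL₂(p)` generated by explicit matrices and regular on the non-zero vectors

A kernel-checkable certificate: a table `col2` giving for each non-zero first column the second
column of the unique element of the group with that first column, together with a spanning tree
(`par`, `gidx`, `rank`) of the action of the generators on the non-zero vectors.
-/

set_option autoImplicit false

namespace Cfsg.Agent.Lib.Compute.Gl2Regular

open Matrix

variable {p : ℕ} [Fact p.Prime]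

set_option linter.unusedSectionVars false

/-- Code of a vector of `(ZMod p)²`. -/
def idxOf (v : Fin 2 → ZMod p) : ℕ := (v 0).val * p + (v 1).val

/-- The matrix with the given natural entries. -/
def toMat (p : ℕ) (n : ℕ × ℕ × ℕ × ℕ) : Matrix (Fin 2) (Fin 2) (ZMod p) :=
  !![(n.1 : ZMod p), (n.2.1 : ZMod p); (n.2.2.1 : ZMod p), (n.2.2.2 : ZMod p)]

/-- Action on codes of vectors. -/
def applyI (p : ℕ) (n : ℕ × ℕ × ℕ × ℕ) (i : ℕ) : ℕ :=
  ((n.1 * (i / p) + n.2.1 * (i % p)) % p) * p + (n.2.2.1 * (i / p) + n.2.2.2 * (i % p)) % p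

/-- The check at one code. -/
def checkVec (p : ℕ) (gens : List (ℕ × ℕ × ℕ × ℕ)) (col2 par gidx rank : ℕ → ℕ) (i : ℕ) : Bool :=
  (i == 0) ||
    (gens.all (fun n => col2 (applyI p n i) == applyI p n (col2 i)) &&
      ((i == p) ||
        (decide (gidx i < gens.length) &&
          (applyI p (gens.getD (gidx i) (0, 0, 0, 0)) (par i) == i) &&
          decide (rank (par i) < rank i) && decide (par i < p * p) && !(par i == 0))))

/-- The whole certificate check. -/
def check (p : ℕ) (gens : List (ℕ × ℕ × ℕ × ℕ)) (col2 par gidx rank : ℕ → ℕ) : Bool :=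
  (col2 p == 1) && (List.range (p * p)).all (checkVec p gens col2 par gidx rank)

theorem val_lt' (x : ZMod p) : x.val < p := ZMod.val_lt x

theorem idxOf_lt (v : Fin 2 → ZMod p) : idxOf v < p * p := by
  have h0 := val_lt' (v 0)
  have h1 := val_lt' (v 1)
  have : (v 0).val * p + (v 1).val < ((v 0).val + 1) * p := by
    rw [add_mul, one_mul]; omega
  exact lt_of_lt_of_le this (Nat.mul_le_mul_right p h0)

theorem pos_p : 0 < p := (Fact.out : p.Prime).pos

theorem idxOf_div (v : Fin 2 → ZMod p) : idxOf v / p = (v 0).val := by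
  unfold idxOf
  rw [mul_comm, Nat.mul_add_div pos_p, Nat.div_eq_of_lt (val_lt' _), add_zero]

theorem idxOf_mod (v : Fin 2 → ZMod p) : idxOf v % p = (v 1).val := by
  unfold idxOf
  rw [mul_comm, Nat.mul_add_mod, Nat.mod_eq_of_lt (val_lt' _)]

theorem idxOf_inj {v w : Fin 2 → ZMod p} (h : idxOf v = idxOf w) : v = w := by
  have h0 : (v 0).val = (w 0).val := by rw [← idxOf_div, ← idxOf_div, h]
  have h1 : (v 1).val = (w 1).val := by rw [← idxOf_mod, ← idxOf_mod, h]
  funext k
  fin_cases k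
  · exact ZMod.val_injective p h0
  · exact ZMod.val_injective p h1

theorem idxOf_zero : idxOf (0 : Fin 2 → ZMod p) = 0 := by
  simp [idxOf]

theorem idxOf_eq_zero {v : Fin 2 → ZMod p} (h : idxOf v = 0) : v = 0 :=
  idxOf_inj (h.trans idxOf_zero.symm)

theorem val_lin (x y : ZMod p) (u w : ℕ) :
    ((u : ZMod p) * x + (w : ZMod p) * y).val = (u * x.val + w * y.val) % p := by
  have : ((u : ZMod p) * x + (w : ZMod p) * y) = ((u * x.val + w * y.val : ℕ) : ZMod p) := by
    push_cast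
    rw [ZMod.natCast_zmod_val, ZMod.natCast_zmod_val]
  rw [this, ZMod.val_natCast]

theorem idxOf_apply (n : ℕ × ℕ × ℕ × ℕ) (v : Fin 2 → ZMod p) :
    idxOf (toMat p n *ᵥ v) = applyI p n (idxOf v) := by
  unfold applyI
  rw [idxOf_div, idxOf_mod]
  unfold idxOf
  have h0 : (toMat p n *ᵥ v) 0 = (n.1 : ZMod p) * v 0 + (n.2.1 : ZMod p) * v 1 := by
    simp [toMat, Matrix.mulVec, dotProduct, Fin.sum_univ_two]
  have h1 : (toMat p n *ᵥ v) 1 = (n.2.2.1 : ZMod p) * v 0 + (n.2.2.2 : ZMod p) * v 1 := by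
    simp [toMat, Matrix.mulVec, dotProduct, Fin.sum_univ_two]
  rw [h0, h1, val_lin, val_lin]

/-- First column of a matrix. -/
def col0 (M : Matrix (Fin 2) (Fin 2) (ZMod p)) : Fin 2 → ZMod p := M *ᵥ ![1, 0]
/-- Second column of a matrix. -/
def col1 (M : Matrix (Fin 2) (Fin 2) (ZMod p)) : Fin 2 → ZMod p := M *ᵥ ![0, 1]

theorem col0_mul (A B : Matrix (Fin 2) (Fin 2) (ZMod p)) : col0 (A * B) = A *ᵥ col0 B := by
  unfold col0
  rw [Matrix.mulVec_mulVec]

theorem col1_mul (A B : Matrix (Fin 2) (Fin 2) (ZMod p)) : col1 (A * B) = A *ᵥ col1 B := by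
  unfold col1
  rw [Matrix.mulVec_mulVec]

theorem mat_ext_cols {A B : Matrix (Fin 2) (Fin 2) (ZMod p)} (h0 : col0 A = col0 B)
    (h1 : col1 A = col1 B) : A = B := by
  ext i j
  fin_cases j
  · have := congrFun h0 i
    simpa [col0, Matrix.mulVec, dotProduct, Fin.sum_univ_two] using this
  · have := congrFun h1 i
    simpa [col1, Matrix.mulVec, dotProduct, Fin.sum_univ_two] using this

abbrev GL2 (p : ℕ) := Matrix.GeneralLinearGroup (Fin 2) (ZMod p)

theorem col0_ne_zero (g : GL2 p) : col0 (g : Matrix (Fin 2) (Fin 2) (ZMod p)) ≠ 0 := by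
  intro h
  have hinv : ((g⁻¹ : GL2 p) : Matrix (Fin 2) (Fin 2) (ZMod p)) * (g : Matrix (Fin 2) (Fin 2) (ZMod p)) = 1 :=
    Units.inv_mul g
  have h1 : col0 (((g⁻¹ : GL2 p) : Matrix (Fin 2) (Fin 2) (ZMod p)) * (g : Matrix (Fin 2) (Fin 2) (ZMod p))) = 0 := by
    rw [col0_mul, h, Matrix.mulVec_zero]
  rw [hinv] at h1
  have := congrFun h1 0
  simp [col0] at this

/-- The predicate: the second column is given by the table. -/
def IsTbl (col2 : ℕ → ℕ) (M : Matrix (Fin 2) (Fin 2) (ZMod p)) : Prop :=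
  idxOf (col1 M) = col2 (idxOf (col0 M))

section Main

variable {gens : List (ℕ × ℕ × ℕ × ℕ)} {col2 par gidx rank : ℕ → ℕ}

theorem check_one (h : check p gens col2 par gidx rank = true) : col2 p = 1 := by
  simp only [check, Bool.and_eq_true, beq_iff_eq] at h
  exact h.1

theorem check_at (h : check p gens col2 par gidx rank = true) {i : ℕ} (hi : i < p * p) :
    checkVec p gens col2 par gidx rank i = true := by
  simp only [check, Bool.and_eq_true, List.all_eq_true, List.mem_range] at h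
  exact h.2 i hi

theorem check_gens (h : check p gens col2 par gidx rank = true) {i : ℕ} (hi : i < p * p) (h0 : i ≠ 0)
    {n : ℕ × ℕ × ℕ × ℕ} (hn : n ∈ gens) : col2 (applyI p n i) = applyI p n (col2 i) := by
  have := check_at h hi
  simp only [checkVec, Bool.or_eq_true, Bool.and_eq_true, beq_iff_eq, List.all_eq_true] at this
  rcases this with h' | h'
  · exact absurd h' h0
  · exact h'.1 n hn

theorem check_par (h : check p gens col2 par gidx rank = true) {i : ℕ} (hi : i < p * p) (h0 : i ≠ 0)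
    (hp : i ≠ p) : ∃ n ∈ gens, applyI p n (par i) = i ∧ rank (par i) < rank i ∧ par i < p * p ∧ par i ≠ 0 := by
  have := check_at h hi
  simp only [checkVec, Bool.or_eq_true, Bool.and_eq_true, beq_iff_eq, decide_eq_true_eq,
    Bool.not_eq_true', beq_eq_false_iff_ne] at this
  rcases this with h' | ⟨_, h' | ⟨⟨⟨⟨h1, h2⟩, h3⟩, h4⟩, h5⟩⟩
  · exact absurd h' h0
  · exact absurd h' hp
  · refine ⟨gens.getD (gidx i) (0, 0, 0, 0), ?_, h2, h3, h4, h5⟩
    rw [List.getD_eq_getElem _ _ h1]
    exact List.getElem_mem h1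

theorem isTbl_one (h : check p gens col2 par gidx rank = true) :
    IsTbl col2 (1 : Matrix (Fin 2) (Fin 2) (ZMod p)) := by
  unfold IsTbl
  have h1 : (1 : ZMod p).val = 1 := by
    have : Fact (1 < p) := ⟨(Fact.out : p.Prime).one_lt⟩
    exact ZMod.val_one p
  have e0 : idxOf (col0 (1 : Matrix (Fin 2) (Fin 2) (ZMod p))) = p := by
    simp [idxOf, col0, h1]
  have e1 : idxOf (col1 (1 : Matrix (Fin 2) (Fin 2) (ZMod p))) = 1 := by
    simp [idxOf, col1, h1]
  rw [e0, e1, check_one h]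

theorem isTbl_mul_gen (h : check p gens col2 par gidx rank = true) {n : ℕ × ℕ × ℕ × ℕ} (hn : n ∈ gens)
    (l : GL2 p) (hl : IsTbl col2 (l : Matrix (Fin 2) (Fin 2) (ZMod p))) :
    IsTbl col2 (toMat p n * (l : Matrix (Fin 2) (Fin 2) (ZMod p))) := by
  unfold IsTbl at hl ⊢
  rw [col1_mul, col0_mul, idxOf_apply, idxOf_apply, hl]
  refine (check_gens h (idxOf_lt _) ?_ hn).symm
  intro h0
  exact col0_ne_zero l (idxOf_eq_zero h0)

/-- All elements of the closure satisfy the table. -/
theorem closure_isTbl (h : check p gens col2 par gidx rank = true) (S : Set (GL2 p))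
    (hS : ∀ g ∈ S, ∃ n ∈ gens, (g : Matrix (Fin 2) (Fin 2) (ZMod p)) = toMat p n)
    (g : GL2 p) (hg : g ∈ Subgroup.closure S) : IsTbl col2 (g : Matrix (Fin 2) (Fin 2) (ZMod p)) := by
  -- the subgroup of elements preserving the predicate
  let K : Subgroup (GL2 p) :=
    { carrier := {g | ∀ l : GL2 p, IsTbl col2 (l : Matrix (Fin 2) (Fin 2) (ZMod p)) →
        IsTbl col2 ((g * l : GL2 p) : Matrix (Fin 2) (Fin 2) (ZMod p))}
      mul_mem' := by
        intro a b ha hb l hl
        rw [mul_assoc]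
        exact ha _ (hb _ hl)
      one_mem' := by
        intro l hl
        rwa [one_mul]
      inv_mem' := by
        intro a ha l hl
        have hpow : ∀ k : ℕ, ∀ l : GL2 p, IsTbl col2 (l : Matrix (Fin 2) (Fin 2) (ZMod p)) →
            IsTbl col2 ((a ^ k * l : GL2 p) : Matrix (Fin 2) (Fin 2) (ZMod p)) := by
          intro k
          induction k with
          | zero => intro l hl; simpa using hl
          | succ k ih =>
            intro l hl
            rw [pow_succ, mul_assoc]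
            exact ih _ (ha _ hl)
        have hord : a⁻¹ = a ^ (orderOf a - 1) := by
          apply inv_eq_of_mul_eq_one_right
          rw [← pow_succ', Nat.sub_add_cancel (orderOf_pos a), pow_orderOf_eq_one]
        rw [hord]
        exact hpow _ _ hl }
  have hle : Subgroup.closure S ≤ K := by
    rw [Subgroup.closure_le]
    intro a ha l hl
    obtain ⟨n, hn, e⟩ := hS a ha
    have := isTbl_mul_gen h hn l hl
    rw [← e] at this
    exact this
  have := hle hg 1 (by simpa using isTbl_one h)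
  simpa using this

/-- All first columns occur. -/
theorem exists_of_rank (h : check p gens col2 par gidx rank = true) (S : Set (GL2 p))
    (hS : ∀ n ∈ gens, ∃ g ∈ S, (g : Matrix (Fin 2) (Fin 2) (ZMod p)) = toMat p n) :
    ∀ r : ℕ, ∀ i : ℕ, rank i < r → i < p * p → i ≠ 0 →
      ∃ g : GL2 p, g ∈ Subgroup.closure S ∧ idxOf (col0 (g : Matrix (Fin 2) (Fin 2) (ZMod p))) = i := by
  intro r
  induction r with
  | zero => intro i hi; omega
  | succ r ih =>
    intro i hr hi h0
    by_cases hp : i = p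
    · refine ⟨1, one_mem _, ?_⟩
      have h1 : (1 : ZMod p).val = 1 := by
        have : Fact (1 < p) := ⟨(Fact.out : p.Prime).one_lt⟩
        exact ZMod.val_one p
      subst hp
      simp [idxOf, col0, h1]
    · obtain ⟨n, hn, happ, hrk, hlt, hne⟩ := check_par h hi h0 hp
      obtain ⟨g', hg', hm⟩ := ih (par i) (by omega) hlt hne
      obtain ⟨s, hs, e⟩ := hS n hn
      refine ⟨s * g', mul_mem (Subgroup.subset_closure hs) hg', ?_⟩
      have : ((s * g' : GL2 p) : Matrix (Fin 2) (Fin 2) (ZMod p)) =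
          (s : Matrix (Fin 2) (Fin 2) (ZMod p)) * (g' : Matrix (Fin 2) (Fin 2) (ZMod p)) := rfl
      rw [this, col0_mul, e, idxOf_apply, hm, happ]

theorem exists_col0 (h : check p gens col2 par gidx rank = true) (S : Set (GL2 p))
    (hS : ∀ n ∈ gens, ∃ g ∈ S, (g : Matrix (Fin 2) (Fin 2) (ZMod p)) = toMat p n)
    (v : Fin 2 → ZMod p) (hv : v ≠ 0) :
    ∃ g : GL2 p, g ∈ Subgroup.closure S ∧ col0 (g : Matrix (Fin 2) (Fin 2) (ZMod p)) = v := by
  obtain ⟨g, hg, e⟩ := exists_of_rank h S hS (rank (idxOf v) + 1) (idxOf v) (Nat.lt_succ_self _)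
    (idxOf_lt v) (fun h0 => hv (idxOf_eq_zero h0))
  exact ⟨g, hg, idxOf_inj e⟩

theorem closure_inj (h : check p gens col2 par gidx rank = true) (S : Set (GL2 p))
    (hS : ∀ g ∈ S, ∃ n ∈ gens, (g : Matrix (Fin 2) (Fin 2) (ZMod p)) = toMat p n)
    {a b : GL2 p} (ha : a ∈ Subgroup.closure S) (hb : b ∈ Subgroup.closure S)
    (e : col0 (a : Matrix (Fin 2) (Fin 2) (ZMod p)) = col0 (b : Matrix (Fin 2) (Fin 2) (ZMod p))) : a = b := by
  apply Units.ext
  apply mat_ext_cols e
  apply idxOf_inj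
  have h1 := closure_isTbl h S hS a ha
  have h2 := closure_isTbl h S hS b hb
  unfold IsTbl at h1 h2
  rw [h1, h2, e]

theorem card_ne_zero_vectors :
    Nat.card {v : Fin 2 → ZMod p // v ≠ 0} = p ^ 2 - 1 := by
  have h1 : Nat.card {v : Fin 2 → ZMod p // v ≠ 0} = Fintype.card {v : Fin 2 → ZMod p // v ≠ 0} :=
    Nat.card_eq_fintype_card
  rw [h1, Fintype.card_subtype_compl, Fintype.card_fun, ZMod.card]
  simp

theorem mulVec_col0 (A : Matrix (Fin 2) (Fin 2) (ZMod p)) (B : Matrix (Fin 2) (Fin 2) (ZMod p)) :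
    A *ᵥ col0 B = col0 (A * B) := (col0_mul A B).symm

/-- The main theorem: a certificate gives the order and the regular action. -/
theorem regular_of_check (h : check p gens col2 par gidx rank = true) (S : Set (GL2 p))
    (hS1 : ∀ g ∈ S, ∃ n ∈ gens, (g : Matrix (Fin 2) (Fin 2) (ZMod p)) = toMat p n)
    (hS2 : ∀ n ∈ gens, ∃ g ∈ S, (g : Matrix (Fin 2) (Fin 2) (ZMod p)) = toMat p n) :
    Nat.card (Subgroup.closure S) = p ^ 2 - 1 ∧
      ∀ v w : Fin 2 → ZMod p, v ≠ 0 → w ≠ 0 → ∃! u : Subgroup.closure S,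
        Matrix.mulVec ((u : GL2 p) : Matrix (Fin 2) (Fin 2) (ZMod p)) v = w := by
  constructor
  · rw [← card_ne_zero_vectors (p := p)]
    apply Nat.card_eq_of_bijective (fun g : Subgroup.closure S =>
      (⟨col0 ((g : GL2 p) : Matrix (Fin 2) (Fin 2) (ZMod p)), col0_ne_zero _⟩ : {v : Fin 2 → ZMod p // v ≠ 0}))
    constructor
    · rintro ⟨a, ha⟩ ⟨b, hb⟩ e
      have e' : col0 (a : Matrix (Fin 2) (Fin 2) (ZMod p)) = col0 (b : Matrix (Fin 2) (Fin 2) (ZMod p)) :=
        congrArg Subtype.val e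
      exact Subtype.ext (closure_inj h S hS1 ha hb e')
    · rintro ⟨v, hv⟩
      obtain ⟨g, hg, e⟩ := exists_col0 h S hS2 v hv
      exact ⟨⟨g, hg⟩, Subtype.ext e⟩
  · intro v w hv hw
    obtain ⟨g1, hg1, e1⟩ := exists_col0 h S hS2 v hv
    obtain ⟨g2, hg2, e2⟩ := exists_col0 h S hS2 w hw
    have hinv : ∀ a : GL2 p, ((a⁻¹ : GL2 p) : Matrix (Fin 2) (Fin 2) (ZMod p)) * (a : Matrix (Fin 2) (Fin 2) (ZMod p)) = 1 :=
      fun a => Units.inv_mul a
    have hcoe : ∀ a b : GL2 p, ((a * b : GL2 p) : Matrix (Fin 2) (Fin 2) (ZMod p)) =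
        (a : Matrix (Fin 2) (Fin 2) (ZMod p)) * (b : Matrix (Fin 2) (Fin 2) (ZMod p)) := fun _ _ => rfl
    refine ⟨⟨g2 * g1⁻¹, mul_mem hg2 (inv_mem hg1)⟩, ?_, ?_⟩
    · show ((g2 * g1⁻¹ : GL2 p) : Matrix (Fin 2) (Fin 2) (ZMod p)) *ᵥ v = w
      rw [← e1, mulVec_col0, hcoe, Matrix.mul_assoc, hinv, Matrix.mul_one, e2]
    · rintro ⟨u, hu⟩ hmv
      have hmv' : (u : Matrix (Fin 2) (Fin 2) (ZMod p)) *ᵥ v = w := hmv
      apply Subtype.ext
      show u = g2 * g1⁻¹
      -- `u * g1` and `g2` have the same first column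
      have hc : col0 ((u * g1 : GL2 p) : Matrix (Fin 2) (Fin 2) (ZMod p)) =
          col0 (g2 : Matrix (Fin 2) (Fin 2) (ZMod p)) := by
        rw [hcoe, col0_mul, e1, hmv', e2]
      have := closure_inj h S hS1 (mul_mem hu hg1) hg2 hc
      rw [← this]
      group

end Main

end Cfsg.Agent.Lib.Compute.Gl2Regular
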