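/-
The Harada-Norton group contains the alternating group of degree 12: ten elements with Carmichael's relations.
-/
import Cfsg.Agent.Lib.Compute.HNTop
import Cfsg.Agent.Lib.Compute.AltEmbed
import Cfsg.Agent.Lib.Compute.TC.HNA.All
import Cfsg.Prelude.Def_Sporadic

set_option autoImplicit false
set_option maxRecDepth 100000

namespace Cfsg.Agent.Lib.Compute.HNA12

open Cfsg.Agent.Lib.Compute.ToddCoxeterCore Cfsg.Agent.Lib.Compute.ToddCoxeterPresented
  Cfsg.Agent.Lib.Compute.TCFast Cfsg.Agent.Lib.Compute.TCChain Cfsg.Agent.Lib.Compute.PNet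
  Cfsg.Agent.Lib.Compute.HNUp Cfsg.Agent.Lib.Compute.HNTop Cfsg.Agent.Lib.Compute.AltEmbed
open Cfsg.Agent.Lib.Compute.TC

/-- the elements -/
noncomputable def cn (n : ℕ) : GG := (HNA.es.getD n .one).el (elG HNTT.D HNTT.RR)

theorem cn3 (n : ℕ) (hn : n < 10) : cn n ^ 3 = 1 := by
  have h1 := el_eq _ _ (HNA.c3All n hn)
  rw [PE.el_pw] at h1
  exact h1

theorem cn2 (m n : ℕ) (hm : m < n) (hn : n < 10) : (cn m * cn n) ^ 2 = 1 := by
  have h1 := el_eq _ _ (HNA.c2All m n hm hn)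
  rw [PE.el_pw] at h1
  exact h1

theorem cn2' (m n : ℕ) (hm : m ≠ n) (hmn : m < 10) (hn : n < 10) : (cn m * cn n) ^ 2 = 1 := by
  rcases lt_or_gt_of_ne hm with h | h
  · exact cn2 m n h hn
  · have h1 := cn2 n m h hmn
    have h2 : (cn m * cn n) ^ 2 = (cn n)⁻¹ * (cn n * cn m) ^ 2 * cn n := by
      simp only [pow_two, mul_assoc, inv_mul_cancel_left]
    rw [h2, h1]
    group

/-- the index of a generator -/
def ix (i : Ix) : ℕ := i.1.val - 2

theorem ix_lt (i : Ix) : ix i < 10 := by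
  have := i.1.isLt
  simp only [ix]
  omega

theorem ix_inj (i j : Ix) (h : ix i = ix j) : i = j := by
  have h0 : i.1.val ≠ 0 := fun h' => i.2.1 (Fin.ext h')
  have h1 : i.1.val ≠ 1 := fun h' => i.2.2 (Fin.ext h')
  have h0' : j.1.val ≠ 0 := fun h' => j.2.1 (Fin.ext h')
  have h1' : j.1.val ≠ 1 := fun h' => j.2.2 (Fin.ext h')
  simp only [ix] at h
  exact Subtype.ext (Fin.ext (by omega))

/-- the elements by their index -/
noncomputable def cc (i : Ix) : GG := cn (ix i)

theorem cn0_ne : cn 0 ≠ 1 := by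
  intro h
  have hev := ev0_okP HNTT.hR HNTT.small HNTT.big HNTT.hgens
  have hp : HNA.x0 < HNTT.cfg.N := by decide +kernel
  have h3 := (PE.ev_spec hev (HNA.es.getD 0 .one) ⟨HNA.x0, hp⟩).1
  rw [← PE.el_map] at h3
  have h4 : (HNA.es.getD 0 .one).el (elG HNTT.D HNTT.RR) = 1 := h
  rw [h4, map_one] at h3
  exact HNA.mv h3

/-- the embedding -/
theorem embed : ∃ φ : alternatingGroup (Fin 12) →* GG, Function.Injective φ :=
  exists_embed cc (fun i => cn3 _ (ix_lt i))
    (fun i j hij => cn2' _ _ (fun h => hij (ix_inj i j h)) (ix_lt i) (ix_lt j))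
    ⟨2, by decide, by decide⟩ cn0_ne

theorem card_alt12 : Nat.card (alternatingGroup (Fin 12)) = 239500800 := by
  have h := card_alt
  have h2 : Nat.factorial 12 = 479001600 := rfl
  omega

/-- The statement. -/
theorem main : ∃ H : Subgroup (Equiv.Perm (Fin 1140000)), Cfsg.IsHN H ∧
    MulAction.IsPretransitive H (Fin 1140000) ∧
    Nonempty (MulAction.stabilizer H (0 : Fin 1140000) ≃* alternatingGroup (Fin 12)) := by
  obtain ⟨φ, hφ⟩ := embed
  haveI := finG
  haveI := simple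
  obtain ⟨H, ⟨iso⟩, hp, hst⟩ := exists_perm_rep φ hφ 1140000 (by rw [card_alt12, card_G]) (by norm_num)
  refine ⟨H, ⟨iso.symm.isSimpleGroup, ?_⟩, hp, hst⟩
  rw [← Nat.card_congr iso.toEquiv, card_G]

end Cfsg.Agent.Lib.Compute.HNA12
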