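import Cfsg.Agent.Lib.Compute.SchurMain
import Cfsg.Agent.Lib.Compute.PermCert

/-!
# Peeling certificates for linear relations on coset tables

The edge labels of a coset table, with values in an abelian group, satisfy one relation for each relator and each
point.  A certificate gives an order on the labels such that each label is determined by a relation in terms of the
earlier ones, together with an integer linear form for each label, in terms of a few parameters.  All the forms are
packed in big numbers, and the checks are additions of big numbers.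
-/

set_option autoImplicit false
set_option linter.unusedSectionVars false
set_option linter.unusedVariables false

namespace Cfsg.Agent.Lib.Compute.PeelCert

open Cfsg Cfsg.Agent.Lib.Compute.SchurLin
open Cfsg.Agent.Lib.Compute.ToddCoxeterCore (frc frc_eq)

local notation "bN(" b ", " t ", " e ")" => Bool.rec (motive := fun _ => ℕ) e t b
local notation "bB(" b ", " t ", " e ")" => Bool.rec (motive := fun _ => Bool) e t b

/-! ### Digits -/

/-- The digits of a number. -/
def digs (B : ℕ) : ℕ → ℕ → List ℕ
  | 0, _ => []
  | c + 1, N => (N % B) :: digs B c (N / B)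

/-- A bound on the digits of a number. -/
def Bd (B a : ℕ) : ℕ → ℕ → Prop
  | 0, _ => True
  | c + 1, N => N % B ≤ a ∧ Bd B a c (N / B)

/-- The check of a bound on the digits. -/
def bdB (B a : ℕ) : ℕ → ℕ → Bool
  | 0, N => Nat.beq N 0
  | c + 1, N => Nat.ble (Nat.mod N B) a && bdB B a c (Nat.div N B)

theorem Bd_mono {B a b : ℕ} (h : a ≤ b) : ∀ {c N : ℕ}, Bd B a c N → Bd B b c N := by
  intro c
  induction c with
  | zero => intro _ _; trivial
  | succ c ih =>
    intro N hN
    exact ⟨le_trans hN.1 h, ih hN.2⟩

theorem Bd_of_bdB {B a : ℕ} : ∀ {c N : ℕ}, bdB B a c N = true → Bd B a c N := by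
  intro c
  induction c with
  | zero => intro _ _; trivial
  | succ c ih =>
    intro N hN
    simp only [bdB, Bool.and_eq_true, Nat.ble_eq] at hN
    exact ⟨hN.1, ih hN.2⟩

theorem top_of_bdB {B a : ℕ} : ∀ {c N : ℕ}, bdB B a c N = true → N / B ^ c = 0 := by
  intro c
  induction c with
  | zero =>
    intro N hN
    have : N = 0 := Nat.eq_of_beq_eq_true hN
    simp [this]
  | succ c ih =>
    intro N hN
    simp only [bdB, Bool.and_eq_true] at hN
    have := ih hN.2
    rw [pow_succ', ← Nat.div_div_eq_div_mul]
    exact this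

section Arith

variable {B : ℕ}

theorem add_split (hB : 0 < B) {M N : ℕ} (h : M % B + N % B < B) :
    (M + N) % B = M % B + N % B ∧ (M + N) / B = M / B + N / B := by
  have h1 := Nat.div_add_mod M B
  have h2 := Nat.div_add_mod N B
  have e : M + N = (M % B + N % B) + B * (M / B + N / B) := by
    rw [Nat.mul_add]
    omega
  constructor
  · rw [e, Nat.add_mul_mod_self_left, Nat.mod_eq_of_lt h]
  · rw [e, Nat.add_mul_div_left _ _ hB, Nat.div_eq_of_lt h, Nat.zero_add]

theorem mul_split (hB : 0 < B) {k N : ℕ} (h : k * (N % B) < B) :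
    (k * N) % B = k * (N % B) ∧ (k * N) / B = k * (N / B) := by
  have h1 := Nat.div_add_mod N B
  have e : k * N = k * (N % B) + B * (k * (N / B)) := by
    conv_lhs => rw [← h1]
    rw [Nat.mul_add]
    ring
  constructor
  · rw [e, Nat.add_mul_mod_self_left, Nat.mod_eq_of_lt h]
  · rw [e, Nat.add_mul_div_left _ _ hB, Nat.div_eq_of_lt h, Nat.zero_add]

theorem Bd_add (hB : 0 < B) {a b : ℕ} (hab : a + b < B) :
    ∀ {c M N : ℕ}, Bd B a c M → Bd B b c N → Bd B (a + b) c (M + N) := by
  intro c
  induction c with
  | zero => intro _ _ _ _; trivial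
  | succ c ih =>
    intro M N hM hN
    have h : M % B + N % B < B := lt_of_le_of_lt (Nat.add_le_add hM.1 hN.1) hab
    obtain ⟨e1, e2⟩ := add_split hB h
    refine ⟨?_, ?_⟩
    · rw [e1]
      exact Nat.add_le_add hM.1 hN.1
    · rw [e2]
      exact ih hM.2 hN.2

variable {A : Type*} [CommGroup A]

open Cfsg.Agent.Lib.Compute.SchurLin in
theorem ev_digs_add (hB : 0 < B) (q : ℕ → A) {a b : ℕ} (hab : a + b < B) :
    ∀ {c M N : ℕ} (i : ℕ), Bd B a c M → Bd B b c N →
      ev q i (digs B c (M + N)) = ev q i (digs B c M) * ev q i (digs B c N) := by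
  intro c
  induction c with
  | zero => intro _ _ _ _ _; simp [digs]
  | succ c ih =>
    intro M N i hM hN
    have h : M % B + N % B < B := lt_of_le_of_lt (Nat.add_le_add hM.1 hN.1) hab
    obtain ⟨e1, e2⟩ := add_split hB h
    simp only [digs, ev]
    rw [e1, e2, ih (i + 1) hM.2 hN.2, pow_add]
    exact mul_mul_mul_comm _ _ _ _

theorem digs_unit (hB : 1 < B) (q : ℕ → A) : ∀ (c j i : ℕ), j < c → ev q i (digs B c (B ^ j)) = q (i + j) := by
  intro c
  induction c with
  | zero => intro j _ h; omega
  | succ c ih =>
    intro j i hj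
    cases j with
    | zero =>
      simp only [pow_zero, digs, ev, Nat.mod_eq_of_lt hB, pow_one, Nat.add_zero]
      have h0 : 1 / B = 0 := Nat.div_eq_of_lt hB
      rw [h0]
      have key : ∀ (k l : ℕ), ev q l (digs B k 0) = 1 := by
        intro k
        induction k with
        | zero => intro _; simp [digs]
        | succ k ih2 =>
          intro l
          simp [digs, ev, ih2]
      rw [key, mul_one]
    | succ j =>
      have hB0 : 0 < B := by omega
      have e1 : B ^ (j + 1) % B = 0 := by
        rw [pow_succ]
        exact Nat.mul_mod_left _ _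
      have e2 : B ^ (j + 1) / B = B ^ j := by
        rw [pow_succ]
        exact Nat.mul_div_cancel _ hB0
      simp only [digs, ev, e1, e2, pow_zero, one_mul]
      rw [ih j (i + 1) (by omega)]
      congr 1
      omega

/-- The top digit. -/
theorem ev_digs_succ {q q' : ℕ → A} : ∀ (c i N : ℕ), (∀ j, j < i + c → q' j = q j) →
    ev q' i (digs B (c + 1) N) = ev q i (digs B c N) * q' (i + c) ^ (N / B ^ c % B) := by
  intro c
  induction c with
  | zero =>
    intro i N _
    simp [digs, ev]
  | succ c ih =>
    intro i N h
    have e : N / B / B ^ c = N / B ^ (c + 1) := by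
      rw [Nat.div_div_eq_div_mul, pow_succ']
    have h3 := ih (i + 1) (N / B) (fun j hj => h j (by omega))
    have h4 : digs B (c + 1 + 1) N = (N % B) :: digs B (c + 1) (N / B) := rfl
    have h5 : digs B (c + 1) N = (N % B) :: digs B c (N / B) := rfl
    rw [h4, h5]
    simp only [ev]
    rw [h3, e, h i (by omega)]
    have e2 : i + 1 + c = i + (c + 1) := by omega
    rw [e2, mul_assoc]

end Arith

/-! ### Scanning a word -/

/-- Scan a word from a point, adding the forms of the letters to two accumulators. -/
noncomputable def scan (t : ℕ → ℕ → ℕ) (n : ℕ) (lv : ℕ → ℕ) (okv : ℕ → Bool) (off : ℕ) (w : List ℕ)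
    (fin : ℕ → ℕ → ℕ → Bool) : ℕ → ℕ → ℕ → Bool :=
  List.rec (motive := fun _ => ℕ → ℕ → ℕ → Bool) (fun i P Q => fin i P Q)
    (fun x _ ih i P Q => frc (t i x) fun i' => frc (xIdx n i i' x) fun v =>
      bB(okv v, frc (lv v) fun N' =>
          bB(Nat.beq (Nat.mod x 2) 0,
            frc (Nat.add P N') fun P' => frc (Nat.add Q off) fun Q' => ih i' P' Q',
            frc (Nat.add P off) fun P' => frc (Nat.add Q N') fun Q' => ih i' P' Q'),
        false)) w

section Scan

variable {A : Type*} [CommGroup A] {t : ℕ → ℕ → ℕ} {z : ℕ → ℕ → A} {rr : ℕ → A} {n N : ℕ} {W : List (List ℕ)}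
  {B c a Lm off : ℕ} {q : ℕ → A} {lv : ℕ → ℕ} {okv : ℕ → Bool} {fin : ℕ → ℕ → ℕ → Bool}

/-- The specification of a scan. -/
theorem scan_spec (ctx : LinCtx t z rr n N W) (hB : 0 < B) (hLm : Lm * a < B) (hoff : Bd B a c off)
    (hv : ∀ v < N * n, okv v = true → Bd B a c (lv v) ∧
      zzOf z rr n N v * ev q 0 (digs B c off) = ev q 0 (digs B c (lv v))) :
    ∀ (w : List ℕ) (i P Q A' : ℕ), i < N → (∀ x ∈ w, x < 2 * n) → A' + w.length ≤ Lm →
      Bd B (A' * a) c P → Bd B (A' * a) c Q → scan t n lv okv off w fin i P Q = true →
      ∃ P' Q', fin (walkEnd t i w) P' Q' = true ∧ Bd B (Lm * a) c P' ∧ Bd B (Lm * a) c Q' ∧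
        walkProd t z i w * ev q 0 (digs B c P) * ev q 0 (digs B c Q') =
          ev q 0 (digs B c P') * ev q 0 (digs B c Q) := by
  intro w
  induction w with
  | nil =>
    intro i P Q A' _ _ hA hP hQ hs
    refine ⟨P, Q, hs, Bd_mono (Nat.mul_le_mul_right a (by simpa using hA)) hP,
      Bd_mono (Nat.mul_le_mul_right a (by simpa using hA)) hQ, ?_⟩
    simp only [walkProd, one_mul]
  | cons x u ih =>
    intro i P Q A' hi hw hA hP hQ hs
    have hx : x < 2 * n := hw x (by simp)
    have hu : ∀ y ∈ u, y < 2 * n := fun y hy => hw y (by simp [hy])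
    have hlen : A' + 1 + u.length ≤ Lm := by
      simp only [List.length_cons] at hA
      omega
    have hti : t i x < N := ctx.hlt i hi x hx
    have hvlt := xIdx_lt (n := n) (N := N) ctx.hn hi hti hx
    have e0 : scan t n lv okv off (x :: u) fin i P Q =
        bB(okv (xIdx n i (t i x) x), frc (lv (xIdx n i (t i x) x)) fun N' =>
          bB(Nat.beq (Nat.mod x 2) 0,
            frc (Nat.add P N') fun P' => frc (Nat.add Q off) fun Q' => scan t n lv okv off u fin (t i x) P' Q',
            frc (Nat.add P off) fun P' => frc (Nat.add Q N') fun Q' => scan t n lv okv off u fin (t i x) P' Q'),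
          false) := by
      have e00 : scan t n lv okv off (x :: u) fin i P Q = frc (t i x) (fun i' => frc (xIdx n i i' x) fun v =>
        bB(okv v, frc (lv v) fun N' =>
          bB(Nat.beq (Nat.mod x 2) 0,
            frc (Nat.add P N') fun P' => frc (Nat.add Q off) fun Q' => scan t n lv okv off u fin i' P' Q',
            frc (Nat.add P off) fun P' => frc (Nat.add Q N') fun Q' => scan t n lv okv off u fin i' P' Q'),
          false)) := rfl
      rw [e00, frc_eq, frc_eq]
    rw [e0] at hs
    cases hok : okv (xIdx n i (t i x) x) with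
    | false =>
      rw [hok] at hs
      exact absurd hs (by simp)
    | true =>
      rw [hok] at hs
      obtain ⟨hb, hval⟩ := hv _ hvlt hok
      have hstep : (A' + 1) * a < B := lt_of_le_of_lt (Nat.mul_le_mul_right a (by omega)) hLm
      have hsum : A' * a + a < B := by
        have : (A' + 1) * a = A' * a + a := by ring
        omega
      have hbP : Bd B ((A' + 1) * a) c (P + lv (xIdx n i (t i x) x)) := by
        have := Bd_add hB hsum hP hb
        rwa [show A' * a + a = (A' + 1) * a by ring] at this
      have hbQ : Bd B ((A' + 1) * a) c (Q + off) := by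
        have := Bd_add hB hsum hQ hoff
        rwa [show A' * a + a = (A' + 1) * a by ring] at this
      have hbP2 : Bd B ((A' + 1) * a) c (P + off) := by
        have := Bd_add hB hsum hP hoff
        rwa [show A' * a + a = (A' + 1) * a by ring] at this
      have hbQ2 : Bd B ((A' + 1) * a) c (Q + lv (xIdx n i (t i x) x)) := by
        have := Bd_add hB hsum hQ hb
        rwa [show A' * a + a = (A' + 1) * a by ring] at this
      obtain ⟨h5, h6⟩ := zz_xIdx ctx hi hx
      have hs' : (bB(Nat.beq (Nat.mod x 2) 0,
            frc (Nat.add P (lv (xIdx n i (t i x) x))) fun P' => frc (Nat.add Q off) fun Q' =>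
              scan t n lv okv off u fin (t i x) P' Q',
            frc (Nat.add P off) fun P' => frc (Nat.add Q (lv (xIdx n i (t i x) x))) fun Q' =>
              scan t n lv okv off u fin (t i x) P' Q')) = true := by
        simpa only [frc_eq] using hs
      cases hev : Nat.beq (Nat.mod x 2) 0 with
      | true =>
        rw [hev] at hs'
        simp only [frc_eq] at hs'
        have hx0 : x % 2 = 0 := Nat.eq_of_beq_eq_true hev
        obtain ⟨P', Q', r1, r2, r3, r4⟩ := ih (t i x) _ _ (A' + 1) hti hu hlen hbP hbQ hs'
        refine ⟨P', Q', r1, r2, r3, ?_⟩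
        have e1 : ev q 0 (digs B c (P + (lv (xIdx n i (t i x) x)))) =
            ev q 0 (digs B c P) * ev q 0 (digs B c (lv (xIdx n i (t i x) x))) :=
          ev_digs_add hB q hsum 0 hP hb
        have e2 : ev q 0 (digs B c (Q + off)) = ev q 0 (digs B c Q) * ev q 0 (digs B c off) :=
          ev_digs_add hB q hsum 0 hQ hoff
        rw [e1, e2, ← hval, h5 hx0] at r4
        have key : (walkProd t z (t i x) u * z i x * ev q 0 (digs B c P) * ev q 0 (digs B c Q')) *
            ev q 0 (digs B c off) = (ev q 0 (digs B c P') * ev q 0 (digs B c Q)) * ev q 0 (digs B c off) := by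
          calc _ = walkProd t z (t i x) u * (ev q 0 (digs B c P) * (z i x * ev q 0 (digs B c off))) *
                ev q 0 (digs B c Q') := by ac_rfl
            _ = _ := by rw [r4]; ac_rfl
        exact mul_right_cancel key
      | false =>
        rw [hev] at hs'
        simp only [frc_eq] at hs'
        have hx0 : x % 2 ≠ 0 := fun h0 => by
          have : Nat.beq (Nat.mod x 2) 0 = true := by
            rw [Nat.beq_eq]
            exact h0
          rw [this] at hev
          exact absurd hev (by simp)
        obtain ⟨P', Q', r1, r2, r3, r4⟩ := ih (t i x) _ _ (A' + 1) hti hu hlen hbP2 hbQ2 hs'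
        refine ⟨P', Q', r1, r2, r3, ?_⟩
        have e1 : ev q 0 (digs B c (Q + (lv (xIdx n i (t i x) x)))) =
            ev q 0 (digs B c Q) * ev q 0 (digs B c (lv (xIdx n i (t i x) x))) :=
          ev_digs_add hB q hsum 0 hQ hb
        have e2 : ev q 0 (digs B c (P + off)) = ev q 0 (digs B c P) * ev q 0 (digs B c off) :=
          ev_digs_add hB q hsum 0 hP hoff
        rw [e1, e2, ← hval, h6 hx0] at r4
        have key : (walkProd t z (t i x) u * z i x * ev q 0 (digs B c P) * ev q 0 (digs B c Q')) *
            ev q 0 (digs B c off) * (z i x)⁻¹ = (ev q 0 (digs B c P') * ev q 0 (digs B c Q)) *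
              ev q 0 (digs B c off) * (z i x)⁻¹ := by
          calc _ = (walkProd t z (t i x) u * (ev q 0 (digs B c P) * ev q 0 (digs B c off)) *
                ev q 0 (digs B c Q')) * (z i x * (z i x)⁻¹) := by ac_rfl
            _ = _ := by rw [r4, mul_inv_cancel, mul_one]; ac_rfl
        exact mul_right_cancel (mul_right_cancel key)

end Scan

/-! ### The certificate -/

/-- The packed form of the value of a relator. -/
noncomputable def rrT (e B k : ℕ) : ℕ := bN(Nat.blt k e, 0, Nat.pow B (Nat.sub k e))

/-- The form of a letter, with the pivot digit. -/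
noncomputable def lvF (rk formT : ℕ → ℕ) (E u v : ℕ) : ℕ := frc (formT (rk v)) fun f => bN(Nat.beq v u, Nat.add f E, f)

/-- The letters allowed in a row. -/
def okF (rk : ℕ → ℕ) (u r v : ℕ) : Bool := Nat.blt (rk v) r || Nat.beq v u

/-- The final test of a row. -/
def finF (s T E i P Q : ℕ) : Bool :=
  Nat.beq i s && (Nat.beq P (Nat.add T (Nat.add Q E)) || Nat.beq (Nat.add P E) (Nat.add T Q))

/-- The check of a row. -/
noncomputable def rowChk (t : ℕ → ℕ → ℕ) (n : ℕ) (rk formT kk ss : ℕ → ℕ) (W : List (List ℕ)) (off E e B kmax u r : ℕ) : Bool :=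
  frc (kk u) fun k => frc (ss u) fun s =>
    bB(Nat.blt k kmax, scan t n (lvF rk formT E u) (okF rk u r) off (W.getD k []) (finF s (rrT e B k) E) s 0 0, false)

/-- The check of a label of a tree edge. -/
noncomputable def treeChk (t : ℕ → ℕ → ℕ) (n : ℕ) (par lt : ℕ → ℕ) (u : ℕ) : Bool :=
  frc (Nat.div u n) fun p => frc (Nat.mul 2 (Nat.mod u n)) fun y => frc (t p y) fun i' =>
    (Nat.beq (par i') p && Nat.beq (lt i') y && !Nat.beq i' 0) ||
      (Nat.beq (par p) i' && Nat.beq (lt p) (Nat.add y 1) && !Nat.beq p 0)

/-- The check of a label. -/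
noncomputable def chkVar (t : ℕ → ℕ → ℕ) (n : ℕ) (par lt rk formT kk ss pV : ℕ → ℕ) (W : List (List ℕ))
    (off E e B kmax R c0 u : ℕ) : Bool :=
  frc (rk u) fun r =>
    bB(Nat.beq r 0, treeChk t n par lt u && Nat.beq (formT 0) off,
      bB(Nat.ble r c0, Nat.beq (pV (Nat.sub r 1)) u &&
          Nat.beq (formT r) (Nat.add off (Nat.pow B (Nat.add R (Nat.sub r 1)))),
        rowChk t n rk formT kk ss W off E e B kmax u r))

section Peel

variable {A : Type*} [CommGroup A] {t : ℕ → ℕ → ℕ} {z : ℕ → ℕ → A} {rr : ℕ → A} {n N : ℕ} {W : List (List ℕ)}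

/-- The parameters. -/
def qOf (z : ℕ → ℕ → A) (rr : ℕ → A) (n N e R : ℕ) (pV : ℕ → ℕ) (j : ℕ) : A :=
  if j < R then rr (e + j) else zzOf z rr n N (pV (j - R))

theorem ev_digs_zero (q : ℕ → A) {B : ℕ} : ∀ (k l : ℕ), ev q l (digs B k 0) = 1 := by
  intro k
  induction k with
  | zero => intro _; simp [digs]
  | succ k ih2 =>
    intro l
    simp [digs, ev, ih2]

theorem Bd_zero {B a : ℕ} : ∀ c : ℕ, Bd B a c 0 := by
  intro c
  induction c with
  | zero => trivial
  | succ c ih =>
    refine ⟨by simp, ?_⟩
    simpa using ih

theorem Bd_pow {B : ℕ} (hB : 1 < B) : ∀ (c j : ℕ), Bd B 1 c (B ^ j) := by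
  intro c
  induction c with
  | zero => intro _; trivial
  | succ c ih =>
    intro j
    cases j with
    | zero =>
      refine ⟨by simp [Nat.mod_eq_of_lt hB], ?_⟩
      have h0 : (B ^ 0) / B = 0 := by
        simp [Nat.div_eq_of_lt hB]
      rw [h0]
      exact Bd_zero c
    | succ j =>
      have e1 : B ^ (j + 1) % B = 0 := by
        rw [pow_succ]
        exact Nat.mul_mod_left _ _
      have e2 : B ^ (j + 1) / B = B ^ j := by
        rw [pow_succ]
        exact Nat.mul_div_cancel _ (by omega)
      refine ⟨by omega, ?_⟩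
      rw [e2]
      exact ih j

theorem Bd_succ_of_bdB {B a : ℕ} : ∀ {c N : ℕ}, bdB B a c N = true → Bd B a (c + 1) N := by
  intro c
  induction c with
  | zero =>
    intro N hN
    have : N = 0 := Nat.eq_of_beq_eq_true hN
    subst this
    exact ⟨by simp, trivial⟩
  | succ c ih =>
    intro N hN
    simp only [bdB, Bool.and_eq_true, Nat.ble_eq] at hN
    exact ⟨hN.1, ih hN.2⟩

theorem tree_label (ctx : LinCtx t z rr n N W) {par lt : ℕ → ℕ}
    (hpar : ∀ i < N, i ≠ 0 → par i < N ∧ lt i < 2 * n ∧ t (par i) (lt i) = i)
    (htree : ∀ i < N, i ≠ 0 → z (par i) (lt i) = 1) {u : ℕ} (hu : u < N * n)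
    (h : treeChk t n par lt u = true) : zzOf z rr n N u = 1 := by
  have hn := ctx.hn
  have hj : u % n < n := Nat.mod_lt _ hn
  have hp : u / n < N := Nat.div_lt_of_lt_mul (by rwa [Nat.mul_comm] at hu)
  have hy : 2 * (u % n) < 2 * n := by omega
  have e0 : u = (u / n) * n + u % n := by
    rw [Nat.mul_comm]
    exact (Nat.div_add_mod u n).symm
  have hz : zzOf z rr n N u = z (u / n) (2 * (u % n)) := by
    conv_lhs => rw [e0]
    exact zzOf_edge hn hp hj
  rw [hz]
  set p := u / n with hpdef
  set y := 2 * (u % n) with hydef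
  have hti : t p y < N := ctx.hlt p hp y hy
  have h' : ((Nat.beq (par (t p y)) p && Nat.beq (lt (t p y)) y && !Nat.beq (t p y) 0) ||
      (Nat.beq (par p) (t p y) && Nat.beq (lt p) (y + 1) && !Nat.beq p 0)) = true := by
    have e : treeChk t n par lt u = ((Nat.beq (par (t (Nat.div u n) (Nat.mul 2 (Nat.mod u n)))) (Nat.div u n) &&
        Nat.beq (lt (t (Nat.div u n) (Nat.mul 2 (Nat.mod u n)))) (Nat.mul 2 (Nat.mod u n)) &&
        !Nat.beq (t (Nat.div u n) (Nat.mul 2 (Nat.mod u n))) 0) ||
      (Nat.beq (par (Nat.div u n)) (t (Nat.div u n) (Nat.mul 2 (Nat.mod u n))) &&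
        Nat.beq (lt (Nat.div u n)) (Nat.add (Nat.mul 2 (Nat.mod u n)) 1) && !Nat.beq (Nat.div u n) 0)) := by
      unfold treeChk
      rw [frc_eq, frc_eq, frc_eq]
    rw [e] at h
    exact h
  simp only [Bool.or_eq_true, Bool.and_eq_true, Nat.beq_eq, Bool.not_eq_true'] at h'
  have hne : ∀ a : ℕ, Nat.beq a 0 = false → a ≠ 0 := by
    intro a h0 h1
    rw [h1] at h0
    exact absurd h0 (by simp)
  rcases h' with ⟨⟨h1, h2⟩, h3⟩ | ⟨⟨h1, h2⟩, h3⟩
  · have := htree _ hti (hne _ h3)
    rwa [h1, h2] at this
  · have h4 := htree _ hp (hne _ h3)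
    obtain ⟨_, h5, h6⟩ := hpar _ hp (hne _ h3)
    rw [h1, h2] at h4
    rw [h1, h2] at h6
    have h7 := ctx.hflip (t p y) hti (y + 1) (by omega)
    have h8 : flp (y + 1) = y := by
      unfold flp
      have : (y + 1) % 2 ≠ 0 := by omega
      rw [if_neg this]
      omega
    rw [h6, h8, h4, inv_one] at h7
    exact h7

variable {par lt rk formT kk ss pV : ℕ → ℕ} {off E e B kmax R c0 a Lm : ℕ}

/-- The main theorem on peeling. -/
theorem peel_main (ctx : LinCtx t z rr n N W)
    (hpar : ∀ i < N, i ≠ 0 → par i < N ∧ lt i < 2 * n ∧ t (par i) (lt i) = i)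
    (htree : ∀ i < N, i ≠ 0 → z (par i) (lt i) = 1) (hexact : ∀ k < e, rr k = 1)
    (hB : 1 < B) (hE : E = B ^ (R + c0)) (hkmax : kmax ≤ e + R) (hss : ∀ u < N * n, ss u < N) (hLm1 : 1 ≤ Lm)
    (hLm : Lm * (a + 1) + 2 + 1 < B) (hlen : ∀ k, (W.getD k []).length ≤ Lm)
    (hoff : bdB B a (R + c0) off = true) (hbd : ∀ u < N * n, bdB B a (R + c0) (formT (rk u)) = true)
    (hchk : ∀ u < N * n, chkVar t n par lt rk formT kk ss pV W off E e B kmax R c0 u = true) :
    ∀ u < N * n, zzOf z rr n N u * ev (qOf z rr n N e R pV) 0 (digs B (R + c0) off) =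
      ev (qOf z rr n N e R pV) 0 (digs B (R + c0) (formT (rk u))) := by
  set c := R + c0 with hc
  set q := qOf z rr n N e R pV with hq
  set zz := zzOf z rr n N with hzz
  have hB0 : 0 < B := by omega
  have ha1 : a + 1 < B := by
    have : 1 * (a + 1) ≤ Lm * (a + 1) := Nat.mul_le_mul_right _ hLm1
    omega
  have main : ∀ r u, rk u = r → u < N * n → zz u * ev q 0 (digs B c off) = ev q 0 (digs B c (formT (rk u))) := by
    intro r
    induction r using Nat.strong_induction_on with
    | _ r ih =>
      intro u hur hu
      have h := hchk u hu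
      have e1 : chkVar t n par lt rk formT kk ss pV W off E e B kmax R c0 u =
          bB(Nat.beq (rk u) 0, treeChk t n par lt u && Nat.beq (formT 0) off,
          bB(Nat.ble (rk u) c0, Nat.beq (pV (Nat.sub (rk u) 1)) u &&
              Nat.beq (formT (rk u)) (Nat.add off (Nat.pow B (Nat.add R (Nat.sub (rk u) 1)))),
            rowChk t n rk formT kk ss W off E e B kmax u (rk u))) := by
        unfold chkVar
        rw [frc_eq]
      rw [e1, hur] at h
      cases h0 : Nat.beq r 0 with
      | true =>
        -- a tree edge
        rw [h0] at h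
        have h' : (treeChk t n par lt u && Nat.beq (formT 0) off) = true := h
        simp only [Bool.and_eq_true, Nat.beq_eq] at h'
        have hr0 : r = 0 := Nat.eq_of_beq_eq_true h0
        have h7 : zz u = 1 := tree_label ctx hpar htree hu h'.1
        rw [hur, hr0, h'.2, h7, one_mul]
      | false =>
        rw [h0] at h
        cases h1 : Nat.ble r c0 with
        | true =>
          -- a parameter
          rw [h1] at h
          have h' : (Nat.beq (pV (Nat.sub r 1)) u &&
            Nat.beq (formT r) (Nat.add off (Nat.pow B (Nat.add R (Nat.sub r 1))))) = true := h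
          simp only [Bool.and_eq_true, Nat.beq_eq] at h'
          have hr1 : r ≠ 0 := by
            intro hh
            rw [hh] at h0
            exact absurd h0 (by simp)
          have hr2 : r ≤ c0 := Nat.le_of_ble_eq_true h1
          have hj : R + (r - 1) < c := by omega
          have e2 : formT (rk u) = off + B ^ (R + (r - 1)) := by
            rw [hur]
            exact h'.2
          rw [e2, ev_digs_add hB0 q (a := a) (b := 1) (by omega) 0 (Bd_of_bdB hoff) (Bd_pow hB _ _),
            digs_unit hB q c _ 0 hj]
          have e3 : q (0 + (R + (r - 1))) = zz u := by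
            simp only [hq, qOf, Nat.zero_add]
            rw [if_neg (by omega)]
            have : R + (r - 1) - R = r - 1 := by omega
            rw [this]
            have h2 : pV (r - 1) = u := h'.1
            rw [h2]
          rw [e3, mul_comm]
        | false =>
          -- a row
          rw [h1] at h
          have h' : rowChk t n rk formT kk ss W off E e B kmax u r = true := h
          have e2 : rowChk t n rk formT kk ss W off E e B kmax u r =
              bB(Nat.blt (kk u) kmax, scan t n (lvF rk formT E u) (okF rk u r) off (W.getD (kk u) [])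
                (finF (ss u) (rrT e B (kk u)) E) (ss u) 0 0, false) := by
            unfold rowChk
            rw [frc_eq, frc_eq]
          rw [e2] at h'
          cases hk : Nat.blt (kk u) kmax with
          | false =>
            rw [hk] at h'
            exact absurd h' (by simp)
          | true =>
            rw [hk] at h'
            have h'' : scan t n (lvF rk formT E u) (okF rk u r) off (W.getD (kk u) [])
                (finF (ss u) (rrT e B (kk u)) E) (ss u) 0 0 = true := h'
            have hklt : kk u < kmax := by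
              rw [Nat.blt_eq] at hk
              exact hk
            have hup : ss u < N := hss u hu
            -- the error
            set f := formT (rk u) with hf
            set e₀ := zz u * ev q 0 (digs B c off) * (ev q 0 (digs B c f))⁻¹ with he₀
            let q' : ℕ → A := fun j => if j = c then e₀ else q j
            have hq' : ∀ j, j < 0 + c → q' j = q j := by
              intro j hj
              simp only [q']
              rw [if_neg (by omega)]
            have hq'c : q' (0 + c) = e₀ := by
              simp [q']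
            let D' : ℕ → A := fun x => ev q' 0 (digs B (c + 1) x)
            have hD' : ∀ x, x / B ^ c = 0 → D' x = ev q 0 (digs B c x) := by
              intro x hx
              simp only [D']
              rw [ev_digs_succ c 0 x hq', hx]
              simp
            have hD'E : D' E = e₀ := by
              simp only [D']
              rw [hE, digs_unit hB q' (c + 1) c 0 (by omega), hq'c]
            have htop : ∀ x, bdB B a c x = true → x / B ^ c = 0 := fun x hx => top_of_bdB hx
            have hD0 : D' 0 = 1 := ev_digs_zero q' _ _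
            have hv : ∀ v < N * n, okF rk u r v = true → Bd B (a + 1) (c + 1) (lvF rk formT E u v) ∧
                zz v * D' off = D' (lvF rk formT E u v) := by
              intro v hv hok
              have e3 : lvF rk formT E u v = bN(Nat.beq v u, Nat.add (formT (rk v)) E, formT (rk v)) := by
                unfold lvF
                rw [frc_eq]
              rw [e3]
              have hb := hbd v hv
              have hbv := Bd_succ_of_bdB hb
              rw [hD' off (htop _ hoff)]
              cases hvu : Nat.beq v u with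
              | true =>
                have hvu' : v = u := Nat.eq_of_beq_eq_true hvu
                subst hvu'
                show Bd B (a + 1) (c + 1) (formT (rk v) + E) ∧ _ = D' (formT (rk v) + E)
                have hbE : Bd B 1 (c + 1) E := by
                  rw [hE]
                  exact Bd_pow hB _ _
                refine ⟨Bd_add hB0 ha1 hbv hbE, ?_⟩
                simp only [D']
                rw [ev_digs_add hB0 q' (a := a) (b := 1) ha1 0 hbv hbE]
                have h5 := hD' _ (htop _ hb)
                have h6 : ev q' 0 (digs B (c + 1) (formT (rk v))) = ev q 0 (digs B c f) := h5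
                have h7 : ev q' 0 (digs B (c + 1) E) = e₀ := hD'E
                rw [h6, h7, he₀]
                rw [mul_comm (zz v * ev q 0 (digs B c off))]
                rw [← mul_assoc, mul_inv_cancel, one_mul]
              | false =>
                show Bd B (a + 1) (c + 1) (formT (rk v)) ∧ _ = D' (formT (rk v))
                refine ⟨Bd_mono (by omega) hbv, ?_⟩
                rw [hD' _ (htop _ hb)]
                have h5 : rk v < r := by
                  simp only [okF, Bool.or_eq_true, Nat.blt_eq] at hok
                  rcases hok with h6 | h6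
                  · exact h6
                  · rw [Nat.beq_eq] at h6
                    rw [h6, Nat.beq_refl] at hvu
                    exact absurd hvu (by simp)
                exact ih _ h5 v rfl hv
            have hLm' : Lm * (a + 1) < B := by omega
            have hoff' : Bd B (a + 1) (c + 1) off := Bd_mono (by omega) (Bd_succ_of_bdB hoff)
            obtain ⟨P', Q', r1, r2, r3, r4⟩ := scan_spec (q := q') (c := c + 1) (a := a + 1) (Lm := Lm) (off := off)
              (lv := lvF rk formT E u) (okv := okF rk u r) ctx hB0 hLm' hoff' hv (W.getD (kk u) []) (ss u) 0 0 0 hup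
              (ctx.hlet _) (by simpa using hlen _) (Bd_zero _) (Bd_zero _) h''
            have r4' : walkProd t z (ss u) (W.getD (kk u) []) * D' Q' = D' P' := by
              have h5 : D' 0 = 1 := hD0
              have h6 : walkProd t z (ss u) (W.getD (kk u) []) * D' 0 * D' Q' = D' P' * D' 0 := r4
              rw [h5, mul_one, mul_one] at h6
              exact h6
            simp only [finF, Bool.and_eq_true, Bool.or_eq_true, Nat.beq_eq] at r1
            obtain ⟨r5, r6⟩ := r1
            have hloop := ctx.hloop _ _ hup r5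
            rw [hloop] at r4'
            -- the value of the relator
            have hT : D' (rrT e B (kk u)) = rr (kk u) ∧ Bd B 1 (c + 1) (rrT e B (kk u)) := by
              cases hke : Nat.blt (kk u) e with
              | true =>
                have h5 : rrT e B (kk u) = 0 := by
                  unfold rrT
                  rw [hke]
                have hke' : kk u < e := by
                  rw [Nat.blt_eq] at hke
                  exact hke
                rw [h5, hD0, hexact _ hke']
                exact ⟨rfl, Bd_zero _⟩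
              | false =>
                have h5 : rrT e B (kk u) = B ^ (kk u - e) := by
                  unfold rrT
                  rw [hke]
                  rfl
                have hke' : ¬ kk u < e := by
                  intro h6
                  have : Nat.blt (kk u) e = true := by
                    rw [Nat.blt_eq]
                    exact h6
                  rw [this] at hke
                  exact absurd hke (by simp)
                have hj : kk u - e < R := by omega
                rw [h5]
                refine ⟨?_, Bd_pow hB _ _⟩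
                simp only [D']
                rw [digs_unit hB q' (c + 1) _ 0 (by omega), Nat.zero_add]
                have h6 : q' (kk u - e) = q (kk u - e) := hq' _ (by omega)
                rw [h6]
                simp only [hq, qOf]
                rw [if_pos hj]
                congr 1
                omega
            obtain ⟨hT1, hT2⟩ := hT
            have hbE : Bd B 1 (c + 1) E := by
              rw [hE]
              exact Bd_pow hB _ _
            have hone : e₀ = 1 := by
              rcases r6 with r6 | r6
              · -- `P' = T + (Q' + E)`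
                have e5 : D' P' = rr (kk u) * (D' Q' * e₀) := by
                  have h6 : Bd B (Lm * (a + 1) + 1) (c + 1) (Q' + E) := Bd_add hB0 (by omega) r3 hbE
                  rw [r6]
                  show ev q' 0 (digs B (c + 1) (rrT e B (kk u) + (Q' + E))) = _
                  rw [ev_digs_add hB0 q' (a := 1) (b := Lm * (a + 1) + 1) (by omega) 0 hT2 h6,
                    ev_digs_add hB0 q' (a := Lm * (a + 1)) (b := 1) (by omega) 0 r3 hbE]
                  rw [← hT1, ← hD'E]
                rw [e5] at r4'
                have h7 : rr (kk u) * D' Q' * 1 = rr (kk u) * D' Q' * e₀ := by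
                  rw [mul_one, mul_assoc (rr (kk u)) (D' Q') e₀]
                  exact r4'
                exact (mul_left_cancel h7).symm
              · -- `P' + E = T + Q'`
                have e5 : D' P' * e₀ = rr (kk u) * D' Q' := by
                  have h6 : D' (P' + E) = D' P' * e₀ := by
                    show ev q' 0 (digs B (c + 1) (P' + E)) = _
                    rw [ev_digs_add hB0 q' (a := Lm * (a + 1)) (b := 1) (by omega) 0 r2 hbE]
                    rw [← hD'E]
                  rw [← h6]
                  have e7 : P' + E = rrT e B (kk u) + Q' := r6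
                  rw [e7]
                  show ev q' 0 (digs B (c + 1) (rrT e B (kk u) + Q')) = _
                  rw [ev_digs_add hB0 q' (a := 1) (b := Lm * (a + 1)) (by omega) 0 hT2 r3]
                  rw [← hT1]
                rw [r4'] at e5
                have h7 : D' P' * e₀ = D' P' * 1 := by rw [e5, mul_one]
                exact mul_left_cancel h7
            rw [he₀] at hone
            exact mul_inv_eq_one.mp hone
  exact fun u hu => main _ u rfl hu

/-- The test of a relation among the parameters, given by a row. -/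
def finR (s T Av Bv i P Q : ℕ) : Bool := Nat.beq i s && Nat.beq (Nat.add Av (Nat.add Q T)) (Nat.add P Bv)

/-- The form of a letter. -/
noncomputable def lvG (rk formT : ℕ → ℕ) (v : ℕ) : ℕ := formT (rk v)

/-- The check of a relation among the parameters. -/
noncomputable def relChk (t : ℕ → ℕ → ℕ) (n : ℕ) (rk formT : ℕ → ℕ) (W : List (List ℕ)) (off e B a2 c kmax k s Av Bv : ℕ) : Bool :=
  Nat.blt k kmax && bdB B a2 c Av && bdB B a2 c Bv &&
    scan t n (lvG rk formT) (fun _ => true) off (W.getD k []) (finR s (rrT e B k) Av Bv) s 0 0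

/-- A relation among the parameters, from a row. -/
theorem rel_of_row (ctx : LinCtx t z rr n N W) (hexact : ∀ k < e, rr k = 1) (hB : 1 < B) (hkmax : kmax ≤ e + R)
    {a2 k s Av Bv : ℕ} (hs : s < N) (hLm1 : 1 ≤ Lm) (hLm : Lm * a + a2 + 1 + 1 < B) (hlen : (W.getD k []).length ≤ Lm)
    (hoff : Bd B a (R + c0) off) (hbd : ∀ u < N * n, Bd B a (R + c0) (formT (rk u)))
    (hall : ∀ u < N * n, zzOf z rr n N u * ev (qOf z rr n N e R pV) 0 (digs B (R + c0) off) =
      ev (qOf z rr n N e R pV) 0 (digs B (R + c0) (formT (rk u))))
    (h : relChk t n rk formT W off e B a2 (R + c0) kmax k s Av Bv = true) :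
    ev (qOf z rr n N e R pV) 0 (digs B (R + c0) Av) = ev (qOf z rr n N e R pV) 0 (digs B (R + c0) Bv) := by
  set c := R + c0 with hc
  set q := qOf z rr n N e R pV with hq
  have hB0 : 0 < B := by omega
  have ha1 : a < B := by
    have : 1 * a ≤ Lm * a := Nat.mul_le_mul_right _ hLm1
    omega
  simp only [relChk, Bool.and_eq_true, Nat.blt_eq] at h
  obtain ⟨⟨⟨hk, h1⟩, h2⟩, h3⟩ := h
  have hA := Bd_of_bdB h1
  have hBv := Bd_of_bdB h2
  obtain ⟨P', Q', r1, r2, r3, r4⟩ := scan_spec (q := q) (c := c) (a := a) (Lm := Lm) (off := off)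
    (lv := lvG rk formT) (okv := fun _ => true) ctx hB0 (by omega) hoff
    (fun v hv _ => ⟨hbd v hv, hall v hv⟩) (W.getD k []) s 0 0 0 hs (ctx.hlet _) (by simpa using hlen)
    (Bd_zero _) (Bd_zero _) h3
  have h0 : ev q 0 (digs B c 0) = 1 := ev_digs_zero q _ _
  rw [h0, mul_one, mul_one] at r4
  simp only [finR, Bool.and_eq_true, Nat.beq_eq] at r1
  obtain ⟨r5, r6⟩ := r1
  rw [ctx.hloop _ _ hs r5] at r4
  have hT : ev q 0 (digs B c (rrT e B k)) = rr k ∧ Bd B 1 c (rrT e B k) := by
    cases hke : Nat.blt k e with
    | true =>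
      have h5 : rrT e B k = 0 := by
        unfold rrT
        rw [hke]
      have hke' : k < e := by
        rw [Nat.blt_eq] at hke
        exact hke
      rw [h5, h0, hexact _ hke']
      exact ⟨rfl, Bd_zero _⟩
    | false =>
      have h5 : rrT e B k = B ^ (k - e) := by
        unfold rrT
        rw [hke]
        rfl
      have hke' : ¬ k < e := by
        intro h6
        have : Nat.blt k e = true := by
          rw [Nat.blt_eq]
          exact h6
        rw [this] at hke
        exact absurd hke (by simp)
      have hj : k - e < R := by omega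
      rw [h5]
      refine ⟨?_, Bd_pow hB _ _⟩
      rw [digs_unit hB q c _ 0 (by omega), Nat.zero_add]
      simp only [hq, qOf]
      rw [if_pos hj]
      congr 1
      omega
  obtain ⟨hT1, hT2⟩ := hT
  have e7 : Av + (Q' + rrT e B k) = P' + Bv := r6
  have h8 : ev q 0 (digs B c (Av + (Q' + rrT e B k))) = ev q 0 (digs B c (P' + Bv)) := by rw [e7]
  have hQT : Bd B (Lm * a + 1) c (Q' + rrT e B k) := Bd_add hB0 (by omega) r3 hT2
  rw [ev_digs_add hB0 q (a := a2) (b := Lm * a + 1) (by omega) 0 hA hQT,
    ev_digs_add hB0 q (a := Lm * a) (b := 1) (by omega) 0 r3 hT2,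
    ev_digs_add hB0 q (a := Lm * a) (b := a2) (by omega) 0 r2 hBv, hT1, ← r4] at h8
  have h9 : (rr k * ev q 0 (digs B c Q')) * ev q 0 (digs B c Av) = (rr k * ev q 0 (digs B c Q')) * ev q 0 (digs B c Bv) := by
    calc _ = ev q 0 (digs B c Av) * (ev q 0 (digs B c Q') * rr k) := by ac_rfl
      _ = rr k * ev q 0 (digs B c Q') * ev q 0 (digs B c Bv) := h8
  exact mul_left_cancel h9

/-! ### Conclusion -/

theorem ev_mem {q : ℕ → A} (S : Subgroup A) : ∀ (l : List ℕ) (i : ℕ), (∀ j, j < l.length → q (i + j) ∈ S) →
    ev q i l ∈ S := by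
  intro l
  induction l with
  | nil => intro _ _; exact one_mem _
  | cons x l ih =>
    intro i h
    simp only [ev]
    refine mul_mem (pow_mem ?_ _) (ih (i + 1) fun j hj => ?_)
    · simpa using h 0 (by simp)
    · have := h (j + 1) (by simpa using hj)
      rwa [show i + (j + 1) = i + 1 + j by omega] at this

theorem length_digs (B : ℕ) : ∀ (c N : ℕ), (digs B c N).length = c := by
  intro c
  induction c with
  | zero => intro _; rfl
  | succ c ih =>
    intro N
    simp [digs, ih]

/-- All the labels are in a subgroup containing the parameters. -/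
theorem labels_mem (ctx : LinCtx t z rr n N W) {q : ℕ → A} {c off : ℕ} {f : ℕ → ℕ} {B : ℕ}
    (hall : ∀ u < N * n, zzOf z rr n N u * ev q 0 (digs B c off) = ev q 0 (digs B c (f u)))
    (S : Subgroup A) (hq : ∀ j, j < c → q j ∈ S) : ∀ i < N, ∀ x < 2 * n, z i x ∈ S := by
  have hD : ∀ x, ev q 0 (digs B c x) ∈ S := fun x =>
    ev_mem S _ 0 (fun j hj => by
      rw [length_digs] at hj
      rw [Nat.zero_add]
      exact hq j hj)
  have hzz : ∀ u < N * n, zzOf z rr n N u ∈ S := by
    intro u hu
    have h1 := hall u hu
    have h2 : zzOf z rr n N u = ev q 0 (digs B c (f u)) * (ev q 0 (digs B c off))⁻¹ := eq_mul_inv_of_mul_eq h1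
    rw [h2]
    exact mul_mem (hD _) (inv_mem (hD _))
  intro i hi x hx
  have h7 := zz_xIdx ctx hi hx
  have hlt := xIdx_lt (n := n) (N := N) ctx.hn hi (ctx.hlt i hi x hx) hx
  by_cases h0 : x % 2 = 0
  · rw [← h7.1 h0]
    exact hzz _ hlt
  · have h8 := hzz _ hlt
    rw [h7.2 h0] at h8
    exact inv_mem_iff.mp h8

/-- Pairs of vectors with the same value. -/
noncomputable def cmb : List (List ℕ × List ℕ) → List ℕ → List ℕ → List ℕ × List ℕ
  | r :: rl, p :: ps, m :: ms =>
    (addV (cmb rl ps ms).1 (addV (sclV p r.1) (sclV m r.2)), addV (cmb rl ps ms).2 (addV (sclV p r.2) (sclV m r.1)))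
  | _, _, _ => ([], [])

theorem ev_cmb {q : ℕ → A} : ∀ (rl : List (List ℕ × List ℕ)) (ps ms : List ℕ), (∀ r ∈ rl, ev q 0 r.1 = ev q 0 r.2) →
    ev q 0 (cmb rl ps ms).1 = ev q 0 (cmb rl ps ms).2 := by
  intro rl
  induction rl with
  | nil =>
    intro ps ms _
    simp [cmb]
  | cons r rl ih =>
    intro ps ms h
    cases ps with
    | nil => simp [cmb]
    | cons p ps =>
      cases ms with
      | nil => simp [cmb]
      | cons m ms =>
        simp only [cmb, ev_addV, ev_sclV]
        rw [ih ps ms fun r' hr' => h r' (List.mem_cons_of_mem _ hr'), h r List.mem_cons_self]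

/-- A consequence of relations. -/
theorem ev_target {q : ℕ → A} {rl : List (List ℕ × List ℕ)} {ps ms τ : List ℕ}
    (h : ∀ r ∈ rl, ev q 0 r.1 = ev q 0 r.2) (hc : (cmb rl ps ms).1 = addV (cmb rl ps ms).2 τ) : ev q 0 τ = 1 := by
  have h1 := ev_cmb rl ps ms h
  rw [hc, ev_addV] at h1
  exact mul_left_cancel (a := ev q 0 (cmb rl ps ms).2) (by rw [h1, mul_one])

/-- The check of all the relations given by rows. -/
noncomputable def relsOK (t : ℕ → ℕ → ℕ) (n N : ℕ) (rk formT : ℕ → ℕ) (W : List (List ℕ)) (off e B a2 c kmax : ℕ)
    (rels : List (ℕ × ℕ × ℕ × ℕ)) : Bool :=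
  rels.all fun r => Nat.blt r.2.1 N && relChk t n rk formT W off e B a2 c kmax r.1 r.2.1 r.2.2.1 r.2.2.2

/-- The vectors of the relations. -/
noncomputable def relVecs (B c : ℕ) (rels : List (ℕ × ℕ × ℕ × ℕ)) : List (List ℕ × List ℕ) :=
  rels.map fun r => (digs B c r.2.2.1, digs B c r.2.2.2)

/-- The check of a consequence of the relations. -/
noncomputable def cmbOK (rl : List (List ℕ × List ℕ)) (ps ms τ : List ℕ) : Bool :=
  decide ((cmb rl ps ms).1 = addV (cmb rl ps ms).2 τ)

/-- The check of a target: a parameter is a multiple of the main parameter. -/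
noncomputable def tgtOK (rl : List (List ℕ × List ℕ)) (f : ℕ) (q : ℕ × ℕ × List ℕ × List ℕ) : Bool :=
  cmbOK rl q.2.2.1 q.2.2.2 (addV (unitV q.1 1) (unitV f q.2.1))

/-- The final theorem of peeling: the group of labels is cyclic, with a bounded order. -/
theorem peel_final {par lt : ℕ → ℕ} {rk formT kk ss pV : ℕ → ℕ} {off E B kmax R c0 a Lm a2 : ℕ}
    (hcoc : Cocy t par lt n N W e z rr) (hn : 0 < n) (hlt : ∀ i < N, ∀ x < 2 * n, t i x < N)
    (hlet : ∀ k, ∀ x ∈ W.getD k [], x < 2 * n)
    (hpar : ∀ i < N, i ≠ 0 → par i < N ∧ lt i < 2 * n ∧ t (par i) (lt i) = i)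
    (hB : 1 < B) (hE : E = B ^ (R + c0)) (hkmax : kmax ≤ e + R) (hss : ∀ u < N * n, ss u < N) (hLm1 : 1 ≤ Lm)
    (hLm : Lm * (a + 1) + 2 + 1 < B) (hLm2 : Lm * a + a2 + 1 + 1 < B) (hlen : ∀ k, (W.getD k []).length ≤ Lm)
    (hoff : bdB B a (R + c0) off = true) (hbd : ∀ u < N * n, bdB B a (R + c0) (formT (rk u)) = true)
    (hchk : ∀ u < N * n, chkVar t n par lt rk formT kk ss pV W off E e B kmax R c0 u = true)
    {rels : List (ℕ × ℕ × ℕ × ℕ)} (hrels : relsOK t n N rk formT W off e B a2 (R + c0) kmax rels = true)
    {f m : ℕ} {ps0 ms0 : List ℕ} (hord : cmbOK (relVecs B (R + c0) rels) ps0 ms0 (unitV f m) = true)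
    {tgs : List (ℕ × ℕ × List ℕ × List ℕ)} (htg : tgs.all (tgtOK (relVecs B (R + c0) rels) f) = true)
    (hcov : ∀ j < R + c0, j = f ∨ j ∈ tgs.map Prod.fst) :
    ∃ u : A, u ^ m = 1 ∧ ∀ x : A, x ∈ Subgroup.zpowers u := by
  have ctx : LinCtx t z rr n N W := hcoc.toLin (MonoidHom.id A) hn hlt hlet
  have hall := peel_main (kk := kk) (ss := ss) (pV := pV) (E := E) (kmax := kmax) (a := a) (Lm := Lm) ctx hpar
    hcoc.htree hcoc.hexact hB hE hkmax hss hLm1 hLm hlen hoff hbd hchk
  set q := qOf z rr n N e R pV with hq
  have hbd' : ∀ u < N * n, Bd B a (R + c0) (formT (rk u)) := fun u hu => Bd_of_bdB (hbd u hu)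
  have hrel : ∀ r ∈ relVecs B (R + c0) rels, ev q 0 r.1 = ev q 0 r.2 := by
    intro r hr
    obtain ⟨x, hx, rfl⟩ := List.mem_map.mp hr
    have h1 := List.all_eq_true.mp hrels x hx
    simp only [Bool.and_eq_true, Nat.blt_eq] at h1
    exact rel_of_row ctx hcoc.hexact hB hkmax h1.1 hLm1 hLm2 (hlen _) (Bd_of_bdB hoff) hbd' hall h1.2
  have hcons : ∀ {ps ms τ : List ℕ}, cmbOK (relVecs B (R + c0) rels) ps ms τ = true → ev q 0 τ = 1 := by
    intro ps ms τ h
    exact ev_target hrel (of_decide_eq_true h)
  refine ⟨q f, ?_, ?_⟩
  · have h1 := hcons hord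
    rw [ev_unitV, Nat.zero_add] at h1
    exact h1
  · have hqj : ∀ j, j < R + c0 → q j ∈ Subgroup.zpowers (q f) := by
      intro j hj
      rcases hcov j hj with rfl | h
      · exact Subgroup.mem_zpowers _
      · obtain ⟨x, hx, rfl⟩ := List.mem_map.mp h
        have h1 := hcons (List.all_eq_true.mp htg x hx)
        rw [ev_addV, ev_unitV, ev_unitV, Nat.zero_add, Nat.zero_add, pow_one] at h1
        have h2 : q x.1 = ((q f) ^ x.2.1)⁻¹ := eq_inv_of_mul_eq_one_left h1
        rw [h2]
        exact inv_mem (pow_mem (Subgroup.mem_zpowers _) _)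
    have h3 := labels_mem (f := fun u => formT (rk u)) ctx hall (Subgroup.zpowers (q f)) hqj
    have h4 := hcoc.hgen _ h3
    intro x
    rw [h4]
    trivial

end Peel

end Cfsg.Agent.Lib.Compute.PeelCert
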