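import Cfsg.Agent.Lib.Compute.M24ClassFacts

/-!
# No fixed-point-free involution commutes with the representative with six fixed points
-/

set_option autoImplicit false

namespace Cfsg.Agent.Lib.Compute.M24

open Cfsg Cfsg.Agent.Lib.Compute.Golay Cfsg.Agent.Lib.Compute.GolayFast

/-- The base. -/
def base5 : List ℕ := [23, 0, 1, 2, 3]

/-- The consistency of the action of a fixed-point-free involution on the base. -/
def consV (v : ℕ → ℕ) : Bool :=
  base5.all (fun i => v i != i && base5.all (fun j => (v i != j || v j == i) && (i == j || v i != v j)))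

/-- The table of the images of the base. -/
def tup (a b c d e : ℕ) (i : ℕ) : ℕ :=
  match i with
  | 23 => a
  | 0 => b
  | 1 => c
  | 2 => d
  | _ => e

/-- The six fixed points of the representative. -/
def F6 : List ℕ := [23, 0, 1, 2, 3, 4]

/-- The prefixes. -/
def S6 : List (List ℕ) := [[23,2,1,4,10,22,7,19,18,14,17,11,8,20,13,3,15,16,12,6,5,21,9,0],
  [23,3,4,1,8,19,18,12,7,15,16,6,14,9,11,17,21,20,22,13,10,5,2,0],
  [23,4,3,2,18,8,14,6,19,10,15,20,1,12,9,16,5,21,11,7,17,22,13,0],
  [2,23,0,4,19,16,3,14,18,9,15,8,12,6,22,20,7,13,11,17,10,5,21,1],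
  [3,23,4,0,7,20,5,22,2,12,14,18,6,17,19,8,21,11,15,9,16,10,13,1],
  [4,23,3,2,12,15,19,11,10,7,17,5,22,8,6,13,14,18,9,20,21,0,16,1],
  [1,0,23,4,14,13,15,10,11,7,21,8,18,17,16,19,3,22,12,20,6,9,5,2],
  [3,4,23,0,16,8,13,10,6,12,17,18,15,19,9,22,7,21,1,14,11,20,5,2],
  [4,3,23,1,8,6,7,16,10,17,12,13,14,0,18,22,9,15,20,5,11,19,21,2],
  [1,0,4,23,22,11,7,2,9,5,16,15,13,18,20,6,17,19,14,12,21,10,8,3],
  [2,4,0,23,5,21,12,10,17,14,11,19,6,22,8,18,20,9,13,7,16,1,15,3],
  [4,2,1,23,20,18,7,12,19,11,5,14,21,16,15,8,17,6,22,10,13,0,9,3],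
  [1,0,3,2,5,10,22,17,13,11,23,9,14,16,7,20,21,12,15,18,19,8,6,4],
  [2,3,0,1,5,7,21,23,19,18,14,13,17,22,12,16,15,10,6,8,11,9,20,4],
  [3,2,1,0,22,10,23,6,8,17,9,5,11,21,7,16,19,12,13,15,20,18,14,4]]

/-- The test on the elements. -/
def Q6 (L : List ℕ) : Bool :=
  mulL L L != idL || mulL L c6L != mulL c6L L || fixCountL L != 0

set_option maxHeartbeats 0 in
theorem S6_ok : S6.all (fun s => inM24 s && allProd lvl48 s Q6) = true := by decide +kernel

set_option maxHeartbeats 0 in
theorem S6_cover : F6.all (fun a => F6.all (fun b => F6.all (fun c => F6.all (fun d => F6.all (fun e =>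
    !consV (tup a b c d e) || S6.any (fun s => s.getD 23 0 == a && s.getD 0 0 == b && s.getD 1 0 == c &&
      s.getD 2 0 == d && s.getD 3 0 == e)))))) = true := by decide +kernel

theorem fix_c6_in_F6 : ∀ i : Fin 24, c6L.getD i.val 0 = i.val → i.val ∈ F6 := by decide +kernel

/-- A fixed-point-free involution of `M24` does not commute with the representative `c6P`. -/
theorem no_fpf_commuting_c6 {s : P} (hs : s ∈ M24) (h2 : s * s = 1) (hc : s * c6P = c6P * s) : ¬ ∀ p, s p ≠ p := by
  intro hf
  have hinv : ∀ p, s (s p) = p := fun p => by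
    have := congrArg (fun f : P => f p) h2
    simpa using this
  set v : ℕ → ℕ := fun i => ptIdx (s (idxPt i)) with hv
  have hbase : ∀ i ∈ base5, i < 24 := by decide
  have hvlt : ∀ i, v i < 24 := fun i => ptIdx_lt _
  have hvidx : ∀ i, idxPt (v i) = s (idxPt i) := fun i => idxPt_ptIdx _
  have hcons : consV v = true := by
    simp only [consV, List.all_eq_true, Bool.and_eq_true, Bool.or_eq_true, bne_iff_ne, ne_eq, beq_iff_eq]
    intro i hi
    have hi24 := hbase i hi
    refine ⟨?_, fun j hj => ?_⟩
    · intro h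
      apply hf (idxPt i)
      rw [← hvidx, h]
    · have hj24 := hbase j hj
      constructor
      · by_cases h : v i = j
        · right
          have h1 : s (idxPt j) = idxPt i := by
            rw [← h, hvidx, hinv]
          simp only [hv, h1, ptIdx_idxPt hi24]
        · left
          exact h
      · by_cases h : i = j
        · left
          exact h
        · right
          intro he
          apply h
          have h1 : s (idxPt i) = s (idxPt j) := by
            rw [← hvidx, ← hvidx, he]
          have h2 := congrArg ptIdx (s.injective h1)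
          rwa [ptIdx_idxPt hi24, ptIdx_idxPt hj24] at h2
  have hmem : ∀ i ∈ base5, v i ∈ F6 := by
    intro i hi
    have hi24 := hbase i hi
    have hfixc : c6P (idxPt i) = idxPt i := by
      have h := getD_toL c6P hi24
      rw [c6P_toL] at h
      have hlist : c6L.getD i 0 = i := by
        revert hi
        clear hi24 h
        revert i
        decide
      rw [hlist] at h
      have h3 := congrArg idxPt h
      rw [idxPt_ptIdx] at h3
      exact h3.symm
    have h3 : c6P (s (idxPt i)) = s (idxPt i) := by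
      have := congrArg (fun f : P => f (idxPt i)) hc
      simp only [Equiv.Perm.mul_apply] at this
      rw [← this, hfixc]
    have h4 := getD_toL c6P (hvlt i)
    rw [c6P_toL, hvidx, h3] at h4
    exact fix_c6_in_F6 ⟨v i, hvlt i⟩ h4
  have hcons' : consV (tup (v 23) (v 0) (v 1) (v 2) (v 3)) = true := by
    rw [← hcons]
    simp only [consV, base5, tup, List.all_cons, List.all_nil]
  have hS := S6_cover
  simp only [List.all_eq_true, Bool.or_eq_true, Bool.not_eq_true', List.any_eq_true, Bool.and_eq_true,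
    beq_iff_eq] at hS
  rcases hS _ (hmem 23 (by decide)) _ (hmem 0 (by decide)) _ (hmem 1 (by decide)) _ (hmem 2 (by decide)) _
    (hmem 3 (by decide)) with h | ⟨q, hq, ⟨⟨⟨h3, h4⟩, h5⟩, h6⟩, h7⟩
  · rw [hcons'] at h
    exact absurd h (by simp)
  · have h8 := List.all_eq_true.1 S6_ok q hq
    simp only [Bool.and_eq_true] at h8
    have hv' : validL q = true := ctxM24.valid q h8.1
    obtain ⟨σ, hσ⟩ := exists_perm_of_validL hv'
    have hσL : q = toL σ := toL_eq_of_codes hv' hσ
    have hσM : σ ∈ M24 := mem_M24_of_inM24 hσ h8.1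
    have h9 := h8.2
    rw [hσL] at h9
    have hQ : Q6 (toL (s : GolayPt → GolayPt)) = true := by
      refine cover Q6 hσM h9 hs ?_
      intro i hi
      simp only [List.mem_cons, List.not_mem_nil, or_false] at hi
      rcases hi with rfl | rfl | rfl | rfl | rfl
      · rw [hσ (idxPt 3), ptIdx_idxPt (by norm_num), h7, hvidx]
      · rw [hσ (idxPt 2), ptIdx_idxPt (by norm_num), h6, hvidx]
      · rw [hσ (idxPt 1), ptIdx_idxPt (by norm_num), h5, hvidx]
      · rw [hσ (idxPt 0), ptIdx_idxPt (by norm_num), h4, hvidx]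
      · rw [hσ (idxPt 23), ptIdx_idxPt (by norm_num), h3, hvidx]
    simp only [Q6, Bool.or_eq_true, bne_iff_ne, ne_eq] at hQ
    rcases hQ with (h10 | h10) | h10
    · apply h10
      rw [mulL_toL, h2]
      exact toL_one
    · apply h10
      rw [← c6P_toL, mulL_toL, mulL_toL, hc]
    · apply h10
      rw [← card_fix_eq]
      exact (fpf_iff_card s).1 hf

end Cfsg.Agent.Lib.Compute.M24
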