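import Cfsg.Agent.Lib.Compute.M24SxData

/-!
# The number of sextets fixed by a permutation
-/

set_option autoImplicit false

namespace Cfsg.Agent.Lib.Compute.M24

open Cfsg Cfsg.Agent.Lib.Compute.Golay Cfsg.Agent.Lib.Compute.GolayFast Cfsg.Agent.Lib.Compute.GFModel
open Cfsg.Agent.Lib.Sporadic.GolayCore (ofMask mem_ofMask ofMask_inj ofMask_or)
open Cfsg.Agent.Lib.Sporadic.M24Sextet (famOf mem_famOf famOf_card_of_nodup ncard_sextets)
open scoped Pointwise

theorem validSx2_spec {L : List ℕ} (h : validSx2 L = true) : L.length = 6 ∧ (∀ a ∈ L, a < 2 ^ 24 ∧ pop a = 4) ∧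
    L.Pairwise (fun a b => ordR a b ∧ isCode (a ||| b) = true ∧ pop (a ||| b) = 8) := by
  simp only [validSx2, Bool.and_eq_true, beq_iff_eq, List.all_eq_true, Nat.blt_eq] at h
  refine ⟨h.1.1, fun a ha => ⟨by simpa using (h.1.2 a ha).1, (h.1.2 a ha).2⟩, ?_⟩
  refine (pairwise_of_pwB h.2).imp ?_
  intro a b hab
  simp only [sxR, Bool.and_eq_true, beq_iff_eq] at hab
  exact ⟨ordR_of_ordB hab.1.1, hab.1.2, hab.2⟩

theorem sxL_hform : ∀ L ∈ sxL, L.Pairwise ordR ∧ ∀ m ∈ L, m < 2 ^ 24 := by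
  intro L hL
  obtain ⟨-, h2, h3⟩ := validSx2_spec (List.all_eq_true.1 sxL_valid L hL)
  exact ⟨h3.imp (fun h => h.1), fun m hm => (h2 m hm).1⟩

theorem famOf_mem_sextets2 {L : List ℕ} (h : validSx2 L = true) : famOf L ∈ sextets := by
  obtain ⟨h1, h2, h3⟩ := validSx2_spec h
  have hnd : L.Nodup := h3.imp (by
    rintro a b ⟨⟨h5, h6⟩ | ⟨-, h6⟩, -⟩ rfl <;> omega)
  refine ⟨by rw [famOf_card_of_nodup hnd (fun a ha => (h2 a ha).1), h1], ?_, ?_⟩
  · intro t ht
    obtain ⟨m, hm, rfl⟩ := mem_famOf.1 ht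
    rw [ofMask_eq, card_maskSupport]
    exact (h2 m hm).2
  · intro t ht u hu hne
    obtain ⟨m, hm, rfl⟩ := mem_famOf.1 ht
    obtain ⟨n, hn, rfl⟩ := mem_famOf.1 hu
    rw [← ofMask_or, ofMask_eq]
    have hmn : m ≠ n := fun h => hne (by rw [h])
    have hs : ∀ {x y : ℕ}, isCode (x ||| y) = true ∧ pop (x ||| y) = 8 → maskSupport (x ||| y) ∈ octads :=
      fun h => maskSupport_mem_octads h.1 h.2
    have hsym : Std.Symm (fun a b : ℕ => a = b ∨ (isCode (a ||| b) = true ∧ pop (a ||| b) = 8)) := ⟨by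
      intro a b hab
      rcases hab with hab | hab
      · exact Or.inl hab.symm
      · right
        rw [Nat.lor_comm]
        exact hab⟩
    have hall := List.Pairwise.forall_of_forall (R := fun a b => a = b ∨ (isCode (a ||| b) = true ∧ pop (a ||| b) = 8))
      (fun a _ => Or.inl rfl) (h3.imp (fun h => Or.inr h.2)) hm hn
    rcases hall with h4 | h4
    · exact absurd h4 hmn
    · exact hs h4

/-- Every sextet comes from the list. -/
theorem mem_sextets_iff (S : Finset (Finset GolayPt)) : S ∈ sextets ↔ ∃ L ∈ sxL, famOf L = S := by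
  have hsub : famOf '' {L | L ∈ sxL} ⊆ sextets := by
    rintro _ ⟨L, hL, rfl⟩
    exact famOf_mem_sextets2 (List.all_eq_true.1 sxL_valid L hL)
  have hinj : Set.InjOn famOf {L | L ∈ sxL} := by
    intro a ha b hb h
    exact eq_of_famOf_eq (sxL_hform a ha).1 (sxL_hform b hb).1 (sxL_hform a ha).2 (sxL_hform b hb).2 h
  have hcard : (famOf '' {L | L ∈ sxL}).ncard = 1771 := by
    rw [Set.InjOn.ncard_image hinj, ncard_list sxL_nodup, sxL_len]
  have heq : famOf '' {L | L ∈ sxL} = sextets :=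
    Set.eq_of_subset_of_ncard_le hsub (by rw [hcard, ncard_sextets]) (Set.toFinite _)
  rw [← heq]
  simp only [Set.mem_image, Set.mem_ofPred_eq]

theorem ncard_fixed_sextets (σ : P) :
    {S | S ∈ sextets ∧ σ • S = S}.ncard = (sxL.filter (fixFam (toL σ))).length :=
  ncard_fixed_fam sxL _ mem_sextets_iff sxL_hform sxL_nodup σ

end Cfsg.Agent.Lib.Compute.M24
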