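import Cfsg.Agent.Lib.Compute.M24ClassFacts
import Cfsg.Agent.Lib.Compute.M24Sx
import Cfsg.Agent.Lib.Compute.M24Tr

/-!
# The numbers of invariant octads, trios, sextets and dodecads for the class representatives
-/

set_option autoImplicit false

namespace Cfsg.Agent.Lib.Compute.M24

open Cfsg Cfsg.Agent.Lib.Compute.Golay Cfsg.Agent.Lib.Compute.GolayFast
open scoped Pointwise

theorem octads_conj {g : P} (hg : g ∈ M24) (t : P) :
    {o : Finset GolayPt | o ∈ octads ∧ (g * t * g⁻¹) • o = o}.ncard =
      {o : Finset GolayPt | o ∈ octads ∧ t • o = o}.ncard :=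
  ncard_fixed_conj octads g t (fun _ h => smul_mem_octads hg h) (fun _ h => smul_mem_octads (M24.inv_mem hg) h)

theorem dodecads_conj {g : P} (hg : g ∈ M24) (t : P) :
    {o : Finset GolayPt | o ∈ dodecads ∧ (g * t * g⁻¹) • o = o}.ncard =
      {o : Finset GolayPt | o ∈ dodecads ∧ t • o = o}.ncard :=
  ncard_fixed_conj dodecads g t (fun _ h => smul_mem_dodecads hg h) (fun _ h => smul_mem_dodecads (M24.inv_mem hg) h)

theorem trios_conj {g : P} (hg : g ∈ M24) (t : P) :
    {o : Finset (Finset GolayPt) | o ∈ trios ∧ (g * t * g⁻¹) • o = o}.ncard =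
      {o : Finset (Finset GolayPt) | o ∈ trios ∧ t • o = o}.ncard :=
  ncard_fixed_conj trios g t (fun _ h => smul_mem_trios hg h) (fun _ h => smul_mem_trios (M24.inv_mem hg) h)

theorem sextets_conj {g : P} (hg : g ∈ M24) (t : P) :
    {o : Finset (Finset GolayPt) | o ∈ sextets ∧ (g * t * g⁻¹) • o = o}.ncard =
      {o : Finset (Finset GolayPt) | o ∈ sextets ∧ t • o = o}.ncard :=
  ncard_fixed_conj sextets g t (fun _ h => Cfsg.Agent.Lib.Sporadic.M24Sextet.smul_mem_sextets hg h)
    (fun _ h => Cfsg.Agent.Lib.Sporadic.M24Sextet.smul_mem_sextets (M24.inv_mem hg) h)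

set_option maxHeartbeats 0 in
theorem oct_t8 : {o : Finset GolayPt | o ∈ octads ∧ t8P • o = o}.ncard = 71 := by
  have h := ncard_fixed_words 8 t8P
  rw [t8P_toL] at h
  exact h.trans (by decide +kernel)

set_option maxHeartbeats 0 in
theorem dod_t8 : {o : Finset GolayPt | o ∈ dodecads ∧ t8P • o = o}.ncard = 112 := by
  have h := ncard_fixed_words 12 t8P
  rw [t8P_toL] at h
  exact h.trans (by decide +kernel)

set_option maxHeartbeats 0 in
theorem tr_t8 : {o : Finset (Finset GolayPt) | o ∈ trios ∧ t8P • o = o}.ncard = 99 := by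
  have h := ncard_fixed_trios t8P
  rw [t8P_toL] at h
  exact h.trans (by decide +kernel)

set_option maxHeartbeats 0 in
theorem sx_t8 : {o : Finset (Finset GolayPt) | o ∈ sextets ∧ t8P • o = o}.ncard = 91 := by
  have h := ncard_fixed_sextets t8P
  rw [t8P_toL] at h
  exact h.trans (by decide +kernel)

set_option maxHeartbeats 0 in
theorem oct_t0 : {o : Finset GolayPt | o ∈ octads ∧ t0P • o = o}.ncard = 15 := by
  have h := ncard_fixed_words 8 t0P
  rw [t0P_toL] at h
  exact h.trans (by decide +kernel)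

set_option maxHeartbeats 0 in
theorem dod_t0 : {o : Finset GolayPt | o ∈ dodecads ∧ t0P • o = o}.ncard = 32 := by
  have h := ncard_fixed_words 12 t0P
  rw [t0P_toL] at h
  exact h.trans (by decide +kernel)

set_option maxHeartbeats 0 in
theorem tr_t0 : {o : Finset (Finset GolayPt) | o ∈ trios ∧ t0P • o = o}.ncard = 75 := by
  have h := ncard_fixed_trios t0P
  rw [t0P_toL] at h
  exact h.trans (by decide +kernel)

set_option maxHeartbeats 0 in
theorem sx_t0 : {o : Finset (Finset GolayPt) | o ∈ sextets ∧ t0P • o = o}.ncard = 51 := by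
  have h := ncard_fixed_sextets t0P
  rw [t0P_toL] at h
  exact h.trans (by decide +kernel)

set_option maxHeartbeats 0 in
theorem oct_c6 : {o : Finset GolayPt | o ∈ octads ∧ c6P • o = o}.ncard = 21 := by
  have h := ncard_fixed_words 8 c6P
  rw [c6P_toL] at h
  exact h.trans (by decide +kernel)

set_option maxHeartbeats 0 in
theorem dod_c6 : {o : Finset GolayPt | o ∈ dodecads ∧ c6P • o = o}.ncard = 20 := by
  have h := ncard_fixed_words 12 c6P
  rw [c6P_toL] at h
  exact h.trans (by decide +kernel)

set_option maxHeartbeats 0 in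
theorem tr_c6 : {o : Finset (Finset GolayPt) | o ∈ trios ∧ c6P • o = o}.ncard = 15 := by
  have h := ncard_fixed_trios c6P
  rw [c6P_toL] at h
  exact h.trans (by decide +kernel)

set_option maxHeartbeats 0 in
theorem sx_c6 : {o : Finset (Finset GolayPt) | o ∈ sextets ∧ c6P • o = o}.ncard = 16 := by
  have h := ncard_fixed_sextets c6P
  rw [c6P_toL] at h
  exact h.trans (by decide +kernel)

set_option maxHeartbeats 0 in
theorem oct_c0 : {o : Finset GolayPt | o ∈ octads ∧ c0P • o = o}.ncard = 0 := by
  have h := ncard_fixed_words 8 c0P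
  rw [c0P_toL] at h
  exact h.trans (by decide +kernel)

set_option maxHeartbeats 0 in
theorem dod_c0 : {o : Finset GolayPt | o ∈ dodecads ∧ c0P • o = o}.ncard = 14 := by
  have h := ncard_fixed_words 12 c0P
  rw [c0P_toL] at h
  exact h.trans (by decide +kernel)

set_option maxHeartbeats 0 in
theorem tr_c0 : {o : Finset (Finset GolayPt) | o ∈ trios ∧ c0P • o = o}.ncard = 15 := by
  have h := ncard_fixed_trios c0P
  rw [c0P_toL] at h
  exact h.trans (by decide +kernel)

set_option maxHeartbeats 0 in
theorem sx_c0 : {o : Finset (Finset GolayPt) | o ∈ sextets ∧ c0P • o = o}.ncard = 7 := by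
  have h := ncard_fixed_sextets c0P
  rw [c0P_toL] at h
  exact h.trans (by decide +kernel)

end Cfsg.Agent.Lib.Compute.M24
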