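import Cfsg.Agent.Lib.Sporadic.M24OctadStab
import Cfsg.Agent.Lib.Sporadic.M24Orbit
import Cfsg.Agent.Lib.Sporadic.M24Count
import Cfsg.Agent.S1555

/-!
# Transport of flags (octad, point) and (octad, octad, point) under `M24`
-/

set_option autoImplicit false

namespace Cfsg.Agent.Lib.Compute.M24Flags

open Cfsg Cfsg.Agent.Lib.Sporadic.GolayCore Cfsg.Agent.Lib.Sporadic.M24Tbl
open Cfsg.Agent.Lib.Sporadic.M24Count Cfsg.Agent.Lib.Sporadic.M24Act Cfsg.Agent.Lib.Sporadic.M24Chain
open Cfsg.Agent.Lib.Sporadic.M24Orbit Cfsg.Agent.Lib.Sporadic.M24OctadStab Cfsg.Agent.Lib.Sporadic.M24Basic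
open scoped Pointwise

/-- Move a flag point in an octad to the standard flag. -/
theorem exists_flag_in {x : GolayPt} {o : Finset GolayPt} (ho : o ∈ octads) (hx : x ∈ o) :
    ∃ h ∈ M24, h • o = ofMask octad0 ∧ h x = pt 23 := by
  obtain ⟨h, hh, h1, h2⟩ := Cfsg.Agent.S1555.exists_flag (s := {x}) ho
    (Finset.singleton_subset_iff.mpr hx) (by simp)
  refine ⟨h, hh, h1, ?_⟩
  obtain ⟨i, hi, e⟩ := h2 x (Finset.mem_singleton_self x)
  rw [e]
  have hi0 : i = 0 := by
    apply Fin.ext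
    simpa using hi
  rw [hi0]
  rfl

/-- Move a point outside an octad to a standard point outside `octad0`. -/
theorem exists_flag_out {x x0 : GolayPt} {o : Finset GolayPt} (ho : o ∈ octads) (hx : x ∉ o)
    (hx0 : x0 ∉ ofMask octad0) :
    ∃ h ∈ M24, h • o = ofMask octad0 ∧ h x = x0 := by
  obtain ⟨k, hk, hko⟩ := exists_smul_octad ho octad0_mem
  have hkx : k x ∉ ofMask octad0 := by
    rw [← hko, apply_mem_smul]
    exact hx
  obtain ⟨t, ht, hfix, htx⟩ := trans_outside octad0_mem hkx hx0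
  refine ⟨t * k, M24.mul_mem ht hk, ?_, ?_⟩
  · rw [mul_smul, hko]
    apply Finset.eq_of_subset_of_card_le
    · intro y hy
      obtain ⟨z, hz, rfl⟩ := Finset.mem_smul_finset.mp hy
      show t z ∈ _
      rw [hfix z hz]
      exact hz
    · rw [Finset.card_smul_finset]
  · exact htx

/-- Counts of octads are transported by a flag map. -/
theorem flag_count {h : Equiv.Perm GolayPt} (hh : h ∈ M24) {o o0 : Finset GolayPt} {x x0 : GolayPt}
    (h1 : h • o = o0) (h2 : h x = x0) (R : Prop → ℕ → Prop) :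
    {o' : Finset GolayPt | o' ∈ octads ∧ R (x ∈ o') (o ∩ o').card}.ncard =
      {o' : Finset GolayPt | o' ∈ octads ∧ R (x0 ∈ o') (o0 ∩ o').card}.ncard := by
  apply ncard_smul_eq h
  intro s
  simp only [Set.mem_ofPred_eq]
  have e1 : (x0 ∈ h • s) = (x ∈ s) := by
    rw [← h2]
    exact propext (apply_mem_smul h s x)
  rw [smul_mem_octads_iff hh, e1, ← h1, card_smul_inter]

/-- Orbits are transported by a flag map. -/
theorem flag_orbit {h : Equiv.Perm GolayPt} (hh : h ∈ M24) {o o0 a b : Finset GolayPt}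
    {x x0 : GolayPt} (h1 : h • o = o0) (h2 : h x = x0)
    (hb : ∃ g ∈ M24, g x0 = x0 ∧ g • o0 = o0 ∧ g • (h • a) = h • b) :
    ∃ g : Equiv.Perm GolayPt, g ∈ M24 ∧ g x = x ∧ g • o = o ∧ g • a = b := by
  obtain ⟨g, hg, g1, g2, g3⟩ := hb
  refine ⟨h⁻¹ * g * h, M24.mul_mem (M24.mul_mem (M24.inv_mem hh) hg) hh, ?_, ?_, ?_⟩
  · simp only [Equiv.Perm.mul_apply]
    rw [h2, g1, ← h2]
    simp
  · rw [mul_smul, mul_smul, h1, g2, ← h1, inv_smul_smul]
  · rw [mul_smul, mul_smul, g3, inv_smul_smul]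

theorem inter_card_smul {h : Equiv.Perm GolayPt} {o o0 : Finset GolayPt} (h1 : h • o = o0)
    (a : Finset GolayPt) : (o0 ∩ h • a).card = (o ∩ a).card := by
  rw [← h1, card_smul_inter]

theorem mem_smul_of_flag {h : Equiv.Perm GolayPt} {x x0 : GolayPt} (h2 : h x = x0)
    (a : Finset GolayPt) : x0 ∈ h • a ↔ x ∈ a := by
  rw [← h2]
  exact apply_mem_smul h a x

/-- The mask of a singleton. -/
theorem testBit_mem {n : ℕ} (hn : n < 24) (s : Finset GolayPt) :
    pt n ∈ s ↔ (toMask s).testBit n = true := by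
  have := testBit_toMask s (pt n)
  rw [idx_pt hn] at this
  rw [this]
  simp

/-- An element of a joint stabiliser fixes the point of a one-bit mask. -/
theorem fix_of_one_bit {g : Equiv.Perm GolayPt} {n : ℕ} (hn : n < 24)
    (hg : g • ofMask (2 ^ n) = ofMask (2 ^ n)) : g (pt n) = pt n := by
  have hone : ofMask (2 ^ n) = {pt n} := by
    ext p
    rw [mem_ofMask, Finset.mem_singleton, Nat.testBit_two_pow]
    constructor
    · intro h
      have h1 : n = idx p := by simpa using h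
      rw [h1, pt_idx]
    · rintro rfl
      simp [idx_pt hn]
  rw [hone, Finset.smul_finset_singleton] at hg
  exact Finset.singleton_inj.mp hg

end Cfsg.Agent.Lib.Compute.M24Flags
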