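import Cfsg.Agent.Lib.Compute.M24Submod
import Cfsg.Agent.Lib.Sporadic.M24Count

/-!
# Linear automorphisms of the code preserving the octads modulo the all-ones word

Such a map induces a linear map of the dual of the code modulo the all-ones word, which is the even words modulo
the code. Its nonzero elements are the classes of the duads and of the tetrads, and these are distinguished by the
number of octads in their kernels (407 and 375). So duads go to duads, and two duads with a common point go to two
duads with a common point, which gives a permutation of the points.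
-/

set_option autoImplicit false

namespace Cfsg.Agent.Lib.Compute.M24Sub

open Cfsg Cfsg.Agent.Lib.Sporadic.GolayCore Cfsg.Agent.Lib.Sporadic.M24Sextet
open Cfsg.Agent.Lib.Sporadic.M24Act Cfsg.Agent.Lib.Sporadic.M24Tbl Cfsg.Agent.Lib.Sporadic.M24Coset
open Cfsg.Agent.Lib.Sporadic.M24Count
open scoped Pointwise

/-- The dot product. -/
def dot (a b : Wd) : ZMod 2 := ∑ p, a p * b p

theorem dot_add_left (a b c : Wd) : dot (a + b) c = dot a c + dot b c := by
  simp only [dot, Pi.add_apply, add_mul, Finset.sum_add_distrib]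

theorem dot_add_right (a b c : Wd) : dot a (b + c) = dot a b + dot a c := by
  simp only [dot, Pi.add_apply, mul_add, Finset.sum_add_distrib]

theorem dot_zero_right (a : Wd) : dot a 0 = 0 := by
  simp [dot]

theorem dot_ept (a : Wd) (p : GolayPt) : dot a (ept p) = a p := by
  unfold dot
  rw [Finset.sum_eq_single p]
  · rw [ept_apply, if_pos rfl, mul_one]
  · intro b _ hb
    rw [ept_apply, if_neg hb, mul_zero]
  · intro h
    exact absurd (Finset.mem_univ p) h

theorem dot_pr (a : Wd) (p q : GolayPt) : dot a (pr p q) = a p + a q := by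
  rw [pr, dot_add_right, dot_ept, dot_ept]

theorem dot_ind_ind (S T : Finset GolayPt) : dot (ind S) (ind T) = ((S ∩ T).card : ZMod 2) := by
  unfold dot
  have h : ∀ p, ind S p * ind T p = if p ∈ S ∩ T then 1 else 0 := by
    intro p
    simp only [ind_apply, Finset.mem_inter]
    by_cases h1 : p ∈ S <;> by_cases h2 : p ∈ T <;> simp [h1, h2]
  simp only [h]
  rw [Finset.sum_boole]
  congr 2
  ext p
  simp

theorem dot_one_ind (T : Finset GolayPt) : dot one24 (ind T) = (T.card : ZMod 2) := by
  have h1 : one24 = ind Finset.univ := one_eq_ind_univ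
  rw [h1, dot_ind_ind, Finset.univ_inter]

theorem code_four_dvd {c : Wd} (hc : c ∈ golayCode) : 4 ∣ hammingNorm c := by
  have h : codeAll (fun m => decide (popc m % 4 = 0)) = true := by decide +kernel
  have h1 := (codeAll_iff _).1 h _ (maskOfWord_mem_codeList hc)
  rw [hammingNorm_eq]
  exact Nat.dvd_of_mod_eq_zero (by simpa using h1)

/-- The code is orthogonal to itself. -/
theorem dot_code {a b : Wd} (ha : a ∈ golayCode) (hb : b ∈ golayCode) : dot a b = 0 := by
  have h1 := norm_add a b
  have h2 := code_four_dvd ha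
  have h3 := code_four_dvd hb
  have h4 := code_four_dvd (golayCode.add_mem ha hb)
  have h5 : 2 ∣ (support₂ a ∩ support₂ b).card := by omega
  rw [← ind_support a, ← ind_support b, dot_ind_ind]
  exact (ZMod.natCast_eq_zero_iff _ _).2 h5

/-- Every functional on the code is the dot product with a word of weight at most 4. -/
theorem dual_rep (f : golayCode →ₗ[ZMod 2] ZMod 2) :
    ∃ v, hammingNorm v ≤ 4 ∧ ∀ c : golayCode, f c = dot (c : Wd) v := by
  obtain ⟨g, hg⟩ := LinearMap.exists_extend f
  set u : Wd := fun p => g (fun j => if p = j then 1 else 0) with hu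
  have h1 : ∀ w : Wd, g w = dot w u := by
    intro w
    rw [LinearMap.pi_apply_eq_sum_univ g w]
    rfl
  obtain ⟨v, hv, hv'⟩ := exists_low u
  rw [sub_word] at hv'
  refine ⟨v, hv, fun c => ?_⟩
  have h2 : f c = g (c : Wd) := by
    rw [← hg]
    rfl
  rw [h2, h1]
  have h3 : u = v + (u + v) := by
    rw [add_comm u v, char_two]
  have h4 : dot (c : Wd) u = dot (c : Wd) (v + (u + v)) := congrArg _ h3
  rw [h4, dot_add_right, dot_code c.2 hv', add_zero]

theorem norm_add_le (a b : Wd) : hammingNorm (a + b) ≤ hammingNorm a + hammingNorm b := by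
  have := norm_add a b
  omega

/-- A low word orthogonal to the code is zero. -/
theorem orth_low {v : Wd} (h : ∀ c ∈ golayCode, dot c v = 0) (hw : hammingNorm v < 8) : v = 0 := by
  obtain ⟨v', hv', hv''⟩ := exists_low v
  rw [sub_word] at hv''
  have h1 : ∀ c ∈ golayCode, dot c v' = 0 := by
    intro c hc
    have h2 : v' = v + (v + v') := (char_two v v').symm
    rw [h2, dot_add_right, h c hc, dot_code hc hv'', add_zero]
  have h0 : v' = 0 := by
    by_contra hne
    set S := support₂ v' with hS
    have hvS : ind S = v' := ind_support v'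
    have hk : S.card ≤ 4 := by
      rw [← hammingNorm_eq_card] at *
      exact hv'
    have hk0 : S.card ≠ 0 := by
      intro h0
      rw [Finset.card_eq_zero] at h0
      apply hne
      rw [← hvS, h0]
      funext p
      simp [ind_apply]
    have ho : ofMask 9440193 ∈ octads :=
      Cfsg.Agent.Lib.Sporadic.M24Basic.isOctad_ofMask (by decide +kernel)
    have hcard : ∀ k, k ≠ 0 → k ≤ 4 →
        (ofMask (2 ^ k - 1)).card = k ∧ (ofMask 9440193 ∩ ofMask (2 ^ k - 1)).card = 1 := by
      intro k hk0 hk4
      interval_cases k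
      · exact absurd rfl hk0
      all_goals
        rw [← ofMask_and]
        exact ⟨by decide +kernel, by decide +kernel⟩
    obtain ⟨h2, h3⟩ := hcard S.card hk0 hk
    obtain ⟨g, hg, hgS⟩ := exists_smul_eq_of_card (s := S) h2.symm (by omega)
    have hginv : g⁻¹ ∈ M24 := M24.inv_mem hg
    have h4 := h1 (ind (g⁻¹ • ofMask 9440193)) (ind_mem_code (smul_mem_octads hginv ho).1)
    rw [← hvS, dot_ind_ind] at h4
    have h5 : (g⁻¹ • ofMask 9440193 ∩ S).card = 1 := by
      rw [← card_smul_inter g, smul_inv_smul, hgS]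
      exact h3
    rw [h5] at h4
    simp at h4
  rw [h0, add_zero] at hv''
  exact code_small hv'' hw

/-! ### The count -/

/-- The number of octads in the kernel of the dot product with a word. -/
noncomputable def kerCount (v : Wd) : ℕ := {o | o ∈ octads ∧ dot (ind o) v = 0}.ncard

theorem kerCount_ind (S : Finset GolayPt) :
    kerCount (ind S) = {o | o ∈ octads ∧ (o ∩ S).card % 2 = 0}.ncard := by
  unfold kerCount
  congr 1
  ext o
  simp only [Set.mem_ofPred_eq, dot_ind_ind, ZMod.natCast_eq_zero_iff]
  exact and_congr_right fun _ => Nat.dvd_iff_mod_eq_zero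

theorem kerCount_smul {g : Equiv.Perm GolayPt} (hg : g ∈ M24) (S : Finset GolayPt) :
    kerCount (ind (g • S)) = kerCount (ind S) := by
  rw [kerCount_ind, kerCount_ind]
  symm
  apply ncard_smul_eq g
  intro o
  simp only [Set.mem_ofPred_eq, smul_mem_octads_iff hg, card_smul_inter]

theorem kerCount_mask (m : ℕ) :
    kerCount (ind (ofMask m)) =
      codeCount (fun y => decide (popc y = 8) && decide (popc (y &&& m) % 2 = 0)) := by
  rw [kerCount_ind]
  apply ncard_octads_filter
  · intro o ho
    have h1 : toMask o < 2 ^ 24 := toMask_lt o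
    have h2 : o = ofMask (toMask o) := (ofMask_toMask o).symm
    have h3 : (o ∩ ofMask m).card = popc (toMask o &&& m) := by
      conv_lhs => rw [h2]
      rw [← ofMask_and, card_eq_popc, toMask_ofMask (lt_of_le_of_lt Nat.and_le_left h1)]
    have h4 : popc (toMask o) = 8 := by
      rw [← card_eq_popc]
      exact ho.2
    simp [h3, h4]
  · intro y hy
    simp only [Bool.and_eq_true, decide_eq_true_eq] at hy
    exact hy.1

theorem kerCount_two {S : Finset GolayPt} (hS : S.card = 2) : kerCount (ind S) = 407 := by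
  obtain ⟨g, hg, hgS⟩ := exists_smul_eq_of_card (s := S) (t := ofMask 3)
    (by rw [hS]; decide +kernel) (by omega)
  rw [← kerCount_smul hg, hgS, kerCount_mask]
  decide +kernel

theorem kerCount_four {S : Finset GolayPt} (hS : S.card = 4) : kerCount (ind S) = 375 := by
  obtain ⟨g, hg, hgS⟩ := exists_smul_eq_of_card (s := S) (t := ofMask 15)
    (by rw [hS]; decide +kernel) (by omega)
  rw [← kerCount_smul hg, hgS, kerCount_mask]
  decide +kernel

/-! ### The combinatorics of pairs -/

theorem one_of_two {α : Type*} [DecidableEq α] {U : Finset α} {a b : α} (hab : a ≠ b)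
    (h : (U ∩ {a, b}).card = 1) : (a ∈ U ∧ b ∉ U) ∨ (a ∉ U ∧ b ∈ U) := by
  by_cases h1 : a ∈ U <;> by_cases h2 : b ∈ U
  · exfalso
    have h3 : U ∩ {a, b} = {a, b} := by
      ext y
      simp only [Finset.mem_inter, Finset.mem_insert, Finset.mem_singleton]
      constructor
      · exact fun h => h.2
      · rintro (rfl | rfl)
        · exact ⟨h1, Or.inl rfl⟩
        · exact ⟨h2, Or.inr rfl⟩
    rw [h3, Finset.card_pair hab] at h
    omega
  · exact Or.inl ⟨h1, h2⟩
  · exact Or.inr ⟨h1, h2⟩
  · exfalso
    have h3 : U ∩ {a, b} = ∅ := by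
      ext y
      simp only [Finset.mem_inter, Finset.mem_insert, Finset.mem_singleton, Finset.notMem_empty, iff_false]
      rintro ⟨h4, rfl | rfl⟩
      · exact h1 h4
      · exact h2 h4
    rw [h3] at h
    simp at h

theorem pair_of_mem {α : Type*} [DecidableEq α] {T : Finset α} {b : α} (h : T.card = 2) (hb : b ∈ T) :
    ∃ c, c ≠ b ∧ T = {b, c} := by
  obtain ⟨x, y, hxy, rfl⟩ := Finset.card_eq_two.1 h
  simp only [Finset.mem_insert, Finset.mem_singleton] at hb
  rcases hb with rfl | rfl
  · exact ⟨y, hxy.symm, rfl⟩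
  · exact ⟨x, hxy, Finset.pair_comm _ _⟩

/-- A family of at least four `2`-sets, pairwise meeting in exactly one point, has a common point. -/
theorem star {ι α : Type*} [DecidableEq α] [DecidableEq ι] [Fintype ι] (hι : 4 ≤ Fintype.card ι)
    (T : ι → Finset α) (h2 : ∀ i, (T i).card = 2) (h1 : ∀ i j, i ≠ j → (T i ∩ T j).card = 1) :
    ∃ s, ∀ i, s ∈ T i := by
  have hne : Nonempty ι := Fintype.card_pos_iff.1 (by omega)
  obtain ⟨i₁⟩ := hne
  obtain ⟨a, b, hab, hT⟩ := Finset.card_eq_two.1 (h2 i₁)
  by_contra hno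
  push Not at hno
  obtain ⟨j, hj⟩ := hno a
  obtain ⟨k, hk⟩ := hno b
  have hji : j ≠ i₁ := by
    rintro rfl
    rw [hT] at hj
    simp at hj
  have hki : k ≠ i₁ := by
    rintro rfl
    rw [hT] at hk
    simp at hk
  have hbj : b ∈ T j := by
    have := h1 j i₁ hji
    rw [hT] at this
    rcases one_of_two hab this with h | h
    · exact absurd h.1 hj
    · exact h.2
  have hak : a ∈ T k := by
    have := h1 k i₁ hki
    rw [hT] at this
    rcases one_of_two hab this with h | h
    · exact h.1
    · exact absurd h.2 hk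
  have hjk : j ≠ k := by
    rintro rfl
    exact hj hak
  obtain ⟨c, hcb, hTj⟩ := pair_of_mem (h2 j) hbj
  obtain ⟨d, hda, hTk⟩ := pair_of_mem (h2 k) hak
  have hca : c ≠ a := by
    rintro rfl
    apply hj
    rw [hTj]
    simp
  have hdb : d ≠ b := by
    rintro rfl
    apply hk
    rw [hTk]
    simp
  have hcd : c = d := by
    have h3 := h1 j k hjk
    rw [hTk] at h3
    rcases one_of_two hda.symm h3 with h | h
    · exact absurd h.1 hj
    · rw [hTj] at h
      simp only [Finset.mem_insert, Finset.mem_singleton] at h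
      rcases h.2 with h4 | h4
      · exact absurd h4 hdb
      · exact h4.symm
  subst hcd
  obtain ⟨l, hl⟩ : ∃ l, l ∉ ({i₁, j, k} : Finset ι) := by
    by_contra hcon
    push Not at hcon
    have h3 : ({i₁, j, k} : Finset ι) = Finset.univ := Finset.eq_univ_iff_forall.2 hcon
    have h4 : ({i₁, j, k} : Finset ι).card ≤ 3 := Finset.card_le_three
    rw [h3, Finset.card_univ] at h4
    omega
  simp only [Finset.mem_insert, Finset.mem_singleton, not_or] at hl
  obtain ⟨hl1, hl2, hl3⟩ := hl
  have h3 := h1 l i₁ hl1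
  have h4 := h1 l j hl2
  have h5 := h1 l k hl3
  rw [hT] at h3
  rw [hTj] at h4
  rw [hTk] at h5
  have h6 := one_of_two hab h3
  have h7 := one_of_two hcb.symm h4
  have h8 := one_of_two hca.symm h5
  tauto

/-! ### The map -/

section Main

variable (x : golayCode ≃ₗ[ZMod 2] golayCode)

theorem exists_psi (horb : ∀ c : golayCode, ∃ σ ∈ M24,
      ((x c : golayCode) : Wd) = act σ c ∨ ((x c : golayCode) : Wd) = act σ c + one24) :
    ∃ ψ : Finset GolayPt → Finset GolayPt, ∀ o (ho : o ∈ octads), ψ o ∈ octads ∧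
      (((x ⟨ind o, ind_mem_code ho.1⟩ : golayCode) : Wd) = ind (ψ o) ∨
        ((x ⟨ind o, ind_mem_code ho.1⟩ : golayCode) : Wd) = ind (ψ o) + one24) := by
  have : ∀ o (ho : o ∈ octads), ∃ o' , o' ∈ octads ∧
      (((x ⟨ind o, ind_mem_code ho.1⟩ : golayCode) : Wd) = ind o' ∨
        ((x ⟨ind o, ind_mem_code ho.1⟩ : golayCode) : Wd) = ind o' + one24) := by
    intro o ho
    obtain ⟨σ, hσ, h⟩ := horb ⟨ind o, ind_mem_code ho.1⟩
    refine ⟨σ • o, smul_mem_octads hσ ho, ?_⟩
    rw [← act_ind]
    exact h
  choose! ψ hψ using this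
  exact ⟨ψ, hψ⟩

theorem norm_add_one (o : Finset GolayPt) : hammingNorm (ind o + one24) + 2 * o.card = 24 + o.card := by
  have h1 := norm_add (ind o) one24
  have h2 : support₂ one24 = Finset.univ := by decide +kernel
  have h3 : hammingNorm one24 = 24 := by decide +kernel
  rw [h2, Finset.inter_univ, support_ind, norm_ind, h3] at h1
  omega

/-- The map on octads is injective. -/
theorem psi_inj (hone : ∀ e : golayCode, (e : Wd) = one24 → x e = e)
    {ψ : Finset GolayPt → Finset GolayPt} (hψ : ∀ o (ho : o ∈ octads), ψ o ∈ octads ∧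
      (((x ⟨ind o, ind_mem_code ho.1⟩ : golayCode) : Wd) = ind (ψ o) ∨
        ((x ⟨ind o, ind_mem_code ho.1⟩ : golayCode) : Wd) = ind (ψ o) + one24)) :
    Set.InjOn ψ octads := by
  -- two octads with `x` of one congruent to `x` of the other are equal
  have key : ∀ {o₁ o₂} (h₁ : o₁ ∈ octads) (h₂ : o₂ ∈ octads),
      (x ⟨ind o₁, ind_mem_code h₁.1⟩ : golayCode) =
        x (⟨ind o₂, ind_mem_code h₂.1⟩ + ⟨one24, all_mem_code⟩) → False := by
    intro o₁ o₂ h₁ h₂ h
    have h3 := x.injective h
    have h4 : ind o₁ = ind o₂ + one24 := congrArg Subtype.val h3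
    have h5 := norm_add_one o₂
    rw [← h4, norm_ind, h₁.2, h₂.2] at h5
    omega
  intro o₁ h₁ o₂ h₂ h
  have hsame : ∀ {o₁ o₂} (_ : o₁ ∈ octads) (_ : o₂ ∈ octads), ind o₁ = ind o₂ → o₁ = o₂ := by
    intro o₁ o₂ _ _ h
    have := congrArg support₂ h
    rwa [support_ind, support_ind] at this
  have hadd : ∀ {o₂} (h₂ : o₂ ∈ octads), ((x (⟨ind o₂, ind_mem_code h₂.1⟩ + ⟨one24, all_mem_code⟩) : golayCode) : Wd) =
      ((x ⟨ind o₂, ind_mem_code h₂.1⟩ : golayCode) : Wd) + one24 := by
    intro o₂ h₂
    rw [map_add, hone ⟨one24, all_mem_code⟩ rfl]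
    rfl
  obtain ⟨-, h3⟩ := hψ o₁ h₁
  obtain ⟨-, h4⟩ := hψ o₂ h₂
  rw [h] at h3
  have hsub : ∀ a b c : Wd, a = c → b = c + one24 → a = b + one24 := by
    intro a b c h5 h6
    rw [h5, h6, add_assoc, two_mul_word, add_zero]
  have hsub' : ∀ a b c : Wd, a = c + one24 → b = c → a = b + one24 := by
    intro a b c h5 h6
    rw [h5, h6]
  rcases h3 with h3 | h3 <;> rcases h4 with h4 | h4
  · exact hsame h₁ h₂ (congrArg Subtype.val (x.injective (Subtype.ext (h3.trans h4.symm))))
  · exact (key h₁ h₂ (Subtype.ext ((hsub _ _ _ h3 h4).trans (hadd h₂).symm))).elim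
  · exact (key h₁ h₂ (Subtype.ext ((hsub' _ _ _ h3 h4).trans (hadd h₂).symm))).elim
  · exact hsame h₁ h₂ (congrArg Subtype.val (x.injective (Subtype.ext (h3.trans h4.symm))))

theorem psi_image {ψ : Finset GolayPt → Finset GolayPt} (hmaps : ∀ o ∈ octads, ψ o ∈ octads)
    (hinj : Set.InjOn ψ octads) : ψ '' octads = octads := by
  apply Set.eq_of_subset_of_ncard_le
  · rintro _ ⟨o, ho, rfl⟩
    exact hmaps o ho
  · rw [Set.InjOn.ncard_image hinj]
  · exact Set.toFinite _

/-- The kernel count is preserved by the transpose. -/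
theorem kerCount_transpose (hone : ∀ e : golayCode, (e : Wd) = one24 → x e = e)
    (horb : ∀ c : golayCode, ∃ σ ∈ M24,
      ((x c : golayCode) : Wd) = act σ c ∨ ((x c : golayCode) : Wd) = act σ c + one24)
    {v₁ v₂ : Wd} (h1 : dot one24 v₁ = 0)
    (h2 : ∀ c : golayCode, dot ((x c : golayCode) : Wd) v₁ = dot (c : Wd) v₂) :
    kerCount v₂ = kerCount v₁ := by
  obtain ⟨ψ, hψ⟩ := exists_psi x horb
  have hinj := psi_inj x hone hψ
  have himg := psi_image (fun o ho => (hψ o ho).1) hinj
  have hval : ∀ o (ho : o ∈ octads), dot (ind o) v₂ = dot (ind (ψ o)) v₁ := by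
    intro o ho
    have h3 := h2 ⟨ind o, ind_mem_code ho.1⟩
    rcases (hψ o ho).2 with h4 | h4
    · rw [h4] at h3
      exact h3.symm
    · rw [h4, dot_add_left, h1, add_zero] at h3
      exact h3.symm
  have himage : ψ '' {o | o ∈ octads ∧ dot (ind o) v₂ = 0} = {o | o ∈ octads ∧ dot (ind o) v₁ = 0} := by
    ext o'
    constructor
    · rintro ⟨o, ⟨ho, h3⟩, rfl⟩
      refine ⟨(hψ o ho).1, ?_⟩
      rw [← hval o ho]
      exact h3
    · rintro ⟨ho', h3⟩
      rw [← himg] at ho'
      obtain ⟨o, ho, rfl⟩ := ho'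
      refine ⟨o, ⟨ho, ?_⟩, rfl⟩
      rw [hval o ho]
      exact h3
  unfold kerCount
  rw [← himage, Set.InjOn.ncard_image]
  exact hinj.mono fun o ho => ho.1

theorem ind_pair {p q : GolayPt} (h : p ≠ q) : pr p q = ind {p, q} := by
  have h1 : ({p, q} : Finset GolayPt) = {p} ∪ {q} := rfl
  rw [h1, ind_union (Finset.disjoint_singleton.2 h)]

theorem pr_self (p : GolayPt) : pr p p = 0 := two_mul_word _

theorem pr_add_pr (s a b : GolayPt) : pr s a + pr s b = pr a b := by
  have : pr s a + pr s b = (ept s + ept s) + pr a b := by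
    simp only [pr]
    abel
  rw [this, two_mul_word, zero_add]

theorem pr_apply_left {p q : GolayPt} (h : p ≠ q) : pr p q p = 1 := by
  simp [ept_apply, h]

/-- The transposes of the duads are duads. -/
theorem exists_dual_pair (hone : ∀ e : golayCode, (e : Wd) = one24 → x e = e)
    (horb : ∀ c : golayCode, ∃ σ ∈ M24,
      ((x c : golayCode) : Wd) = act σ c ∨ ((x c : golayCode) : Wd) = act σ c + one24)
    {p q : GolayPt} (hpq : p ≠ q) :
    ∃ v, hammingNorm v = 2 ∧ ∀ c : golayCode,
      ((x c : golayCode) : Wd) p + ((x c : golayCode) : Wd) q = dot (c : Wd) v := by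
  let f : golayCode →ₗ[ZMod 2] ZMod 2 :=
    (((LinearMap.proj p : Wd →ₗ[ZMod 2] ZMod 2) + (LinearMap.proj q : Wd →ₗ[ZMod 2] ZMod 2)).comp golayCode.subtype).comp x.toLinearMap
  obtain ⟨v, hv, hf⟩ := dual_rep f
  have hf' : ∀ c : golayCode,
      ((x c : golayCode) : Wd) p + ((x c : golayCode) : Wd) q = dot (c : Wd) v := hf
  refine ⟨v, ?_, hf'⟩
  have hvS : ind (support₂ v) = v := ind_support v
  have hcard : hammingNorm v = (support₂ v).card := hammingNorm_eq_card v
  -- parity
  have hpar : 2 ∣ hammingNorm v := by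
    have h1 := hf' ⟨one24, all_mem_code⟩
    rw [hone ⟨one24, all_mem_code⟩ rfl] at h1
    have h2 : (one24 : Wd) p + (one24 : Wd) q = 0 := by
      simp only [one24]
      decide
    have h3 : dot one24 v = ((hammingNorm v : ℕ) : ZMod 2) := by
      rw [hcard]
      conv_lhs => rw [← hvS]
      exact dot_one_ind _
    have h4 : ((hammingNorm v : ℕ) : ZMod 2) = 0 := by
      rw [← h3]
      exact h1.symm.trans h2
    exact (ZMod.natCast_eq_zero_iff _ _).1 h4
  have hcases : hammingNorm v = 0 ∨ hammingNorm v = 2 ∨ hammingNorm v = 4 := by omega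
  have hprdot : ∀ c : golayCode, dot ((x c : golayCode) : Wd) (pr p q) = dot (c : Wd) v := by
    intro c
    rw [dot_pr]
    exact hf' c
  rcases hcases with h0 | h2 | h4
  · exfalso
    have hv0 : v = 0 := by
      have h00 : support₂ v = ∅ := Finset.card_eq_zero.1 (by rw [← hcard]; exact h0)
      rw [← hvS, h00]
      funext r
      simp [ind_apply]
    have h3 : pr p q = 0 := by
      apply orth_low
      · intro c hc
        have h4 := hprdot (x.symm ⟨c, hc⟩)
        rw [LinearEquiv.apply_symm_apply, hv0, dot_zero_right] at h4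
        exact h4
      · have := norm_add_le (ept p) (ept q)
        rw [norm_ind, norm_ind, Finset.card_singleton] at this
        exact lt_of_le_of_lt this (by norm_num)
    have h5 := pr_apply_left hpq
    rw [h3] at h5
    exact zero_ne_one h5
  · exact h2
  · exfalso
    have h5 : kerCount v = kerCount (pr p q) := by
      apply kerCount_transpose x hone horb _ hprdot
      rw [dot_pr]
      simp only [one24]
      decide
    rw [ind_pair hpq, kerCount_two (Finset.card_pair hpq)] at h5
    rw [← hvS, kerCount_four (hcard ▸ h4)] at h5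
    omega

/-- The main theorem. -/
theorem exists_perm_of_orbits (hone : ∀ e : golayCode, (e : Wd) = one24 → x e = e)
    (horb : ∀ c : golayCode, ∃ σ ∈ M24,
      ((x c : golayCode) : Wd) = act σ c ∨ ((x c : golayCode) : Wd) = act σ c + one24) :
    ∃ τ ∈ M24, ∀ c : golayCode,
      ((x c : golayCode) : Wd) = act τ c ∨ ((x c : golayCode) : Wd) = act τ c + one24 := by
  -- the transposes of the pairs, with the pair of equal points sent to zero
  have hex : ∀ p q : GolayPt, ∃ v, hammingNorm v ≤ 2 ∧ (p ≠ q → hammingNorm v = 2) ∧ ∀ c : golayCode,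
      ((x c : golayCode) : Wd) p + ((x c : golayCode) : Wd) q = dot (c : Wd) v := by
    intro p q
    by_cases hpq : p = q
    · subst hpq
      refine ⟨0, by simp [hammingNorm], fun h => absurd rfl h, fun c => ?_⟩
      rw [dot_zero_right]
      exact congrFun (two_mul_word _) p
    · obtain ⟨v, hv, hc⟩ := exists_dual_pair x hone horb hpq
      exact ⟨v, hv.le, fun _ => hv, hc⟩
  choose Y hY2 hY2' hYc using hex
  have hcoc : ∀ p q r, Y p q + Y q r = Y p r := by
    intro p q r
    have h0 : Y p q + Y q r + Y p r = 0 := by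
      apply orth_low
      · intro c hc
        have h1 := hYc p q ⟨c, hc⟩
        have h2 := hYc q r ⟨c, hc⟩
        have h3 := hYc p r ⟨c, hc⟩
        have h1' : dot c (Y p q) = _ := h1.symm
        have h2' : dot c (Y q r) = _ := h2.symm
        have h3' : dot c (Y p r) = _ := h3.symm
        rw [dot_add_right, dot_add_right, h1', h2', h3']
        generalize ((x ⟨c, hc⟩ : golayCode) : Wd) p = a
        generalize ((x ⟨c, hc⟩ : golayCode) : Wd) q = b
        generalize ((x ⟨c, hc⟩ : golayCode) : Wd) r = d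
        revert a b d
        decide
      · have h1 := norm_add_le (Y p q + Y q r) (Y p r)
        have h2 := norm_add_le (Y p q) (Y q r)
        have h3 := hY2 p q
        have h4 := hY2 q r
        have h5 := hY2 p r
        omega
    have h1 := char_two (Y p q + Y q r) (Y p r)
    rw [h0, add_zero] at h1
    exact h1
  -- the cocycle is a coboundary
  set Z : GolayPt → Wd := fun p => Y none p with hZdef
  have hZ : ∀ p q, Y p q = Z p + Z q := by
    intro p q
    have h1 := hcoc none p q
    have h2 := char_two (Z p) (Y p q)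
    rw [← h2]
    exact congrArg _ h1
  have hZ0 : Z none = 0 := by
    have h1 := hZ none none
    have h2 : Y none none = Z none := rfl
    rw [h2, two_mul_word] at h1
    exact h1
  -- the common point
  have hcard2 : ∀ i : {p : GolayPt // p ≠ none}, (support₂ (Z i)).card = 2 := by
    intro i
    rw [← hammingNorm_eq_card]
    exact hY2' none i (Ne.symm i.2)
  have hcard1 : ∀ i j : {p : GolayPt // p ≠ none}, i ≠ j → (support₂ (Z i) ∩ support₂ (Z j)).card = 1 := by
    intro i j hij
    have h1 := norm_add (Z i) (Z j)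
    have h2 : (i : GolayPt) ≠ j := fun h => hij (Subtype.ext h)
    have h3 := hY2' i j h2
    rw [hZ] at h3
    have h4 := hY2' none i (Ne.symm i.2)
    have h5 := hY2' none j (Ne.symm j.2)
    have h6 : hammingNorm (Z i) = 2 := h4
    have h7 : hammingNorm (Z j) = 2 := h5
    omega
  obtain ⟨s, hs⟩ := star (by decide +kernel) (fun i : {p : GolayPt // p ≠ none} => support₂ (Z i))
    hcard2 hcard1
  have hσ : ∀ p, ∃ t, Z p = pr s t := by
    intro p
    by_cases hp : p = none
    · subst hp
      exact ⟨s, by rw [hZ0, pr_self]⟩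
    · obtain ⟨t, hts, hT⟩ := pair_of_mem (hcard2 ⟨p, hp⟩) (hs ⟨p, hp⟩)
      refine ⟨t, ?_⟩
      rw [ind_pair hts.symm, ← hT, ind_support]
  choose σ hσ using hσ
  have hYσ : ∀ p q, Y p q = pr (σ p) (σ q) := by
    intro p q
    rw [hZ, hσ, hσ, pr_add_pr]
  have hinj : Function.Injective σ := by
    intro p q h
    by_contra hne
    have h1 := hY2' p q hne
    rw [hYσ, h, pr_self] at h1
    simp at h1
  let σ' : Equiv.Perm GolayPt := Equiv.ofBijective σ (Finite.injective_iff_bijective.1 hinj)
  have hact : ∀ c : Wd, act σ'⁻¹ c = fun p => c (σ p) := fun c => rfl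
  have hform : ∀ c : golayCode,
      ((x c : golayCode) : Wd) = act σ'⁻¹ c ∨ ((x c : golayCode) : Wd) = act σ'⁻¹ c + one24 := by
    intro c
    have h1 : ∀ p q, ((x c : golayCode) : Wd) p + ((x c : golayCode) : Wd) q =
        (c : Wd) (σ p) + (c : Wd) (σ q) := by
      intro p q
      rw [hYc p q c, hYσ, dot_pr]
    rw [hact]
    rcases zmod_cases (((x c : golayCode) : Wd) none + (c : Wd) (σ none)) with h0 | h0
    · left
      funext p
      have h2 := h1 p none
      generalize ((x c : golayCode) : Wd) p = a at *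
      generalize ((x c : golayCode) : Wd) none = b at *
      generalize (c : Wd) (σ p) = d at *
      generalize (c : Wd) (σ none) = e at *
      revert a b d e
      decide
    · right
      funext p
      have h2 := h1 p none
      show ((x c : golayCode) : Wd) p = (c : Wd) (σ p) + 1
      generalize ((x c : golayCode) : Wd) p = a at *
      generalize ((x c : golayCode) : Wd) none = b at *
      generalize (c : Wd) (σ p) = d at *
      generalize (c : Wd) (σ none) = e at *
      revert a b d e
      decide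
  have hone' := all_mem_code
  have hC1 : ∀ c ∈ golayCode, act σ'⁻¹ c ∈ golayCode := by
    intro c hc
    rcases hform ⟨c, hc⟩ with h | h
    · have h1 := (x ⟨c, hc⟩).2
      rw [h] at h1
      exact h1
    · have h1 := golayCode.add_mem (x ⟨c, hc⟩).2 hone'
      have h2 : ((x ⟨c, hc⟩ : golayCode) : Wd) + one24 = act σ'⁻¹ c := by
        rw [h, add_assoc, two_mul_word, add_zero]
      exact h2 ▸ h1
  have hC2 : ∀ c ∈ golayCode, act σ' c ∈ golayCode := by
    intro c hc
    have hx : ((x (x.symm ⟨c, hc⟩) : golayCode) : Wd) = c := by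
      rw [LinearEquiv.apply_symm_apply]
    have hinv : ∀ w : Wd, act σ' (act σ'⁻¹ w) = w := by
      intro w
      rw [← act_mul, mul_inv_cancel, act_one]
    rcases hform (x.symm ⟨c, hc⟩) with h | h
    · rw [hx] at h
      rw [h, hinv]
      exact (x.symm ⟨c, hc⟩).2
    · rw [hx] at h
      rw [h, act_add, hinv, act_one24]
      exact golayCode.add_mem (x.symm ⟨c, hc⟩).2 hone'
  have hsupp : ∀ (g : Equiv.Perm GolayPt) (c : Wd), support₂ (act g c) = g • support₂ c := by
    intro g c
    conv_lhs => rw [← ind_support c]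
    rw [act_ind, support_ind]
  refine ⟨σ'⁻¹, ?_, hform⟩
  rw [MulAction.mem_stabilizer_iff]
  ext S
  rw [Set.mem_smul_set_iff_inv_smul_mem]
  constructor
  · rintro ⟨c, hc, hcS⟩
    refine ⟨act σ'⁻¹ c, hC1 c hc, ?_⟩
    rw [hsupp, hcS, smul_inv_smul]
  · rintro ⟨c, hc, rfl⟩
    rw [inv_inv]
    exact ⟨act σ' c, hC2 c hc, hsupp _ _⟩

end Main

end Cfsg.Agent.Lib.Compute.M24Sub
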