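import Cfsg.Agent.Lib.Sporadic.M24Coset
import Cfsg.Agent.Lib.Compute.M24Tools

/-!
# The invariant subspaces of the binary permutation module of `M24`

The proof: a nonzero invariant subspace contains the all-ones word; one not in the code contains all the words of weight 2.
-/

set_option autoImplicit false

namespace Cfsg.Agent.Lib.Compute.M24Sub

open Cfsg Cfsg.Agent.Lib.Sporadic.GolayCore Cfsg.Agent.Lib.Sporadic.M24Sextet
open Cfsg.Agent.Lib.Sporadic.M24Act Cfsg.Agent.Lib.Sporadic.M24Tbl Cfsg.Agent.Lib.Sporadic.M24Coset
open scoped Pointwise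

/-- The words. -/
abbrev Wd := GolayPt → ZMod 2

/-- The action on words. -/
def act (g : Equiv.Perm GolayPt) (w : Wd) : Wd := fun p => w (g.symm p)

theorem act_add (g : Equiv.Perm GolayPt) (a b : Wd) : act g (a + b) = act g a + act g b := rfl

theorem act_sub (g : Equiv.Perm GolayPt) (a b : Wd) : act g (a - b) = act g a - act g b := rfl

theorem act_ind (g : Equiv.Perm GolayPt) (s : Finset GolayPt) : act g (ind s) = ind (g • s) := (ind_smul g s).symm

theorem act_mul (g h : Equiv.Perm GolayPt) (w : Wd) : act (g * h) w = act g (act h w) := rfl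

theorem act_one (w : Wd) : act 1 w = w := rfl

theorem act_apply (g : Equiv.Perm GolayPt) (w : Wd) (p : GolayPt) : act g w (g p) = w p := by
  simp [act]

theorem act_mem_code {g : Equiv.Perm GolayPt} (hg : g ∈ M24) {c : Wd} (hc : c ∈ golayCode) : act g c ∈ golayCode := by
  have h1 : support₂ c ∈ supports (golayCode : Set Wd) := ⟨c, hc, rfl⟩
  have h2 : g • support₂ c ∈ supports (golayCode : Set Wd) := smul_mem_supports hg h1
  have h3 := ind_mem_code h2
  rw [← act_ind, ind_support] at h3
  exact h3

/-- The all-ones word. -/
abbrev one24 : Wd := fun _ => 1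

theorem act_one24 (g : Equiv.Perm GolayPt) : act g one24 = one24 := rfl

/-- The word of a point. -/
noncomputable abbrev ept (p : GolayPt) : Wd := ind {p}

theorem act_ept (g : Equiv.Perm GolayPt) (p : GolayPt) : act g (ept p) = ept (g p) := by
  rw [ept, act_ind]
  simp

theorem two_mul_word (x : Wd) : x + x = 0 := by
  funext p
  have : ∀ a : ZMod 2, a + a = 0 := by decide
  exact this _

theorem sub_word (a b : Wd) : a - b = a + b := sub_eq_add' a b

theorem ept_apply (p q : GolayPt) : ept p q = if q = p then 1 else 0 := by
  rw [ept, ind_apply]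
  simp

/-- The word of a pair of points. -/
noncomputable abbrev pr (p q : GolayPt) : Wd := ept p + ept q

theorem act_pr (g : Equiv.Perm GolayPt) (p q : GolayPt) : act g (pr p q) = pr (g p) (g q) := by
  rw [pr, act_add, act_ept, act_ept]

theorem char_two (x y : Wd) : x + (x + y) = y := by
  rw [← add_assoc, two_mul_word, zero_add]

theorem zmod_cases (z : ZMod 2) : z = 0 ∨ z = 1 := by
  revert z
  decide

theorem one24_ne_zero : one24 ≠ 0 := by
  intro h
  have := congrFun h none
  exact one_ne_zero this

theorem mem_span_one {x : Wd} (h : x ∈ Submodule.span (ZMod 2) {one24}) : x = 0 ∨ x = one24 := by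
  obtain ⟨c, rfl⟩ := Submodule.mem_span_singleton.1 h
  rcases zmod_cases c with rfl | rfl
  · left
    simp
  · right
    simp

theorem one_mem_of_le_code {W : Submodule (ZMod 2) Wd}
    (hW : ∀ σ ∈ M24, ∀ w ∈ W, (fun p => w (σ.symm p)) ∈ W) (hle : W ≤ golayCode) (hne : W ≠ ⊥) :
    one24 ∈ W := by
  by_contra h1
  have hlast : ∀ o ∈ octads, ind o ∉ W := by
    intro o ho h
    exact h1 (code_le_of_octad hW ho h all_mem_code)
  have hsp := (Submodule.span_singleton_le_iff_mem one24 (golayCode)).2 all_mem_code
  have hinv' : ∀ σ ∈ M24, ∀ w ∈ W ⊔ Submodule.span (ZMod 2) {one24},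
      (fun p => w (σ.symm p)) ∈ W ⊔ Submodule.span (ZMod 2) {one24} := by
    intro σ hσ w hw
    obtain ⟨y, hy, z, hz, rfl⟩ := Submodule.mem_sup.1 hw
    refine Submodule.mem_sup.2 ⟨_, hW σ hσ y hy, z, ?_, ?_⟩
    · exact hz
    · rcases mem_span_one hz with rfl | rfl
      · rfl
      · rfl
  rcases code_irreducible.2 _ (Submodule.mem_sup_right (Submodule.mem_span_singleton_self _))
    (sup_le hle hsp) hinv' with h | h
  · -- `W` lies in the span of `one24`.
    apply hne
    rw [Submodule.eq_bot_iff]
    intro x hx
    have : x ∈ Submodule.span (ZMod 2) {one24} := by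
      rw [← h]
      exact Submodule.mem_sup_left hx
    rcases mem_span_one this with rfl | rfl
    · rfl
    · exact absurd hx h1
  · -- an octad or the complement of an octad lies in `W`.
    have ho0 : ofMask 8536111 ∈ octads := Cfsg.Agent.Lib.Sporadic.M24Basic.isOctad_ofMask (by decide +kernel)
    have ho1 : ofMask 8391797 ∈ octads := Cfsg.Agent.Lib.Sporadic.M24Basic.isOctad_ofMask (by decide +kernel)
    have h0 : ind (ofMask 8536111) ∈ golayCode := ind_mem_code ho0.1
    rw [← h] at h0
    obtain ⟨y, hy, z, hz, hyz⟩ := Submodule.mem_sup.1 h0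
    rcases mem_span_one hz with rfl | rfl
    · rw [add_zero] at hyz
      rw [hyz] at hy
      exact hlast _ ho0 hy
    · have hy' : ind (ofMask 8536111) + one24 ∈ W := by
        rw [← hyz, add_assoc, two_mul_word, add_zero]
        exact hy
      obtain ⟨g, hg, hge⟩ := exists_smul_octad ho0 ho1
      have hy2 : ind (ofMask 8391797) + one24 ∈ W := by
        have := hW g hg _ hy'
        have h3 : act g (ind (ofMask 8536111) + one24) = ind (ofMask 8391797) + one24 := by
          rw [act_add, act_one24, act_ind, hge]
        exact h3 ▸ this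
      have hsum := W.add_mem hy' hy2
      have hsum' : ind (ofMask 8536111) + one24 + (ind (ofMask 8391797) + one24) =
          ind (ofMask 8536111) + ind (ofMask 8391797) := by
        have : ind (ofMask 8536111) + one24 + (ind (ofMask 8391797) + one24) =
            ind (ofMask 8536111) + ind (ofMask 8391797) + (one24 + one24) := by abel
        rw [this, two_mul_word, add_zero]
      rw [hsum'] at hsum
      have hC := hle hsum
      have h3 := norm_add (ind (ofMask 8536111)) (ind (ofMask 8391797))
      rw [support_ind, support_ind, norm_ind, norm_ind, ho0.2, ho1.2, ← ofMask_and,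
        show (ofMask (8536111 &&& 8391797)).card = 4 by decide +kernel] at h3
      refine hlast (support₂ _) ⟨⟨_, hC, rfl⟩, ?_⟩ (by rwa [ind_support])
      rw [← hammingNorm_eq_card]
      omega

/-- Two words of a set and the set with one point exchanged. -/
theorem ind_exchange {S : Finset GolayPt} {c d : GolayPt} (hc : c ∈ S) (hd : d ∉ S) :
    ind S + ind (insert d (S.erase c)) = pr c d := by
  funext p
  simp only [Pi.add_apply, ind_apply, Finset.mem_insert, Finset.mem_erase, Finset.mem_singleton]
  have hcd : c ≠ d := fun h => hd (h ▸ hc)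
  by_cases h1 : p = c
  · subst h1
    simp [hc, hcd]
  · by_cases h2 : p = d
    · subst h2
      simp [hd, h1]
    · simp only [h1, h2, false_or, ne_eq, not_false_eq_true, true_and, if_false]
      by_cases h3 : p ∈ S
      · simp only [h3, if_true]
        exact (by decide : (1 : ZMod 2) + 1 = 0 + 0)
      · simp only [h3, if_false]

/-- A word outside the code gives a word of the subspace congruent to a fixed pair modulo the code. -/
theorem exists_pair_of_not_code {W : Submodule (ZMod 2) Wd}
    (hW : ∀ σ ∈ M24, ∀ w ∈ W, (fun p => w (σ.symm p)) ∈ W) {w : Wd} (hwW : w ∈ W)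
    (hw : w ∉ golayCode) {a b : GolayPt} (hab : a ≠ b) :
    ∃ x ∈ W, x + pr a b ∈ golayCode := by
  obtain ⟨v, hv4, hv⟩ := exists_low w
  rw [sub_word] at hv
  have hv0 : v ≠ 0 := by
    rintro rfl
    rw [add_zero] at hv
    exact hw hv
  have hScard : (support₂ v).card ≤ 4 := by
    rw [← hammingNorm_eq_card]
    exact hv4
  obtain ⟨c, hc⟩ : (support₂ v).Nonempty := by
    rw [Finset.nonempty_iff_ne_empty]
    intro h
    apply hv0
    rw [← ind_support v, h]
    funext p
    simp [ind_apply]
  obtain ⟨d, hd⟩ : ∃ d, d ∉ support₂ v := by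
    by_contra hcon
    push Not at hcon
    have h1 := Finset.eq_univ_iff_forall.2 hcon
    rw [h1] at hScard
    exact absurd hScard (by decide)
  have hcd : c ≠ d := fun h => hd (h ▸ hc)
  have hcardT : (insert d ((support₂ v).erase c)).card = (support₂ v).card := by
    rw [Finset.card_insert_of_notMem (fun h => hd (Finset.mem_of_mem_erase h)),
      Finset.card_erase_of_mem hc]
    have := Finset.card_pos.2 ⟨c, hc⟩
    omega
  obtain ⟨g, hg, hgS⟩ := exists_smul_eq_of_card (s := support₂ v) hcardT.symm (by omega)
  have hpr : v + act g v = pr c d := by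
    conv_lhs => rw [← ind_support v]
    rw [act_ind, hgS]
    exact ind_exchange hc hd
  obtain ⟨h, hh, hha, hhb⟩ := exists_map_two hcd hab
  refine ⟨act h (w + act g w), hW h hh _ (W.add_mem hwW (hW g hg _ hwW)), ?_⟩
  have h1 : w + act g w + pr c d ∈ golayCode := by
    have h2 := golayCode.add_mem hv (act_mem_code hg hv)
    have h3 : w + v + act g (w + v) = w + act g w + pr c d := by
      rw [act_add, ← hpr]
      abel
    exact h3 ▸ h2
  have h2 := act_mem_code hh h1
  rw [act_add, act_pr, hha, hhb] at h2
  exact h2

/-- A word of `W` congruent to a pair modulo the code, when `W` does not contain the code, gives a pair. -/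
theorem exists_pair_mem {W : Submodule (ZMod 2) Wd}
    (hW : ∀ σ ∈ M24, ∀ w ∈ W, (fun p => w (σ.symm p)) ∈ W) {x : Wd} (hx : x ∈ W)
    {a b : GolayPt} (hab : a ≠ b) (hxc : x + pr a b ∈ golayCode) :
    ∃ c d, c ≠ d ∧ pr c d ∈ W := by
  by_cases hCW : golayCode ≤ W
  · refine ⟨a, b, hab, ?_⟩
    have := W.add_mem hx (hCW hxc)
    rwa [char_two] at this
  -- `W ⊓ C` lies in the span of the all-ones word
  have hU : ∀ u ∈ W, u ∈ golayCode → u = 0 ∨ u = one24 := by
    intro u huW huC
    have hinvU : ∀ σ ∈ M24, ∀ w ∈ W ⊓ golayCode, (fun p => w (σ.symm p)) ∈ W ⊓ golayCode := by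
      intro σ hσ w hw
      exact ⟨hW σ hσ w hw.1, act_mem_code hσ hw.2⟩
    by_cases hbot : W ⊓ golayCode = ⊥
    · left
      have : u ∈ W ⊓ golayCode := ⟨huW, huC⟩
      rw [hbot] at this
      exact this
    · have h1 := one_mem_of_le_code hinvU inf_le_right hbot
      rcases code_irreducible.2 _ h1 inf_le_right hinvU with h | h
      · have : u ∈ W ⊓ golayCode := ⟨huW, huC⟩
        rw [h] at this
        exact mem_span_one this
      · exfalso
        apply hCW
        rw [← h]
        exact inf_le_left
  -- invariance of `x` under the pointwise stabilizer of `a, b`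
  have hinv : ∀ g ∈ M24, g a = a → g b = b → act g x = x := by
    intro g hg hga hgb
    have hy : act g x + x ∈ W := W.add_mem (hW g hg _ hx) hx
    have hyC : act g x + x ∈ golayCode := by
      have h1 := golayCode.add_mem (act_mem_code hg hxc) hxc
      have h2 : act g (x + pr a b) + (x + pr a b) = act g x + x := by
        rw [act_add, act_pr, hga, hgb]
        have : act g x + pr a b + (x + pr a b) = act g x + x + (pr a b + pr a b) := by abel
        rw [this, two_mul_word, add_zero]
      exact h2 ▸ h1
    rcases hU _ hy hyC with h | h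
    · have h3 := char_two (act g x) x
      rw [h, add_zero] at h3
      exact h3
    · exfalso
      have h3 := congrFun h a
      have h4 : act g x a = x a := by
        have : g.symm a = a := by
          rw [Equiv.symm_apply_eq]
          exact hga.symm
        simp only [act, this]
      simp only [Pi.add_apply, h4, one24] at h3
      have h5 : ∀ z : ZMod 2, z + z ≠ 1 := by decide
      exact h5 _ h3
  have hconst : ∀ p q, p ≠ a → p ≠ b → q ≠ a → q ≠ b → x p = x q := by
    intro p q hpa hpb hqa hqb
    obtain ⟨g, hg, h1, h2, h3⟩ := exists_map_three hab hpa.symm hpb.symm hab hqa.symm hqb.symm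
    have h4 := congrFun (hinv g hg h1 h2) q
    rw [← h4, ← h3]
    simp [act]
  -- a third point
  obtain ⟨e, hea, heb⟩ : ∃ e : GolayPt, e ≠ a ∧ e ≠ b := by
    by_contra hcon
    push Not at hcon
    have h1 : (Finset.univ : Finset GolayPt) ⊆ {a, b} := by
      intro p _
      by_cases h : p = a
      · simp [h]
      · simp [hcon p h]
    have h2 := Finset.card_le_card h1
    have h3 := Finset.card_le_two (a := a) (b := b)
    exact absurd (h2.trans h3) (by decide)
  set y := x + pr a b with hy
  have hyv : ∀ p, p ≠ a → p ≠ b → y p = x e := by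
    intro p hpa hpb
    simp [hy, ept_apply, hpa, hpb, hconst p e hpa hpb hea heb]
  rcases zmod_cases (x e) with h0 | h1
  · -- `y` is supported on the pair
    have hy0 : y = 0 := by
      apply code_small hxc
      have h1 : support₂ y ⊆ {a, b} := by
        intro p hp
        by_contra hcon
        simp only [Finset.mem_insert, Finset.mem_singleton, not_or] at hcon
        simp [support₂, hyv p hcon.1 hcon.2, h0] at hp
      have h2 := Finset.card_le_card h1
      have h3 := Finset.card_le_two (a := a) (b := b)
      rw [hammingNorm_eq_card]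
      omega
    refine ⟨a, b, hab, ?_⟩
    have h2 := char_two x (pr a b)
    rw [← hy, hy0, add_zero] at h2
    rw [← h2]
    exact hx
  · -- `y + 1` is supported on the pair
    have hy1 : y + one24 = 0 := by
      apply code_small (golayCode.add_mem hxc all_mem_code)
      have h2 : support₂ (y + one24) ⊆ {a, b} := by
        intro p hp
        by_contra hcon
        simp only [Finset.mem_insert, Finset.mem_singleton, not_or] at hcon
        have h3 : (y + one24) p = 0 := by
          simp only [Pi.add_apply, hyv p hcon.1 hcon.2, h1, one24]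
          decide
        have h4 : p ∈ support₂ (y + one24) := hp
        rw [support₂, Finset.mem_filter] at h4
        exact h4.2 h3
      have h3 := Finset.card_le_card h2
      have h4 := Finset.card_le_two (a := a) (b := b)
      exact lt_of_le_of_lt ((hammingNorm_eq_card _).le.trans (h3.trans h4)) (by norm_num)
    have hyeq : x + (pr a b + one24) = 0 := by
      rw [← add_assoc]
      exact hy1
    have hxeq : x = pr a b + one24 := by
      have h2 := char_two x (pr a b + one24)
      rw [hyeq, add_zero] at h2
      exact h2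
    rw [hxeq] at hx
    obtain ⟨g, hg, h2, h3⟩ := exists_map_two hab (show a ≠ e from hea.symm)
    have h4 := hW g hg _ hx
    have h5 : act g (pr a b + one24) = pr a e + one24 := by
      rw [act_add, act_pr, h2, h3]
      rfl
    have h6 : pr a e + one24 ∈ W := h5 ▸ h4
    refine ⟨b, e, heb.symm, ?_⟩
    have h7 := W.add_mem hx h6
    have h8 : pr a b + one24 + (pr a e + one24) = pr b e := by
      have : pr a b + one24 + (pr a e + one24) = (ept a + ept a) + (one24 + one24) + pr b e := by
        simp only [pr]
        abel
      rw [this, two_mul_word, two_mul_word, add_zero, zero_add]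
    exact h8 ▸ h7

/-- The formula expressing every word through the pairs. -/
theorem word_pairs (w : Wd) (a : GolayPt) :
    w + (∑ p, w p) • ept a = ∑ p, w p • pr p a := by
  funext q
  rw [Finset.sum_apply]
  have h1 : ∀ p, (w p • pr p a) q = w p * ept p q + w p * ept a q := by
    intro p
    exact mul_add _ _ _
  simp only [h1]
  rw [Finset.sum_add_distrib, ← Finset.sum_mul]
  have h2 : ∑ p, w p * ept p q = w q := by
    rw [Finset.sum_eq_single q]
    · rw [ept_apply, if_pos rfl, mul_one]
    · intro b _ hb
      rw [ept_apply, if_neg (Ne.symm hb), mul_zero]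
    · intro h
      exact absurd (Finset.mem_univ q) h
  rw [h2]
  rfl

theorem main_not_code {W : Submodule (ZMod 2) Wd}
    (hW : ∀ σ ∈ M24, ∀ w ∈ W, (fun p => w (σ.symm p)) ∈ W) (hn : ¬ W ≤ golayCode) :
    (W : Set Wd) = {w | ∑ p, w p = 0} ∨ W = ⊤ := by
  obtain ⟨w, hwW, hw⟩ := SetLike.not_le_iff_exists.1 hn
  have hab : (none : GolayPt) ≠ some 0 := by decide
  obtain ⟨x, hx, hxc⟩ := exists_pair_of_not_code hW hwW hw hab
  obtain ⟨c, d, hcd, hpr⟩ := exists_pair_mem hW hx hab hxc
  have hall : ∀ p q : GolayPt, pr p q ∈ W := by
    intro p q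
    by_cases hpq : p = q
    · subst hpq
      rw [pr, two_mul_word]
      exact W.zero_mem
    · obtain ⟨g, hg, h1, h2⟩ := exists_map_two hcd hpq
      have := hW g hg _ hpr
      have h3 : act g (pr c d) = pr p q := by
        rw [act_pr, h1, h2]
      exact h3 ▸ this
  have hphi : ∀ w : Wd, w + (∑ p, w p) • ept (none : GolayPt) ∈ W := by
    intro w
    rw [word_pairs]
    exact W.sum_mem fun p _ => W.smul_mem _ (hall p _)
  by_cases hle : ∀ w ∈ W, ∑ p, w p = 0
  · left
    ext w
    constructor
    · intro h
      exact hle w h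
    · intro h
      have := hphi w
      rw [show ∑ p, w p = 0 from h, zero_smul, add_zero] at this
      exact this
  · right
    push Not at hle
    obtain ⟨y, hyW, hy⟩ := hle
    have hy1 : ∑ p, y p = 1 := by
      rcases zmod_cases (∑ p, y p) with h | h
      · exact absurd h hy
      · exact h
    have he : ept (none : GolayPt) ∈ W := by
      have h1 := hphi y
      rw [hy1, one_smul] at h1
      have h2 := W.add_mem hyW h1
      rwa [char_two] at h2
    rw [eq_top_iff]
    intro w _
    have h1 := hphi w
    have h2 := W.smul_mem (∑ p, w p) he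
    have h3 := W.add_mem h1 h2
    rw [add_assoc, two_mul_word, add_zero] at h3
    exact h3

/-- The invariant subspaces. -/
theorem invariant_subspaces (W : Submodule (ZMod 2) Wd)
    (hW : ∀ σ ∈ M24, ∀ w ∈ W, (fun p => w (σ.symm p)) ∈ W) :
    W = ⊥ ∨ W = Submodule.span (ZMod 2) {one24} ∨ W = golayCode ∨
      (W : Set Wd) = {w | ∑ p, w p = 0} ∨ W = ⊤ := by
  by_cases hn : W ≤ golayCode
  · by_cases hb : W = ⊥
    · exact Or.inl hb
    · right
      rcases code_irreducible.2 W (one_mem_of_le_code hW hn hb) hn hW with h | h
      · exact Or.inl h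
      · exact Or.inr (Or.inl h)
  · exact Or.inr (Or.inr (Or.inr (main_not_code hW hn)))

end Cfsg.Agent.Lib.Compute.M24Sub
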