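import Mathlib

/-!
# Groups of order 126000 with trivial intersection Sylow 5-subgroups

A simple group `G` of order 126000 whose Sylow 5-subgroups are trivial intersection sets and which has no elements of
order 14, 21, 35 has no proper subgroup of index smaller than 50. Moreover a proper subgroup containing elements
`y, t, f, w` of orders 7, 3, 4, 5 with `t y t⁻¹ = y²` has index exactly 50.
-/

set_option autoImplicit false

namespace Cfsg.Agent.Lib.Compute.MinIndex50

open Subgroup
open scoped Pointwise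

local instance fact5 : Fact (Nat.Prime 5) := ⟨by norm_num⟩
local instance fact7 : Fact (Nat.Prime 7) := ⟨by norm_num⟩

section Sylow

variable {K : Type*} [Group K] [Finite K] {p : ℕ} [hp : Fact p.Prime]

theorem factorization_of_eq {a m : ℕ} (hm : ¬ p ∣ m) : (p ^ a * m).factorization p = a := by
  have hm0 : m ≠ 0 := by
    rintro rfl
    exact hm (dvd_zero _)
  rw [Nat.factorization_mul (pow_ne_zero _ hp.out.ne_zero) hm0, Nat.factorization_pow]
  simp [hp.out.factorization_self, Nat.factorization_eq_zero_of_not_dvd hm]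

theorem card_sylow_of_eq {a m : ℕ} (h : Nat.card K = p ^ a * m) (hm : ¬ p ∣ m) (T : Sylow p K) :
    Nat.card T = p ^ a := by
  rw [T.card_eq_multiplicity, h, factorization_of_eq hm]

end Sylow

variable {G : Type*} [Group G] [Finite G]

/-- Sylow 5-subgroups are trivial intersection sets. -/
def TI5 (G : Type*) [Group G] : Prop :=
  ∀ P Q : Sylow 5 G, P ≠ Q → (P : Subgroup G) ⊓ Q = ⊥

theorem exists_ne_of_not_subsingleton {α : Type*} (h : ¬ Subsingleton α) (a : α) : ∃ b, b ≠ a := by
  by_contra hcon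
  push Not at hcon
  exact h ⟨fun x y => by rw [hcon x, hcon y]⟩

/-- The normaliser of a Sylow 5-subgroup has order at most 1000. -/
theorem card_normalizer_le [IsSimpleGroup G] (hc : Nat.card G = 126000) (hTI : TI5 G) (P : Sylow 5 G) :
    Nat.card (normalizer ((P : Subgroup G) : Set G)) ≤ 1000 := by
  have hP : Nat.card P = 5 ^ 3 := card_sylow_of_eq (a := 3) (m := 1008) (by rw [hc]; norm_num) (by norm_num) P
  -- another Sylow subgroup
  have hex : ∃ Q : Sylow 5 G, Q ≠ P := by
    apply exists_ne_of_not_subsingleton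
    intro hs
    have hn : (P : Subgroup G).Normal := by
      have hnorm : normalizer ((P : Subgroup G) : Set G) = ⊤ := by
        rw [eq_top_iff]
        intro g _
        have : g • P = P := Subsingleton.elim _ _
        exact Sylow.smul_eq_iff_mem_normalizer.1 this
      exact Subgroup.normalizer_eq_top_iff.1 hnorm
    rcases hn.eq_bot_or_eq_top with h | h
    · rw [h, Subgroup.card_bot] at hP
      norm_num at hP
    · rw [h, Subgroup.card_top, hc] at hP
      norm_num at hP
  obtain ⟨Q, hQ⟩ := hex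
  have hinj : Function.Injective (fun o : Option P => match o with
      | none => P
      | some p => (p : G) • Q) := by
    have hne : ∀ p : P, (p : G) • Q ≠ P := by
      intro p hp
      apply hQ
      have h1 : (p : G)⁻¹ • P = P :=
        Sylow.smul_eq_iff_mem_normalizer.2 (le_normalizer (P.1.inv_mem p.2))
      calc Q = (p : G)⁻¹ • ((p : G) • Q) := by rw [inv_smul_smul]
        _ = (p : G)⁻¹ • P := by rw [hp]
        _ = P := h1
    intro a b hab
    rcases a with _ | a <;> rcases b with _ | b
    · rfl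
    · exact absurd hab.symm (hne b)
    · exact absurd hab (hne a)
    · have h1 : (b : G)⁻¹ • ((a : G) • Q) = Q := by
        have hab' : (a : G) • Q = (b : G) • Q := hab
        rw [hab', inv_smul_smul]
      have h2 : (b : G)⁻¹ * a ∈ normalizer ((Q : Subgroup G) : Set G) := by
        apply Sylow.smul_eq_iff_mem_normalizer.1
        rw [mul_smul]
        exact h1
      have h3 : (b : G)⁻¹ * a ∈ (P : Subgroup G) := P.1.mul_mem (P.1.inv_mem b.2) a.2
      have h4 : (b : G)⁻¹ * a ∈ (P : Subgroup G) ⊓ normalizer ((Q : Subgroup G) : Set G) := ⟨h3, h2⟩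
      have h4' : (b : G)⁻¹ * a ∈ (P : Subgroup G) ⊓ Q := (P.isPGroup'.inf_normalizer_sylow Q).le h4
      rw [hTI P Q hQ.symm, Subgroup.mem_bot] at h4'
      have h5 : (a : G) = b := by
        have := inv_mul_eq_one.1 h4'
        exact this.symm
      congr 1
      exact Subtype.ext h5
  have hcard := Nat.card_le_card_of_injective _ hinj
  rw [Finite.card_option, hP] at hcard
  have hidx : Nat.card (Sylow 5 G) = (normalizer ((P : Subgroup G) : Set G)).index :=
    Sylow.card_eq_index_normalizer P
  have hmul := Subgroup.index_mul_card (normalizer ((P : Subgroup G) : Set G))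
  rw [← hidx, hc] at hmul
  have h126 : 126 ≤ Nat.card (Sylow 5 G) := by simpa using hcard
  have := Nat.mul_le_mul_right (Nat.card (normalizer ((P : Subgroup G) : Set G))) h126
  rw [hmul] at this
  omega

/-- Two different Sylow 5-subgroups of a subgroup intersect trivially. -/
theorem sub_sylow_inf (hTI : TI5 G) (H : Subgroup G) (S R : Sylow 5 H) (hne : S ≠ R) :
    (S : Subgroup H) ⊓ R = ⊥ := by
  have hS : IsPGroup 5 ((S : Subgroup H).map H.subtype) := S.isPGroup'.map _
  have hR : IsPGroup 5 ((R : Subgroup H).map H.subtype) := R.isPGroup'.map _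
  obtain ⟨P₁, hP₁⟩ := hS.exists_le_sylow
  obtain ⟨P₂, hP₂⟩ := hR.exists_le_sylow
  have hS' : (S : Subgroup H) ≤ (P₁ : Subgroup G).comap H.subtype :=
    fun s hs => hP₁ ⟨s, hs, rfl⟩
  have hR' : (R : Subgroup H) ≤ (P₂ : Subgroup G).comap H.subtype :=
    fun s hs => hP₂ ⟨s, hs, rfl⟩
  have hne' : P₁ ≠ P₂ := by
    rintro rfl
    have hQ : IsPGroup 5 ((P₁ : Subgroup G).comap H.subtype) :=
      P₁.isPGroup'.comap_of_injective _ H.subtype_injective
    have h1 := S.is_maximal' hQ hS'
    have h2 := R.is_maximal' hQ hR'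
    apply hne
    apply Sylow.ext
    rw [← h1, ← h2]
  rw [eq_bot_iff]
  rintro x ⟨hxS, hxR⟩
  have h1 : (x : G) ∈ (P₁ : Subgroup G) ⊓ P₂ := ⟨hS' hxS, hR' hxR⟩
  rw [hTI P₁ P₂ hne', Subgroup.mem_bot] at h1
  rw [Subgroup.mem_bot]
  exact Subtype.ext h1

/-- A normal non-trivial Sylow 5-subgroup of a subgroup: the subgroup is small. -/
theorem card_le_of_subsingleton [IsSimpleGroup G] (hc : Nat.card G = 126000) (hTI : TI5 G)
    (H : Subgroup G) (hs : Subsingleton (Sylow 5 H)) (S : Sylow 5 H)
    (hS : (S : Subgroup H) ≠ ⊥) : Nat.card H ≤ 1000 := by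
  have hS' : IsPGroup 5 ((S : Subgroup H).map H.subtype) := S.isPGroup'.map _
  obtain ⟨P, hP⟩ := hS'.exists_le_sylow
  obtain ⟨x, hx, hx1⟩ := (S : Subgroup H).bot_or_exists_ne_one.resolve_left hS
  have hle : H ≤ normalizer ((P : Subgroup G) : Set G) := by
    intro h hh
    apply Sylow.smul_eq_iff_mem_normalizer.1
    by_contra hne
    have hinf := hTI (h • P) P hne
    have hmem : (x : G) ∈ ((h • P : Sylow 5 G) : Subgroup G) ⊓ P := by
      refine ⟨?_, hP ⟨x, hx, rfl⟩⟩
      have hSn : (⟨h, hh⟩ : H) • S = S := Subsingleton.elim _ _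
      have hnn : (⟨h, hh⟩ : H) ∈ normalizer ((S : Subgroup H) : Set H) :=
        Sylow.smul_eq_iff_mem_normalizer.1 hSn
      have hconj : (⟨h, hh⟩ : H)⁻¹ * x * (⟨h, hh⟩ : H)⁻¹⁻¹ ∈ (S : Subgroup H) :=
        (Subgroup.mem_normalizer_iff.1 (inv_mem hnn) x).1 hx
      have hin : h⁻¹ * x * h ∈ (P : Subgroup G) := by
        have := hP ⟨_, hconj, rfl⟩
        simpa using this
      have hsm : ((h • P : Sylow 5 G) : Subgroup G) = MulAut.conj h • (P : Subgroup G) :=
        Sylow.coe_subgroup_smul
      have hmem2 : (x : G) ∈ MulAut.conj h • (P : Subgroup G) := by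
        rw [Subgroup.mem_pointwise_smul_iff_inv_smul_mem]
        simpa [MulAut.smul_def, MulAut.conj_apply, MulAut.conj_inv_apply] using hin
      rw [hsm]
      exact hmem2
    rw [hinf, Subgroup.mem_bot] at hmem
    exact hx1 (Subtype.ext hmem)
  exact (Subgroup.card_le_of_le hle).trans (card_normalizer_le hc hTI P)

theorem bot_ne_of_card {K : Type*} [Group K] (S : Subgroup K) (h : 1 < Nat.card S) : S ≠ ⊥ := by
  rintro rfl
  simp at h

/-- Subgroups whose order is divisible by a full power of 5 are small or large. -/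
theorem caseA [IsSimpleGroup G] (hc : Nat.card G = 126000) (hTI : TI5 G) (H : Subgroup G) {a m : ℕ}
    (ha : 1 ≤ a) (hH : Nat.card H = 5 ^ a * m) (hm : ¬ 5 ∣ m) :
    Nat.card H ≤ 1000 ∨ 5 ^ a * 5 ^ a ≤ Nat.card H := by
  classical
  obtain ⟨S⟩ : Nonempty (Sylow 5 H) := inferInstance
  have hS : Nat.card S = 5 ^ a := card_sylow_of_eq hH hm S
  have h1 : (1 : ℕ) < 5 ^ a := Nat.one_lt_pow (by omega) (by norm_num)
  by_cases hs : Subsingleton (Sylow 5 H)
  · exact Or.inl (card_le_of_subsingleton hc hTI H hs S (bot_ne_of_card _ (by rw [hS]; exact h1)))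
  · obtain ⟨R, hR⟩ := exists_ne_of_not_subsingleton hs S
    right
    have hR' : Nat.card R = 5 ^ a := card_sylow_of_eq hH hm R
    have hinf := sub_sylow_inf hTI H S R hR.symm
    have hinj : Function.Injective (fun p : ↥(S : Subgroup H) × ↥(R : Subgroup H) => (p.1 : H) * p.2) := by
      rintro ⟨s, r⟩ ⟨s', r'⟩ h
      have h1 : (s' : H)⁻¹ * s = r' * (r : H)⁻¹ := by
        have h2 : (s : H) * r = s' * r' := h
        calc (s' : H)⁻¹ * s = (s' : H)⁻¹ * (s * r) * (r : H)⁻¹ := by group
          _ = (s' : H)⁻¹ * (s' * r') * (r : H)⁻¹ := by rw [h2]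
          _ = r' * (r : H)⁻¹ := by group
      have h3 : (s' : H)⁻¹ * s ∈ (S : Subgroup H) ⊓ R :=
        ⟨S.1.mul_mem (S.1.inv_mem s'.2) s.2, by
          rw [h1]
          exact R.1.mul_mem r'.2 (R.1.inv_mem r.2)⟩
      rw [hinf, Subgroup.mem_bot] at h3
      have h4 : (s : H) = s' := (inv_mul_eq_one.1 h3).symm
      have h5 : (r' : H) * (r : H)⁻¹ = 1 := by rw [← h1]; exact h3
      have h6 : (r' : H) = r := mul_inv_eq_one.1 h5
      simp only [Prod.mk.injEq]
      exact ⟨Subtype.ext h4, Subtype.ext h6.symm⟩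
    have := Nat.card_le_card_of_injective _ hinj
    rwa [Nat.card_prod, hS, hR'] at this

/-- The congruence for Sylow 5-subgroups of a subgroup. -/
theorem caseB [IsSimpleGroup G] (hc : Nat.card G = 126000) (hTI : TI5 G) (H : Subgroup G) {a m : ℕ}
    (ha : 1 ≤ a) (hH : Nat.card H = 5 ^ a * m) (hm : ¬ 5 ∣ m) :
    Nat.card H ≤ 1000 ∨ ∃ n : ℕ, 1 < n ∧ n ∣ m ∧ n % 5 ^ a = 1 := by
  classical
  obtain ⟨S⟩ : Nonempty (Sylow 5 H) := inferInstance
  have hS : Nat.card S = 5 ^ a := card_sylow_of_eq hH hm S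
  have h1 : (1 : ℕ) < 5 ^ a := Nat.one_lt_pow (by omega) (by norm_num)
  by_cases hs : Subsingleton (Sylow 5 H)
  · exact Or.inl (card_le_of_subsingleton hc hTI H hs S (bot_ne_of_card _ (by rw [hS]; exact h1)))
  right
  have hnot1 : Nat.card (Sylow 5 H) ≠ 1 := by
    intro h
    exact hs ((Nat.card_eq_one_iff_unique.1 h).1)
  have hpos : 0 < Nat.card (Sylow 5 H) := Nat.card_pos
  refine ⟨Nat.card (Sylow 5 H), by omega, ?_, ?_⟩
  · have hdvd := Sylow.card_dvd_index S
    have hidx : (S : Subgroup H).index = m := by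
      have h2 := Subgroup.index_mul_card (S : Subgroup H)
      rw [hH, hS, mul_comm] at h2
      exact Nat.eq_of_mul_eq_mul_left (by positivity) h2
    rwa [hidx] at hdvd
  · -- the free action of `S` on the other Sylow subgroups
    let A : SubMulAction (S : Subgroup H) (Sylow 5 H) :=
      { carrier := {R | R ≠ S}
        smul_mem' := by
          rintro ⟨s, hs⟩ R hR
          change (s • R) ≠ S
          intro hsR
          apply hR
          have h2 : s⁻¹ • S = S :=
            Sylow.smul_eq_iff_mem_normalizer.2 (le_normalizer (S.1.inv_mem hs))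
          calc R = s⁻¹ • (s • R) := by rw [inv_smul_smul]
            _ = s⁻¹ • S := by rw [hsR]
            _ = S := h2 }
    have hfree : ∀ b : A, MulAction.stabilizer (S : Subgroup H) b = ⊥ := by
      rintro ⟨R, hR⟩
      rw [eq_bot_iff]
      rintro ⟨s, hs⟩ hsR
      have h2 : s • R = R := congrArg Subtype.val hsR
      have h3 : s ∈ normalizer ((R : Subgroup H) : Set H) := Sylow.smul_eq_iff_mem_normalizer.1 h2
      have h4 : s ∈ (S : Subgroup H) ⊓ normalizer ((R : Subgroup H) : Set H) := ⟨hs, h3⟩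
      have h4' : s ∈ (S : Subgroup H) ⊓ R := (S.isPGroup'.inf_normalizer_sylow R).le h4
      rw [sub_sylow_inf hTI H S R (Ne.symm hR), Subgroup.mem_bot] at h4'
      rw [Subgroup.mem_bot]
      exact Subtype.ext h4'
    have hcard := Nat.card_congr (MulAction.selfEquivOrbitsQuotientProd hfree)
    rw [Nat.card_prod, hS] at hcard
    have hsplit : Nat.card (Sylow 5 H) = Nat.card A + 1 := by
      have e : Option A ≃ Sylow 5 H :=
        { toFun := fun o => match o with
            | none => S
            | some R => R.1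
          invFun := fun R => if h : R = S then none else some ⟨R, h⟩
          left_inv := by
            rintro (_ | ⟨R, hR⟩)
            · simp
            · have hR' : R ≠ S := hR
              simp [hR']
          right_inv := by
            intro R
            by_cases h : R = S
            · simp [h]
            · simp [h] }
      rw [← Nat.card_congr e, Finite.card_option]
    rw [hsplit, hcard, Nat.add_mod, Nat.mul_mod_left]
    simp [Nat.mod_eq_of_lt h1]

/-! ### The prime 7 -/

theorem prime_dvd_126000 {r : ℕ} (hr : r.Prime) (h : r ∣ 126000) : r = 2 ∨ r = 3 ∨ r = 5 ∨ r = 7 := by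
  have h1 : (126000 : ℕ) = 2 ^ 4 * 3 ^ 2 * 5 ^ 3 * 7 := by norm_num
  rw [h1] at h
  rcases (Nat.Prime.dvd_mul hr).1 h with h | h
  · rcases (Nat.Prime.dvd_mul hr).1 h with h | h
    · rcases (Nat.Prime.dvd_mul hr).1 h with h | h
      · exact Or.inl ((Nat.prime_dvd_prime_iff_eq hr (by norm_num)).1 (hr.dvd_of_dvd_pow h))
      · exact Or.inr (Or.inl ((Nat.prime_dvd_prime_iff_eq hr (by norm_num)).1 (hr.dvd_of_dvd_pow h)))
    · exact Or.inr (Or.inr (Or.inl ((Nat.prime_dvd_prime_iff_eq hr (by norm_num)).1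
        (hr.dvd_of_dvd_pow h))))
  · exact Or.inr (Or.inr (Or.inr ((Nat.prime_dvd_prime_iff_eq hr (by norm_num)).1 h)))

/-- The normaliser of a Sylow 7-subgroup has order 21. -/
theorem card_normalizer_seven (hc : Nat.card G = 126000)
    (hspec : ∀ x : G, orderOf x ≠ 14 ∧ orderOf x ≠ 21 ∧ orderOf x ≠ 35) (T : Sylow 7 G) :
    Nat.card (normalizer ((T : Subgroup G) : Set G)) = 21 := by
  have hT : Nat.card T = 7 := by
    have := card_sylow_of_eq (p := 7) (a := 1) (m := 18000) (by rw [hc]; norm_num) (by norm_num) T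
    simpa using this
  have hcyc : IsCyclic T := isCyclic_of_prime_card hT
  -- an element of order 7
  have hnt : Nontrivial T := by
    rw [← Finite.one_lt_card_iff_nontrivial, hT]
    norm_num
  obtain ⟨y, hy⟩ := exists_ne (1 : (T : Subgroup G))
  have hyord : orderOf (y : G) = 7 := by
    have h1 : orderOf y ∣ Nat.card (T : Subgroup G) := orderOf_dvd_natCard y
    rw [hT] at h1
    rw [Subgroup.orderOf_coe]
    rcases (Nat.dvd_prime (by norm_num : Nat.Prime 7)).1 h1 with h | h
    · exact absurd (orderOf_eq_one_iff.1 h) hy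
    · exact h
  set C := centralizer (T : Set G) with hC
  -- the centraliser is a 7-group
  have hCcard : Nat.card C ∣ 7 := by
    have hC0 : Nat.card C ≠ 0 := Nat.card_pos.ne'
    have hall : ∀ r : ℕ, r.Prime → r ∣ Nat.card C → r = 7 := by
      intro r hr hrd
      have : Fact r.Prime := ⟨hr⟩
      obtain ⟨x, hx⟩ := exists_prime_orderOf_dvd_card' r hrd
      by_contra hr7
      have hrG : r ∣ 126000 := by
        rw [← hc]
        exact hrd.trans (Subgroup.card_subgroup_dvd_card C)
      have hcomm : Commute (x : G) (y : G) := by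
        have := (Subgroup.mem_centralizer_iff.1 x.2) y y.2
        exact this.symm
      have hord : orderOf ((x : G) * y) = r * 7 := by
        rw [hcomm.orderOf_mul_eq_mul_orderOf_of_coprime, hyord, Subgroup.orderOf_coe, hx]
        rw [Subgroup.orderOf_coe, hx, hyord]
        exact (Nat.coprime_primes hr (by norm_num)).2 hr7
      obtain ⟨h14, h21, h35⟩ := hspec ((x : G) * y)
      rcases prime_dvd_126000 hr hrG with rfl | rfl | rfl | rfl
      · exact h14 (by rw [hord])
      · exact h21 (by rw [hord])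
      · exact h35 (by rw [hord])
      · exact hr7 rfl
    have hpow := Nat.eq_prime_pow_of_unique_prime_dvd hC0 (@fun r hr hd => hall r hr hd)
    rw [hpow]
    have hk : (Nat.card C).primeFactorsList.length ≤ 1 := by
      by_contra hk
      have h2 : 2 ≤ (Nat.card C).primeFactorsList.length := by omega
      have h3 : 7 ^ 2 ∣ Nat.card C := by
        rw [hpow]
        exact pow_dvd_pow _ h2
      have h4 : 7 ^ 2 ∣ 126000 := by
        rw [← hc]
        exact h3.trans (Subgroup.card_subgroup_dvd_card C)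
      norm_num at h4
    calc 7 ^ (Nat.card C).primeFactorsList.length ∣ 7 ^ 1 := pow_dvd_pow _ hk
      _ = 7 := pow_one 7
  -- normaliser modulo centraliser
  set N := normalizer ((T : Subgroup G) : Set G) with hN
  have key := Subgroup.card_dvd_of_injective _
    (QuotientGroup.kerLift_injective (T : Subgroup G).normalizerMonoidHom)
  rw [hcyc.card_mulAut, hT, Nat.totient_prime (by norm_num : Nat.Prime 7)] at key
  have hker : Nat.card (T : Subgroup G).normalizerMonoidHom.ker ∣ 7 := by
    refine dvd_trans ?_ hCcard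
    have hkerC : ∀ n : N, n ∈ (T : Subgroup G).normalizerMonoidHom.ker → (n : G) ∈ C := by
      intro n hn
      rw [Subgroup.normalizerMonoidHom_ker] at hn
      exact Subgroup.mem_subgroupOf.1 hn
    let f : (T : Subgroup G).normalizerMonoidHom.ker →* C :=
      { toFun := fun k => ⟨((k : N) : G), hkerC _ k.2⟩
        map_one' := rfl
        map_mul' := fun _ _ => rfl }
    refine Subgroup.card_dvd_of_injective f ?_
    intro a b hab
    apply Subtype.ext
    apply Subtype.ext
    have h : ((f a : C) : G) = (f b : C) := congrArg Subtype.val hab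
    exact h
  have hNcard := Subgroup.card_eq_card_quotient_mul_card_subgroup (T : Subgroup G).normalizerMonoidHom.ker
  have hd42 : Nat.card N ∣ 42 := by
    rw [hNcard]
    exact mul_dvd_mul key hker
  have hd7 : 7 ∣ Nat.card N := by
    rw [← hT]
    exact Subgroup.card_dvd_of_le le_normalizer
  have hidx : Nat.card (Sylow 7 G) = N.index := Sylow.card_eq_index_normalizer T
  have hmod := card_sylow_modEq_one 7 G
  rw [hidx] at hmod
  have hmul := Subgroup.index_mul_card N
  rw [hc] at hmul
  have hle : Nat.card N ≤ 42 := Nat.le_of_dvd (by norm_num) hd42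
  have hmod' : N.index % 7 = 1 := hmod
  generalize Nat.card N = d at *
  generalize N.index = i at *
  interval_cases d <;> omega

theorem sub_seven_aux (hc : Nat.card G = 126000)
    (hspec : ∀ x : G, orderOf x ≠ 14 ∧ orderOf x ≠ 21 ∧ orderOf x ≠ 35) (H : Subgroup G)
    (S : Sylow 7 H) (hS : Nat.card S = 7) :
    Nat.card (normalizer ((S : Subgroup H) : Set H)) ∣ 21 ∧ 7 ∣ Nat.card (normalizer ((S : Subgroup H) : Set H)) := by
  constructor
  · -- the image of `S` in `G`
    have hcard : Nat.card ((S : Subgroup H).map H.subtype) = 7 ^ (Nat.card G).factorization 7 := by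
      rw [Subgroup.card_map_of_injective H.subtype_injective, hS, hc,
        show (126000 : ℕ) = 7 ^ 1 * 18000 by norm_num, factorization_of_eq (by norm_num)]
      norm_num
    let T : Sylow 7 G := Sylow.ofCard _ hcard
    have hT : Nat.card (normalizer ((T : Subgroup G) : Set G)) = 21 := card_normalizer_seven hc hspec T
    rw [← hT]
    have hle : (normalizer ((S : Subgroup H) : Set H)).map H.subtype ≤ normalizer ((T : Subgroup G) : Set G) := by
      rintro _ ⟨x, hx, rfl⟩
      rw [Subgroup.mem_normalizer_iff]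
      intro g
      constructor
      · rintro ⟨s, hs, rfl⟩
        have hs' : s ∈ (S : Subgroup H) := hs
        refine ⟨x * s * x⁻¹, (Subgroup.mem_normalizer_iff.1 hx s).1 hs', ?_⟩
        simp
      · rintro ⟨s, hs, hgs⟩
        have hs' : s ∈ (S : Subgroup H) := hs
        have hgs' : (s : G) = (x : G) * g * (x : G)⁻¹ := hgs
        have hg : g ∈ H := by
          have h1 : (x : G) * g * (x : G)⁻¹ ∈ H := by
            rw [← hgs']
            exact s.2
          have h2 : g = (x : G)⁻¹ * ((x : G) * g * (x : G)⁻¹) * x := by group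
          rw [h2]
          exact H.mul_mem (H.mul_mem (H.inv_mem x.2) h1) x.2
        refine ⟨⟨g, hg⟩, ?_, rfl⟩
        change (⟨g, hg⟩ : H) ∈ (S : Subgroup H)
        rw [Subgroup.mem_normalizer_iff.1 hx]
        have : x * ⟨g, hg⟩ * x⁻¹ = s := by
          apply Subtype.ext
          simpa using hgs'.symm
        rw [this]
        exact hs'
    have := Subgroup.card_dvd_of_le hle
    rwa [Subgroup.card_map_of_injective H.subtype_injective] at this
  · have := Subgroup.card_dvd_of_le (le_normalizer : (S : Subgroup H) ≤ normalizer _)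
    rwa [hS] at this

/-- The count of Sylow 7-subgroups in a subgroup of order divisible by 7. -/
theorem seven_test (hc : Nat.card G = 126000)
    (hspec : ∀ x : G, orderOf x ≠ 14 ∧ orderOf x ≠ 21 ∧ orderOf x ≠ 35) (H : Subgroup G)
    (h7 : 7 ∣ Nat.card H) : ∃ n d : ℕ, n % 7 = 1 ∧ (d = 7 ∨ d = 21) ∧ n * d = Nat.card H := by
  obtain ⟨S⟩ : Nonempty (Sylow 7 H) := inferInstance
  have hS : Nat.card S = 7 := by
    obtain ⟨m, hm⟩ := h7
    have hm7 : ¬ 7 ∣ m := by
      rintro ⟨c, rfl⟩
      have h1 : 7 ^ 2 * c ∣ 126000 := by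
        rw [← hc, show 7 ^ 2 * c = 7 * (7 * c) by ring, ← hm]
        exact Subgroup.card_subgroup_dvd_card H
      have h2 : 7 ^ 2 ∣ 126000 := (Dvd.intro _ rfl).trans h1
      norm_num at h2
    have := card_sylow_of_eq (p := 7) (a := 1) (m := m) (by rw [hm, pow_one]) hm7 S
    simpa using this
  obtain ⟨h21, hd7⟩ := sub_seven_aux hc hspec H S hS
  refine ⟨(normalizer ((S : Subgroup H) : Set H)).index, Nat.card (normalizer ((S : Subgroup H) : Set H)), ?_, ?_, Subgroup.index_mul_card _⟩
  · have e : Nat.card (Sylow 7 H) = (normalizer ((S : Subgroup H) : Set H)).index :=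
      Sylow.card_eq_index_normalizer S
    rw [← e]
    exact card_sylow_modEq_one 7 H
  · have hle : Nat.card (normalizer ((S : Subgroup H) : Set H)) ≤ 21 := Nat.le_of_dvd (by norm_num) h21
    generalize Nat.card (normalizer ((S : Subgroup H) : Set H)) = d at *
    interval_cases d <;> omega

/-- The count of Sylow 7-subgroups when an element of order 3 normalises a subgroup of order 7. -/
theorem seven_test' (hc : Nat.card G = 126000)
    (hspec : ∀ x : G, orderOf x ≠ 14 ∧ orderOf x ≠ 21 ∧ orderOf x ≠ 35) (H : Subgroup G) {y t : G}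
    (hy : y ∈ H) (ht : t ∈ H) (hyo : orderOf y = 7) (hto : orderOf t = 3) (hrel : t * y * t⁻¹ = y ^ 2) :
    ∃ n : ℕ, n % 7 = 1 ∧ n * 21 = Nat.card H := by
  have h7 : 7 ∣ Nat.card H := by
    rw [← hyo, ← Subgroup.orderOf_mk y hy]
    exact orderOf_dvd_natCard _
  -- the Sylow subgroup generated by `y`
  set y' : H := ⟨y, hy⟩ with hy'
  set t' : H := ⟨t, ht⟩ with ht'
  have hyo' : orderOf y' = 7 := by rw [hy', Subgroup.orderOf_mk, hyo]
  have hto' : orderOf t' = 3 := by rw [ht', Subgroup.orderOf_mk, hto]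
  have hrel' : t' * y' * t'⁻¹ = y' ^ 2 := Subtype.ext hrel
  obtain ⟨m, hm⟩ := h7
  have hm7 : ¬ 7 ∣ m := by
    rintro ⟨c, rfl⟩
    have h1 : 7 ^ 2 * c ∣ 126000 := by
      rw [← hc, show 7 ^ 2 * c = 7 * (7 * c) by ring, ← hm]
      exact Subgroup.card_subgroup_dvd_card H
    have h2 : 7 ^ 2 ∣ 126000 := (Dvd.intro _ rfl).trans h1
    norm_num at h2
  have hQc : Nat.card (zpowers y') = 7 ^ (Nat.card H).factorization 7 := by
    rw [Nat.card_zpowers, hyo', hm, show 7 * m = 7 ^ 1 * m by ring, factorization_of_eq hm7]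
    norm_num
  let S : Sylow 7 H := Sylow.ofCard (zpowers y') hQc
  have hS : Nat.card S = 7 := by
    change Nat.card (zpowers y') = 7
    rw [Nat.card_zpowers, hyo']
  obtain ⟨h21, hd7⟩ := sub_seven_aux hc hspec H S hS
  have ht3 : t' ^ 3 = 1 := by rw [← hto', pow_orderOf_eq_one]
  have hconj : ∀ k : ℤ, t' * y' ^ k * t'⁻¹ = y' ^ (2 * k) := by
    intro k
    have h1 : t' * y' ^ k * t'⁻¹ = (t' * y' * t'⁻¹) ^ k := (conj_zpow).symm
    rw [h1, hrel', ← zpow_natCast, ← zpow_mul]
    rfl
  have htinv : t'⁻¹ = t' * t' := by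
    have h : t' * (t' * t') = t' ^ 3 := by simp only [pow_succ, pow_zero, one_mul, mul_assoc]
    rw [inv_eq_iff_mul_eq_one, h, ht3]
  have htinv2 : (t' * t')⁻¹ = t' := by rw [← htinv, inv_inv]
  have hconj' : ∀ k : ℤ, t'⁻¹ * y' ^ k * t' = y' ^ (4 * k) := by
    intro k
    have h1 : t'⁻¹ * y' ^ k * t' = t' * (t' * y' ^ k * t'⁻¹) * t'⁻¹ := by
      have h2 : t'⁻¹ * y' ^ k * t' = (t' * t') * y' ^ k * (t' * t')⁻¹ := by
        rw [htinv2, ← htinv]
      rw [h2]
      group
    rw [h1, hconj, hconj]
    congr 1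
    ring
  have htn : t' ∈ normalizer ((S : Subgroup H) : Set H) := by
    rw [Subgroup.mem_normalizer_iff]
    intro g
    change g ∈ zpowers y' ↔ t' * g * t'⁻¹ ∈ zpowers y'
    constructor
    · rintro ⟨k, rfl⟩
      exact ⟨2 * k, (hconj k).symm⟩
    · rintro ⟨k, hk⟩
      have hk' : t' * g * t'⁻¹ = y' ^ k := hk.symm
      have : g = t'⁻¹ * y' ^ k * t' := by
        rw [← hk']
        group
      rw [this, hconj' k]
      exact ⟨4 * k, rfl⟩
  have h3 : 3 ∣ Nat.card (normalizer ((S : Subgroup H) : Set H)) := by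
    rw [← hto', ← Subgroup.orderOf_mk t' htn]
    exact orderOf_dvd_natCard _
  have hd : Nat.card (normalizer ((S : Subgroup H) : Set H)) = 21 := by
    have hle : Nat.card (normalizer ((S : Subgroup H) : Set H)) ≤ 21 := Nat.le_of_dvd (by norm_num) h21
    generalize Nat.card (normalizer ((S : Subgroup H) : Set H)) = d at *
    interval_cases d <;> omega
  refine ⟨(normalizer ((S : Subgroup H) : Set H)).index, ?_, ?_⟩
  · have e : Nat.card (Sylow 7 H) = (normalizer ((S : Subgroup H) : Set H)).index :=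
      Sylow.card_eq_index_normalizer S
    rw [← e]
    exact card_sylow_modEq_one 7 H
  · rw [← hd]
    exact Subgroup.index_mul_card _

/-- A simple group of order 126000 has no proper subgroup of index below 15. -/
theorem index_ge_fifteen [IsSimpleGroup G] (hc : Nat.card G = 126000) (H : Subgroup G) (hH : H ≠ ⊤) :
    15 ≤ H.index := by
  classical
  by_contra hlt
  have hlt' : H.index ≤ 14 := by omega
  let φ : G →* Equiv.Perm (G ⧸ H) := MulAction.toPermHom G (G ⧸ H)
  have hker : φ.ker = ⊥ := by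
    rcases (φ.normal_ker).eq_bot_or_eq_top with h | h
    · exact h
    · exfalso
      apply hH
      rw [eq_top_iff]
      intro g _
      have hg : g ∈ φ.ker := by rw [h]; trivial
      have h1 : φ g = 1 := hg
      have h2 : g • ((1 : G) : G ⧸ H) = ((1 : G) : G ⧸ H) := by
        have := congrArg (fun σ : Equiv.Perm (G ⧸ H) => σ ((1 : G) : G ⧸ H)) h1
        simpa [φ] using this
      have h3 : ((g : G) : G ⧸ H) = ((1 : G) : G ⧸ H) := by
        simpa [MulAction.Quotient.smul_coe] using h2
      have h4 := (QuotientGroup.eq (s := H)).mp h3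
      simpa using (H.inv_mem_iff).mp (by simpa using h4)
  have hinj : Function.Injective φ := (MonoidHom.ker_eq_bot_iff φ).mp hker
  have hd := Subgroup.card_dvd_of_injective φ hinj
  rw [hc, Nat.card_perm] at hd
  have hidx : Nat.card (G ⧸ H) = H.index := rfl
  rw [hidx] at hd
  have h14 : (126000 : ℕ) ∣ Nat.factorial 14 :=
    hd.trans (Nat.factorial_dvd_factorial hlt')
  norm_num [Nat.factorial] at h14

theorem big_of_index {H : Subgroup G} (hc : Nat.card G = 126000) {k : ℕ} (hk : H.index = k) :
    k * Nat.card H = 126000 := by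
  rw [← hk, Subgroup.index_mul_card, hc]

/-- A simple group of order 126000 with trivial intersection Sylow 5-subgroups and no elements of order 14, 21, 35 has no
proper subgroup of index smaller than 50. -/
theorem index_ge_fifty [IsSimpleGroup G] (hc : Nat.card G = 126000) (hTI : TI5 G)
    (hspec : ∀ x : G, orderOf x ≠ 14 ∧ orderOf x ≠ 21 ∧ orderOf x ≠ 35) (H : Subgroup G) (hH : H ≠ ⊤) :
    50 ≤ H.index := by
  by_contra hlt
  have h15 := index_ge_fifteen hc H hH
  have hk : H.index * Nat.card H = 126000 := big_of_index hc rfl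
  -- the three tests
  have hA : ∀ (a m : ℕ), 1 ≤ a → Nat.card H = 5 ^ a * m → ¬ 5 ∣ m →
      Nat.card H ≤ 1000 ∨ 5 ^ a * 5 ^ a ≤ Nat.card H := fun a m ha h1 h2 => caseA hc hTI H ha h1 h2
  have hB : ∀ (a m : ℕ), 1 ≤ a → Nat.card H = 5 ^ a * m → ¬ 5 ∣ m →
      Nat.card H ≤ 1000 ∨ ∃ n : ℕ, 1 < n ∧ n ∣ m ∧ n % 5 ^ a = 1 :=
    fun a m ha h1 h2 => caseB hc hTI H ha h1 h2
  have hT : 7 ∣ Nat.card H → ∃ n d : ℕ, n % 7 = 1 ∧ (d = 7 ∨ d = 21) ∧ n * d = Nat.card H :=
    seven_test hc hspec H
  generalize hm : Nat.card H = m at *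
  generalize H.index = k at *
  -- the subgroup has order at least 2573 and its index is one of finitely many values
  have key : ∀ a b : ℕ, 1 ≤ a → m = 5 ^ a * b → ¬ 5 ∣ b → 1000 < m → m < 5 ^ a * 5 ^ a → False := by
    intro a b ha h1 h2 h3 h4
    rcases hA a b ha h1 h2 with h | h <;> omega
  have key7 : ∀ c : ℕ, m = 7 * c → (∀ n d : ℕ, n % 7 = 1 → (d = 7 ∨ d = 21) → n * d = m → False) → False := by
    intro c hc' hf
    obtain ⟨n, d, h1, h2, h3⟩ := hT ⟨c, hc'⟩
    exact hf n d h1 h2 h3
  have key5 : ∀ b : ℕ, m = 5 ^ 2 * b → ¬ 5 ∣ b → 1000 < m → (∀ n ∈ Nat.divisors b, n % 25 = 1 → n = 1) → b ≠ 0 → False := by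
    intro b h1 h2 h3 h4 h0
    rcases hB 2 b (by norm_num) h1 h2 with h | ⟨n, hn1, hnd, hnm⟩
    · omega
    · have := h4 n (Nat.mem_divisors.2 ⟨hnd, h0⟩) (by simpa using hnm)
      omega
  have hk49 : k ≤ 49 := by omega
  have hmA : ∀ b : ℕ, m = 125 * b → ¬ 5 ∣ b → 1000 < m → m < 15625 → False := by
    intro b h1 h2 h3 h4
    exact key 3 b (by norm_num) (by rw [h1]; norm_num) h2 h3 (by norm_num; omega)
  have hm7 : ∀ c : ℕ, m = 7 * c → (∀ n d : ℕ, n % 7 = 1 → (d = 7 ∨ d = 21) → n * d = m → False) → False := key7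
  interval_cases k <;> first | omega | skip
  · -- index 15
    obtain rfl : m = 8400 := by omega
    exact key5 336 (by norm_num) (by norm_num) (by norm_num) (by decide) (by norm_num)
  · exact hmA 63 (by omega) (by norm_num) (by omega) (by omega)
  · exact hmA 56 (by omega) (by norm_num) (by omega) (by omega)
  · -- index 20
    obtain rfl : m = 6300 := by omega
    refine hm7 900 (by norm_num) ?_
    rintro n d h1 (rfl | rfl) h3 <;> omega
  · exact hmA 48 (by omega) (by norm_num) (by omega) (by omega)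
  · exact hmA 42 (by omega) (by norm_num) (by omega) (by omega)
  · -- index 25
    obtain rfl : m = 5040 := by omega
    refine hm7 720 (by norm_num) ?_
    rintro n d h1 (rfl | rfl) h3 <;> omega
  · exact hmA 36 (by omega) (by norm_num) (by omega) (by omega)
  · -- index 30
    obtain rfl : m = 4200 := by omega
    refine hm7 600 (by norm_num) ?_
    rintro n d h1 (rfl | rfl) h3 <;> omega
  · -- index 35
    obtain rfl : m = 3600 := by omega
    exact key5 144 (by norm_num) (by norm_num) (by norm_num) (by decide) (by norm_num)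
  · exact hmA 28 (by omega) (by norm_num) (by omega) (by omega)
  · -- index 40
    obtain rfl : m = 3150 := by omega
    refine hm7 450 (by norm_num) ?_
    rintro n d h1 (rfl | rfl) h3 <;> omega
  · exact hmA 24 (by omega) (by norm_num) (by omega) (by omega)
  · -- index 45
    obtain rfl : m = 2800 := by omega
    exact key5 112 (by norm_num) (by norm_num) (by norm_num) (by decide) (by norm_num)
  · exact hmA 21 (by omega) (by norm_num) (by omega) (by omega)

/-- A proper subgroup containing elements of orders 7, 3, 4, 5 with `t y t⁻¹ = y²` has index 50. -/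
theorem index_eq_fifty [IsSimpleGroup G] (hc : Nat.card G = 126000) (hTI : TI5 G)
    (hspec : ∀ x : G, orderOf x ≠ 14 ∧ orderOf x ≠ 21 ∧ orderOf x ≠ 35) (H : Subgroup G) (hH : H ≠ ⊤)
    {y t f w : G} (hy : y ∈ H) (ht : t ∈ H) (hf : f ∈ H) (hw : w ∈ H) (hyo : orderOf y = 7)
    (hto : orderOf t = 3) (hfo : orderOf f = 4) (hwo : orderOf w = 5) (hrel : t * y * t⁻¹ = y ^ 2) :
    H.index = 50 := by
  have h50 := index_ge_fifty hc hTI hspec H hH
  have hk : H.index * Nat.card H = 126000 := big_of_index hc rfl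
  obtain ⟨n, hn, hn21⟩ := seven_test' hc hspec H hy ht hyo hto hrel
  have hdvd : ∀ {x : G} (hx : x ∈ H), orderOf x ∣ Nat.card H := by
    intro x hx
    rw [← Subgroup.orderOf_mk x hx]
    exact orderOf_dvd_natCard _
  have h4 : 4 ∣ Nat.card H := hfo ▸ hdvd hf
  have h5 : 5 ∣ Nat.card H := hwo ▸ hdvd hw
  generalize Nat.card H = m at *
  generalize H.index = k at *
  -- `m = 21 n` with `n ≡ 1 mod 7`, `20 ∣ n`, `m ≤ 2520`
  have hmle : m ≤ 2520 := by
    by_contra hgt
    have h1 : 50 * 2521 ≤ k * m := Nat.mul_le_mul h50 (by omega)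
    omega
  have hnle : n ≤ 120 := by omega
  have h20 : 20 ∣ n := by omega
  obtain ⟨c, rfl⟩ := h20
  have hc6 : c ≤ 6 := by omega
  subst hn21
  interval_cases c <;> omega

end Cfsg.Agent.Lib.Compute.MinIndex50
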