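import Cfsg.Agent.Lib.Compute.CoverCert
import Cfsg.Agent.Lib.Compute.ToddCoxeterPresented

/-!
# Presented groups on a finite alphabet, with generators numbered by `Fin n`

The tools of `CoverCert` use the free group on `Fin n`.  Here is the way from a group presented on some alphabet `α`.
-/

set_option autoImplicit false

namespace Cfsg.Agent.Lib.Compute.PresTransfer

open Cfsg.Agent.Lib.Compute.SchurLin Cfsg.Agent.Lib.Compute.CoverCert
open Cfsg.Agent.Lib.Compute.ToddCoxeterCore (wordEl wordEl_nil wordEl_cons wordEl_append)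
open Cfsg.Agent.Lib.Compute.ToddCoxeterPresented (toLetters letterOf eltF wordEl_toLetters' toLetters_lt)

variable {α : Type} {n : ℕ} (e : Fin n ≃ α) (R : Set (FreeGroup α))

/-- The generators. -/
noncomputable def gP (j : ℕ) : PresentedGroup R := if h : j < n then PresentedGroup.of (e ⟨j, h⟩) else 1

/-- The map from the free group on `Fin n`. -/
noncomputable def fP : FreeGroup (Fin n) →* PresentedGroup R :=
  (PresentedGroup.mk R).comp (FreeGroup.freeGroupCongr e).toMonoidHom

theorem fP_surj : Function.Surjective (fP e R) := by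
  intro x
  obtain ⟨y, rfl⟩ := PresentedGroup.mk_surjective R x
  refine ⟨(FreeGroup.freeGroupCongr e).symm y, ?_⟩
  show PresentedGroup.mk R (FreeGroup.freeGroupCongr e ((FreeGroup.freeGroupCongr e).symm y)) = _
  rw [MulEquiv.apply_symm_apply]

theorem fP_of (j : Fin n) : fP e R (FreeGroup.of j) = gP e R j := by
  simp [fP, gP, PresentedGroup.of]

/-- The relators on `Fin n`. -/
def RP : Set (FreeGroup (Fin n)) := {r | FreeGroup.freeGroupCongr e r ∈ R}

theorem fP_ker : (fP e R).ker = Subgroup.normalClosure (RP e R) := by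
  have h1 : (Subgroup.normalClosure (RP e R)).map (FreeGroup.freeGroupCongr e).toMonoidHom =
      Subgroup.normalClosure R := by
    have h0 := Subgroup.map_normalClosure (RP e R) (FreeGroup.freeGroupCongr e).toMonoidHom
      (FreeGroup.freeGroupCongr e).surjective
    refine h0.trans ?_
    congr 1
    ext r
    constructor
    · rintro ⟨s, hs, rfl⟩
      exact hs
    · intro hr
      refine ⟨(FreeGroup.freeGroupCongr e).symm r, ?_, MulEquiv.apply_symm_apply _ _⟩
      show FreeGroup.freeGroupCongr e ((FreeGroup.freeGroupCongr e).symm r) ∈ R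
      rw [MulEquiv.apply_symm_apply]
      exact hr
  ext x
  rw [MonoidHom.mem_ker]
  constructor
  · intro hx
    have h2 : FreeGroup.freeGroupCongr e x ∈ Subgroup.normalClosure R :=
      (PresentedGroup.mk_eq_one_iff).1 hx
    rw [← h1] at h2
    obtain ⟨y, hy, hyx⟩ := h2
    have : y = x := (FreeGroup.freeGroupCongr e).injective hyx
    rwa [← this]
  · intro hx
    have h2 : FreeGroup.freeGroupCongr e x ∈ Subgroup.normalClosure R := by
      rw [← h1]
      exact ⟨x, hx, rfl⟩
    exact (PresentedGroup.mk_eq_one_iff).2 h2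

/-- The letters of a relator. -/
def LtP [DecidableEq α] (lets : List (α × Bool)) (r : FreeGroup (Fin n)) : List ℕ :=
  toLetters lets (FreeGroup.freeGroupCongr e r)

theorem hLtP [DecidableEq α] (lets : List (α × Bool))
    (hcode : ∀ (j : Fin n) (b : Bool), letterOf lets (e j, b) = 2 * j.val + (if b then 0 else 1))
    (r : FreeGroup (Fin n)) : wordEl (ltr (gF n)) (LtP e lets r) = r := by
  have h := wordEl_toLetters' lets ((FreeGroup.freeGroupCongr e).symm.toMonoidHom) (ltr (gF n)) ?_
    (FreeGroup.freeGroupCongr e r)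
  · have h5 : (FreeGroup.freeGroupCongr e).symm.toMonoidHom (FreeGroup.freeGroupCongr e r) = r :=
      MulEquiv.symm_apply_apply _ _
    rw [h5] at h
    exact h
  · rintro ⟨x, b⟩
    obtain ⟨j, rfl⟩ := e.surjective x
    rw [hcode j b]
    have h2 : ((FreeGroup.freeGroupCongr e).symm.toMonoidHom (FreeGroup.of (e j))) = FreeGroup.of j := by
      simp [FreeGroup.freeGroupCongr]
    have hj : j.val < n := j.2
    cases b
    · have h3 : (2 * j.val + 1) / 2 = j.val := by omega
      have h4 : gF n j.val = FreeGroup.of j := by simp [gF]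
      simp only [eltF, Bool.false_eq_true, if_false, map_inv, h2]
      simp [ltr, h3, h4]
    · have h3 : (2 * j.val + 0) / 2 = j.val := by omega
      have h4 : gF n j.val = FreeGroup.of j := by simp [gF]
      simp only [eltF, if_true, h2]
      simp [ltr, h4]

theorem hLtPlt [DecidableEq α] (lets : List (α × Bool)) (hlen : lets.length = 2 * n)
    (hgens : ∀ a, (a, true) ∈ lets) (r : FreeGroup (Fin n)) : ∀ x ∈ LtP e lets r, x < 2 * n := by
  intro x hx
  have := toLetters_lt lets hgens _ x hx
  rwa [hlen] at this

theorem gP_gen (h : PresentedGroup R) : h ∈ Subgroup.closure (gP e R '' Set.Iio n) := by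
  obtain ⟨x, rfl⟩ := fP_surj e R h
  have hc : Subgroup.closure (gP e R '' Set.Iio n) = ⊤ ∨ True := Or.inr trivial
  have h1 : ∀ y : FreeGroup (Fin n), fP e R y ∈ Subgroup.closure (gP e R '' Set.Iio n) := by
    intro y
    induction y using FreeGroup.induction_on with
    | C1 => simp
    | of j =>
      rw [fP_of]
      exact Subgroup.subset_closure ⟨j.val, j.2, rfl⟩
    | inv_of j hj =>
      rw [map_inv]
      exact inv_mem hj
    | mul a b ha hb =>
      rw [map_mul]
      exact mul_mem ha hb
  exact h1 x

end Cfsg.Agent.Lib.Compute.PresTransfer
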