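import Cfsg.Agent.Lib.Compute.CoverCert

/-!
# Stem extensions over a perfect subgroup with a known multiplier

Let `Γ → G` be a stem extension, and `L` a perfect subgroup of `G` with a known multiplier `M`.  The commutator subgroup
of the preimage of `L` is a stem extension of `L`, whose kernel `K` is a quotient of `M`, and `Γ / K` has a section over `L`.
-/

set_option autoImplicit false

namespace Cfsg.Agent.Lib.Compute.StemQuot

open Cfsg Cfsg.Agent.Lib.Compute.SchurLin Cfsg.Agent.Lib.Compute.SchurU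

universe u v

variable {Γ G : Type u} [Group Γ] [Group G]

/-- The map induced on the quotient by a subgroup of the kernel. -/
theorem stem_quot {σ : Γ →* G} (hstem : IsStemExtension σ) (K : Subgroup Γ) [K.Normal]
    (hK : K ≤ σ.ker) : IsStemExtension (QuotientGroup.lift K σ (fun x hx => hK hx)) := by
  obtain ⟨hs, hc, hcomm⟩ := hstem
  have hkr : ∀ y : Γ ⧸ K, y ∈ (QuotientGroup.lift K σ (fun x hx => hK hx)).ker →
      ∃ x : Γ, x ∈ σ.ker ∧ (x : Γ ⧸ K) = y := by
    intro y hy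
    induction y using QuotientGroup.induction_on with
    | H x =>
      refine ⟨x, ?_, rfl⟩
      rw [MonoidHom.mem_ker] at hy ⊢
      simpa using hy
  refine ⟨?_, ?_, ?_⟩
  · intro g
    obtain ⟨x, rfl⟩ := hs g
    exact ⟨(x : Γ ⧸ K), by simp⟩
  · intro y hy
    obtain ⟨x, hx, rfl⟩ := hkr y hy
    rw [Subgroup.mem_center_iff]
    intro z
    induction z using QuotientGroup.induction_on with
    | H z =>
      have := Subgroup.mem_center_iff.mp (hc hx) z
      rw [← QuotientGroup.mk_mul, ← QuotientGroup.mk_mul, this]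
  · intro y hy
    obtain ⟨x, hx, rfl⟩ := hkr y hy
    have h1 : x ∈ commutator Γ := hcomm hx
    have h2 := Subgroup.mem_map_of_mem (QuotientGroup.mk' K) h1
    rw [commutator_def, Subgroup.map_commutator] at h2
    have h3 : (⊤ : Subgroup Γ).map (QuotientGroup.mk' K) = ⊤ := by
      rw [Subgroup.map_top_of_surjective _ (QuotientGroup.mk'_surjective K)]
    rw [h3] at h2
    exact h2

/-- Over a perfect subgroup `L` with multiplier `M`, a stem extension has a quotient by a central subgroup, which is a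
quotient of `M`, and this quotient has a section over `L`. -/
theorem exists_quot_section [Finite Γ] {M : Type v} [CommGroup M] {σ : Γ →* G} (hstem : IsStemExtension σ)
    (L : Subgroup G) (hL : commutator L = ⊤) (hM : HasSchurMultiplier L M) :
    ∃ (K : Subgroup Γ) (_ : K.Normal) (hK : K ≤ σ.ker), (∃ π : M →* K, Function.Surjective π) ∧
      ∃ s : L →* Γ ⧸ K, ∀ l, (QuotientGroup.lift K σ (fun x hx => hK hx)) (s l) = l := by
  obtain ⟨hs, hc, hcomm⟩ := hstem
  set E : Subgroup Γ := L.comap σ with hE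
  set D : Subgroup Γ := ⁅E, E⁆ with hD
  have hLL : ⁅L, L⁆ = L := by
    have h1 := Subgroup.map_subtype_commutator L
    rw [hL] at h1
    rw [← h1]
    ext x
    simp
  have hEmap : E.map σ = L := Subgroup.map_comap_eq_self_of_surjective hs L
  have hDmap : D.map σ = L := by
    rw [hD, Subgroup.map_commutator, hEmap, hLL]
  have hdec : ∀ e ∈ E, ∃ d ∈ D, ∃ z ∈ σ.ker, e = d * z := by
    intro e he
    have h1 : σ e ∈ D.map σ := by rw [hDmap]; exact he
    obtain ⟨d, hd, hde⟩ := h1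
    refine ⟨d, hd, d⁻¹ * e, ?_, by group⟩
    rw [MonoidHom.mem_ker, map_mul, map_inv, hde, inv_mul_cancel]
  have hDD : D ≤ ⁅D, D⁆ := by
    show ⁅E, E⁆ ≤ ⁅D, D⁆
    rw [Subgroup.commutator_le]
    intro a ha b hb
    obtain ⟨d, hd, z, hz, rfl⟩ := hdec a ha
    obtain ⟨f, hf, y, hy, rfl⟩ := hdec b hb
    rw [commutatorElement_def, comm_central_mul d f z y (hc hz) (hc hy)]
    have h5 := Subgroup.commutator_mem_commutator hd hf
    rwa [commutatorElement_def] at h5
  let τ : D →* L := (σ.comp D.subtype).codRestrict L (fun x => by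
    have : σ x ∈ D.map σ := ⟨x, x.2, rfl⟩
    rw [hDmap] at this
    exact this)
  have hτ : ∀ x, ((τ x : L) : G) = σ x := fun _ => rfl
  have hτs : Function.Surjective τ := by
    rintro ⟨l, hl⟩
    rw [← hDmap] at hl
    obtain ⟨d, hd, rfl⟩ := hl
    exact ⟨⟨d, hd⟩, Subtype.ext rfl⟩
  have hstemτ : IsStemExtension τ := by
    refine ⟨hτs, ?_, ?_⟩
    · intro x hx
      have h1 : σ (x : Γ) = 1 := congrArg Subtype.val (MonoidHom.mem_ker.mp hx)
      have h2 := Subgroup.mem_center_iff.mp (hc (MonoidHom.mem_ker.mpr h1))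
      rw [Subgroup.mem_center_iff]
      intro y
      apply Subtype.ext
      exact h2 y
    · have h1 : commutator D = ⊤ := by
        apply Subgroup.map_injective D.subtype_injective
        rw [Subgroup.map_subtype_commutator]
        ext x
        simp only [Subgroup.mem_map, Subgroup.mem_top, true_and, Subgroup.subtype_apply]
        constructor
        · intro hx
          exact ⟨⟨x, comm_le_self D hx⟩, rfl⟩
        · rintro ⟨y, rfl⟩
          exact hDD y.2
      rw [h1]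
      exact le_top
  obtain ⟨π, hπ⟩ := hM.2 D τ hstemτ
  -- the subgroup `K`
  let K : Subgroup Γ := τ.ker.map D.subtype
  have hKmem : ∀ x : Γ, x ∈ K ↔ ∃ h : x ∈ D, σ x = 1 := by
    intro x
    constructor
    · rintro ⟨y, hy, rfl⟩
      refine ⟨y.2, ?_⟩
      have := congrArg Subtype.val (MonoidHom.mem_ker.mp hy)
      exact this
    · rintro ⟨h, h1⟩
      exact ⟨⟨x, h⟩, MonoidHom.mem_ker.mpr (Subtype.ext h1), rfl⟩
  have hKker : K ≤ σ.ker := fun x hx => by
    obtain ⟨_, h⟩ := (hKmem x).1 hx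
    exact MonoidHom.mem_ker.mpr h
  have hKn : K.Normal := by
    refine ⟨fun x hx g => ?_⟩
    have := Subgroup.mem_center_iff.mp (hc (hKker hx)) g
    rw [this, mul_assoc, mul_inv_cancel, mul_one]
    exact hx
  refine ⟨K, hKn, hKker, ?_, ?_⟩
  · let e : τ.ker →* K :=
      (D.subtype.comp τ.ker.subtype).codRestrict K (fun x => ⟨x.1, x.2, rfl⟩)
    refine ⟨e.comp π, ?_⟩
    rintro ⟨x, y, hy, rfl⟩
    obtain ⟨m, hm⟩ := hπ ⟨y, hy⟩
    refine ⟨m, ?_⟩
    apply Subtype.ext
    show ((π m : τ.ker) : D).1 = _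
    rw [hm]
    rfl
  · -- the section
    let q : D →* Γ ⧸ K := (QuotientGroup.mk' K).comp D.subtype
    have hq : ∀ x ∈ τ.ker, q x = 1 := by
      intro x hx
      show ((x : Γ) : Γ ⧸ K) = 1
      rw [QuotientGroup.eq_one_iff]
      exact ⟨x, hx, rfl⟩
    let q' : D ⧸ τ.ker →* Γ ⧸ K := QuotientGroup.lift τ.ker q hq
    let e := QuotientGroup.quotientKerEquivOfSurjective τ hτs
    refine ⟨q'.comp e.symm.toMonoidHom, fun l => ?_⟩
    obtain ⟨x, rfl⟩ := hτs l
    have h1 : e.symm (τ x) = (x : D ⧸ τ.ker) := by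
      rw [MulEquiv.symm_apply_eq]
      rfl
    show (QuotientGroup.lift K σ (fun x hx => hKker hx)) (q' (e.symm (τ x))) = σ x
    rw [h1]
    rfl

/-- A surjection from a cyclic group. -/
theorem exists_surj_cyclic {B : Type*} [Group B] (hcomm : ∀ p q : B, p * q = q * p) {x : B} {a : ℕ} (hx : x ^ a = 1)
    (hgen : ∀ S : Subgroup B, x ∈ S → S = ⊤) :
    ∃ π : Multiplicative (ZMod a) →* B, Function.Surjective π := by
  let _ : CommGroup B := { (inferInstance : Group B) with mul_comm := hcomm }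
  let f : ℤ →+ Additive B := zmultiplesHom _ (Additive.ofMul x)
  have hf : f (a : ℤ) = 0 := by
    show (a : ℤ) • Additive.ofMul x = 0
    rw [natCast_zsmul, ← ofMul_pow, hx]
    rfl
  let F : ZMod a →+ Additive B := ZMod.lift a ⟨f, hf⟩
  have h1 : F 1 = Additive.ofMul x := by
    have h2 : (1 : ZMod a) = ((1 : ℤ) : ZMod a) := by simp
    rw [h2]
    show ZMod.lift a ⟨f, hf⟩ ((1 : ℤ) : ZMod a) = _
    rw [ZMod.lift_coe]
    show (1 : ℤ) • Additive.ofMul x = _
    simp
  refine ⟨AddMonoidHom.toMultiplicativeLeft F, ?_⟩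
  have hr := hgen (AddMonoidHom.toMultiplicativeLeft F).range ⟨Multiplicative.ofAdd 1, by
    show Additive.toMul (F 1) = x
    rw [h1]
    rfl⟩
  exact MonoidHom.range_eq_top.1 hr

/-- The cyclic group is generated by the image of `1`. -/
theorem gen_zmod (a : ℕ) (S : Subgroup (Multiplicative (ZMod a))) (h : Multiplicative.ofAdd (1 : ZMod a) ∈ S) : S = ⊤ := by
  rw [eq_top_iff]
  intro u _
  obtain ⟨k, hk⟩ := ZMod.intCast_surjective (Multiplicative.toAdd u)
  have : u = (Multiplicative.ofAdd (1 : ZMod a)) ^ k := by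
    rw [← ofAdd_zsmul]
    apply Multiplicative.toAdd.injective
    simp [← hk]
  rw [this]
  exact S.zpow_mem h k

/-- The kernel of a stem extension, from the kernels of a quotient. -/
theorem surj_of_quot {σ : Γ →* G} (hstem : IsStemExtension σ) (K : Subgroup Γ) [K.Normal] (hK : K ≤ σ.ker) {a b : ℕ}
    (hab : Nat.Coprime a b) (h1 : ∃ π : Multiplicative (ZMod a) →* K, Function.Surjective π)
    (h2 : ∃ π : Multiplicative (ZMod b) →* (QuotientGroup.lift K σ (fun x hx => hK hx)).ker, Function.Surjective π) :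
    ∃ π : Multiplicative (ZMod (a * b)) →* σ.ker, Function.Surjective π := by
  obtain ⟨hs, hc, hcomm⟩ := hstem
  obtain ⟨π₁, hπ₁⟩ := h1
  obtain ⟨π₂, hπ₂⟩ := h2
  have hcm : ∀ p q : σ.ker, p * q = q * p := fun p q =>
    Subtype.ext (Subgroup.mem_center_iff.mp (hc p.2) (q : Γ)).symm
  let _ : CommGroup σ.ker := { (inferInstance : Group σ.ker) with mul_comm := hcm }
  -- the inclusion of `K`
  let ι : K →* σ.ker := Subgroup.inclusion hK
  let z : σ.ker := ι (π₁ (Multiplicative.ofAdd 1))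
  have hKpow : ∀ w : σ.ker, (w : Γ) ∈ K → w ^ a = 1 := by
    intro w hw
    obtain ⟨u, hu⟩ := hπ₁ ⟨w, hw⟩
    have h3 : u ^ a = 1 := by
      apply Multiplicative.toAdd.injective
      simp
    have h4 : (⟨w, hw⟩ : K) ^ a = 1 := by rw [← hu, ← map_pow, h3, map_one]
    apply Subtype.ext
    have h5 := congrArg (fun v : K => (v : Γ)) h4
    simpa using h5
  have hza : z ^ a = 1 := hKpow z (π₁ (Multiplicative.ofAdd 1)).2
  -- the generator of the quotient
  obtain ⟨y, hy⟩ := QuotientGroup.mk'_surjective K ((π₂ (Multiplicative.ofAdd 1) :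
    (QuotientGroup.lift K σ (fun x hx => hK hx)).ker) : Γ ⧸ K)
  have hyker : y ∈ σ.ker := by
    have h3 := (π₂ (Multiplicative.ofAdd 1)).2
    rw [← hy, MonoidHom.mem_ker] at h3
    rw [MonoidHom.mem_ker]
    simpa using h3
  let y₀ : σ.ker := ⟨y, hyker⟩
  have hπpow : ∀ k : ℤ, ((π₂ ((Multiplicative.ofAdd (1 : ZMod b)) ^ k) :
      (QuotientGroup.lift K σ (fun x hx => hK hx)).ker) : Γ ⧸ K) = (((y₀ ^ k : σ.ker) : Γ) : Γ ⧸ K) := by
    intro k
    rw [map_zpow, Subgroup.coe_zpow, ← hy]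
    show ((y : Γ ⧸ K)) ^ k = (((y₀ ^ k : σ.ker) : Γ) : Γ ⧸ K)
    rw [Subgroup.coe_zpow, QuotientGroup.mk_zpow]
  have hstr : ∀ w : σ.ker, ∃ m : ℤ, ((w * y₀ ^ (-m) : σ.ker) : Γ) ∈ K := by
    intro w
    have hw : ((w : Γ) : Γ ⧸ K) ∈ (QuotientGroup.lift K σ (fun x hx => hK hx)).ker := by
      rw [MonoidHom.mem_ker]
      exact MonoidHom.mem_ker.mp w.2
    obtain ⟨u, hu⟩ := hπ₂ ⟨_, hw⟩
    obtain ⟨k, hk⟩ := ZMod.intCast_surjective (Multiplicative.toAdd u)
    have hu' : u = (Multiplicative.ofAdd (1 : ZMod b)) ^ k := by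
      rw [← ofAdd_zsmul]
      apply Multiplicative.toAdd.injective
      simp [← hk]
    refine ⟨k, ?_⟩
    have h3 := congrArg Subtype.val hu
    rw [hu'] at h3
    rw [hπpow] at h3
    rw [QuotientGroup.eq] at h3
    have h4 : ((w * y₀ ^ (-k) : σ.ker) : Γ) = (((y₀ ^ k)⁻¹ * w : σ.ker) : Γ) := by
      rw [zpow_neg, mul_comm]
    rw [h4]
    exact h3
  have hyb : ((y₀ ^ b : σ.ker) : Γ) ∈ K := by
    have h : (Multiplicative.ofAdd (1 : ZMod b)) ^ ((b : ℕ) : ℤ) = 1 := by
      rw [zpow_natCast, ← ofAdd_nsmul]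
      simp
    have h3 := hπpow (b : ℤ)
    rw [h, map_one, zpow_natCast] at h3
    rw [← QuotientGroup.eq_one_iff]
    exact h3.symm
  -- Bezout
  obtain ⟨u, v, huv⟩ := Nat.isCoprime_iff_coprime.2 hab
  have hy' : y₀ ^ ((a : ℤ) * u) * y₀ ^ ((b : ℤ) * v) = y₀ := by
    rw [← zpow_add]
    have : (a : ℤ) * u + b * v = 1 := by linarith
    rw [this, zpow_one]
  let y₁ : σ.ker := y₀ ^ ((a : ℤ) * u)
  have hy₁ : y₁ ^ b = 1 := by
    have h3 : y₁ ^ b = ((y₀ ^ b) ^ a) ^ u := by
      show (y₀ ^ ((a : ℤ) * u)) ^ b = _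
      rw [← zpow_natCast, ← zpow_mul, ← zpow_natCast y₀, ← zpow_natCast (y₀ ^ ((b : ℕ) : ℤ)), ← zpow_mul, ← zpow_mul]
      congr 1
      ring
    rw [h3, hKpow _ hyb, one_zpow]
  let x : σ.ker := y₁ * z
  have hx : x ^ (a * b) = 1 := by
    show (y₁ * z) ^ (a * b) = 1
    rw [mul_pow, mul_comm a b, pow_mul, hy₁, one_pow, one_mul, mul_comm b a, pow_mul, hza, one_pow]
  refine exists_surj_cyclic hcm hx (fun S hS => ?_)
  -- `z` lies in `S`
  have hz1 : z = x ^ ((v : ℤ) * b) := by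
    show z = (y₁ * z) ^ ((v : ℤ) * b)
    have h3 : y₁ ^ ((b : ℕ) : ℤ) = 1 := by rw [zpow_natCast, hy₁]
    have h4 : (v : ℤ) * b = 1 + a * (- u) := by linarith
    have h5 : y₁ ^ ((v : ℤ) * b) = 1 := by
      rw [mul_comm, zpow_mul, h3, one_zpow]
    rw [mul_zpow, h5, one_mul, h4, zpow_add, zpow_one, zpow_mul, zpow_natCast, hza, one_zpow, mul_one]
  have hzS : z ∈ S := by
    rw [hz1]
    exact S.zpow_mem hS _
  have hy₁S : y₁ ∈ S := by
    have : y₁ = x * z⁻¹ := by
      show y₁ = y₁ * z * z⁻¹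
      rw [mul_inv_cancel_right]
    rw [this]
    exact S.mul_mem hS (S.inv_mem hzS)
  have hKS : ∀ w : σ.ker, (w : Γ) ∈ K → w ∈ S := by
    have h3 : (S.comap (ι.comp π₁)) = ⊤ := gen_zmod a _ hzS
    intro w hw
    obtain ⟨u', hu'⟩ := hπ₁ ⟨w, hw⟩
    have h4 : u' ∈ S.comap (ι.comp π₁) := by rw [h3]; trivial
    have h5 : ι (π₁ u') = w := by
      rw [hu']
      rfl
    have h6 : ι (π₁ u') ∈ S := h4
    rwa [h5] at h6
  have hy₀S : y₀ ∈ S := by
    rw [← hy']
    refine S.mul_mem hy₁S (hKS _ ?_)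
    have h3 : y₀ ^ ((b : ℤ) * v) = (y₀ ^ b) ^ v := by
      rw [zpow_mul, zpow_natCast]
    rw [h3, Subgroup.coe_zpow]
    exact K.zpow_mem hyb v
  rw [eq_top_iff]
  intro w _
  obtain ⟨m, hm⟩ := hstr w
  have h3 := S.mul_mem (hKS _ hm) (S.zpow_mem hy₀S m)
  simpa using h3

end Cfsg.Agent.Lib.Compute.StemQuot
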