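import Cfsg.Agent.Lib.Compute.PresTransfer

/-!
# Words under an action of a presented group
-/

set_option autoImplicit false

namespace Cfsg.Agent.Lib.Compute.PresTransfer

open Cfsg.Agent.Lib.Compute.SchurLin Cfsg.Agent.Lib.Compute.CoverCert
open Cfsg.Agent.Lib.Compute.ToddCoxeterCore (wordEl wordEl_nil wordEl_cons wordEl_append)
open Cfsg.Agent.Lib.Compute.ToddCoxeterPresented (toLetters letterOf eltF wordEl_toLetters' toLetters_lt)

variable {α : Type} {n : ℕ} (e : Fin n ≃ α) (R : Set (FreeGroup α))

/-- The image of a word under an action given on the generators. -/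
theorem map_mk_eq {X : Type*} [Group X] [DecidableEq α] (lets : List (α × Bool))
    (hcode : ∀ (j : Fin n) (b : Bool), letterOf lets (e j, b) = 2 * j.val + (if b then 0 else 1))
    (ρ : PresentedGroup R →* X) (Y : ℕ → X) (hρ : ∀ j < n, ρ (gP e R j) = Y j) (r : FreeGroup α) :
    ρ (PresentedGroup.mk R r) = wordEl (ltr Y) (toLetters lets r) := by
  have h := wordEl_toLetters' lets (ρ.comp (PresentedGroup.mk R)) (ltr Y) ?_ r
  · exact h.symm
  · rintro ⟨x, b⟩
    obtain ⟨j, rfl⟩ := e.surjective x
    rw [hcode j b]
    have hj : j.val < n := j.2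
    have h2 : (ρ.comp (PresentedGroup.mk R)) (FreeGroup.of (e j)) = Y j.val := by
      rw [← hρ _ hj]
      show ρ (PresentedGroup.mk R (FreeGroup.of (e j))) = _
      congr 1
      simp [gP, hj, PresentedGroup.of]
    cases b
    · have h3 : (2 * j.val + 1) / 2 = j.val := by omega
      simp only [eltF, Bool.false_eq_true, if_false, map_inv, h2]
      simp [ltr, h3]
    · have h3 : (2 * j.val + 0) / 2 = j.val := by omega
      simp only [eltF, if_true, h2]
      simp [ltr]

end Cfsg.Agent.Lib.Compute.PresTransfer
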