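/-
Copies of the Janko group J₁ and of the Mathieu group M₁₁ in the presented O'Nan group: both groups are given by
presentations on two generators, checked by coset tables, and the action on 122760 points.
-/
import Cfsg.Agent.S1699
import Cfsg.Agent.Lib.Compute.AltEmbed
import Cfsg.Agent.Lib.Compute.SimpleCrit2
import Cfsg.Agent.Lib.Compute.TC.J1U.Final
import Cfsg.Agent.Lib.Compute.TC.J1A.Final
import Cfsg.Agent.Lib.Compute.TC.J1C.Chain
import Cfsg.Agent.Lib.Compute.TC.M11U.Final
import Cfsg.Agent.Lib.Compute.TC.M11A.Final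
import Cfsg.Agent.Lib.Compute.TC.M11C.Chain
import Cfsg.Agent.Lib.Compute.TC.ONSubD
import Cfsg.Prelude.Def_Sporadic

set_option autoImplicit false
set_option maxRecDepth 100000

namespace Cfsg.Agent.Lib.Compute.ONSub

open Cfsg.Agent.Lib.Compute.ToddCoxeterCore Cfsg.Agent.Lib.Compute.ToddCoxeterPresented
  Cfsg.Agent.Lib.Compute.TCFast Cfsg.Agent.Lib.Compute.TCChain
open Cfsg.Agent.Lib.Compute.TC

/-- A bound from a cyclic subgroup of finite index. -/
theorem cyc_bound {Γ : Type*} [Group Γ] (H : Subgroup Γ) (g : Γ) (hH : H ≤ Subgroup.zpowers g) {m : ℕ} (hm : 0 < m)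
    (hg : g ^ m = 1) {k : ℕ} (hk : H.index = k) (hk0 : k ≠ 0) : Finite Γ ∧ Nat.card Γ ≤ m * k := by
  have hfo : IsOfFinOrder g := isOfFinOrder_iff_pow_eq_one.2 ⟨m, hm, hg⟩
  haveI : Finite (Subgroup.zpowers g) := finite_zpowers.2 hfo
  have h1 : Nat.card H ≤ Nat.card (Subgroup.zpowers g) := Subgroup.card_le_of_le hH
  have h2 : Nat.card (Subgroup.zpowers g) = orderOf g := Nat.card_zpowers g
  have h3 : orderOf g ≤ m := orderOf_le_of_pow_eq_one hm hg
  haveI : Finite H := Finite.of_injective _ (Subgroup.inclusion_injective hH)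
  have h4 := Subgroup.card_mul_index H
  have h5 : 0 < Nat.card H := Nat.card_pos
  refine ⟨Nat.finite_of_card_ne_zero ?_, ?_⟩
  · rw [← h4, hk]
    exact Nat.mul_ne_zero h5.ne' hk0
  · rw [← h4, hk]
    exact Nat.mul_le_mul_right _ (by omega)

theorem hof_le {α : Type*} {R : Set (FreeGroup α)} (w : FreeGroup α) {Hs : List (FreeGroup α)}
    (hs : ∀ x ∈ Hs, x = w) : HOf R Hs ≤ Subgroup.zpowers (PresentedGroup.mk R w) := by
  rw [HOf, Subgroup.map_le_iff_le_comap, Subgroup.closure_le]
  intro x hx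
  rw [hs x hx]
  exact Subgroup.mem_zpowers _

/-- An injective hom from a simple group gives a simple subgroup. -/
theorem sub_simple {X H : Type*} [Group X] [Group H] [IsSimpleGroup X] (ψ : X →* H) (hψ : Function.Injective ψ) :
    IsSimpleGroup ψ.range ∧ Nat.card ψ.range = Nat.card X :=
  ⟨(MonoidHom.ofInjective hψ).symm.isSimpleGroup, (Nat.card_congr (MonoidHom.ofInjective hψ).toEquiv).symm⟩

/-! ### The O'Nan group -/

/-- the group -/
abbrev GO : Type := PresentedGroup ONT.RR

instance finO : Finite GO := Cfsg.Agent.S1699.finG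

/-- the letters of the table -/
noncomputable abbrev elO : ℕ → GO := elG ONT.D ONT.RR

theorem el_eqO (e1 e2 : PE) (h : eqOn (ev0 ONT.cfg) e1 e2 (0 :: ONC.ls.map (·.b)) = true) :
    e1.el elO = e2.el elO :=
  el_eq_of_base ONT.hR ONT.small ONT.big ONT.hgens Cfsg.Agent.S1699.inj.1 ONC.next0 ONC.ls ONC.fix0 ONC.chainOK
    Cfsg.Agent.S1699.leOrd e1 e2 h

/-- the involution -/
noncomputable abbrev aO : GO := ONSubD.aP.el elO

theorem aO_ne : aO ≠ 1 := by
  intro h
  have hp : (nat_lit 2) < ONT.cfg.N := by decide +kernel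
  have h1 := (ev0_ok ONT.hR ONT.small ONT.big ONT.hgens 2 ⟨_, hp⟩).1
  have h2 : elG ONT.D ONT.RR 2 = 1 := h
  beta_reduce at h1
  rw [h2, map_one] at h1
  have h3 : ev0 ONT.cfg 2 true (nat_lit 2) ≠ nat_lit 2 := by decide +kernel
  exact h3 h1

/-! ### The Janko group -/

namespace J1

/-- the group -/
abbrev GJ : Type := PresentedGroup J1A.RR

theorem rel_of_mem {r : FreeGroup (Fin 2)} (h : r ∈ J1Rel.rsP) : PresentedGroup.mk J1A.RR r = 1 :=
  PresentedGroup.one_of_mem h

theorem upG : Finite GJ ∧ Nat.card GJ ≤ 175560 := by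
  have hi : (HOf J1A.RR J1U.D.Hs).index = 25080 := J1U.index
  have h := cyc_bound (HOf J1A.RR J1U.D.Hs) (PresentedGroup.mk J1A.RR (J1Rel.a * J1Rel.b))
    (hof_le _ (by
      intro x hx
      have hx' : x ∈ J1Rel.hsU := hx
      simpa [J1Rel.hsU] using hx')) (m := 7) (by norm_num)
    (by
      rw [← map_pow]
      exact rel_of_mem (by simp [J1Rel.rsP])) hi (by norm_num)
  exact ⟨h.1, le_trans h.2 (by norm_num)⟩

instance finJ : Finite GJ := upG.1

theorem inj : Function.Injective (phiG J1A.hR J1A.small J1A.big J1A.hgens) ∧ Nat.card GJ = 175560 :=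
  phi_inj J1A.hR J1A.small J1A.big J1A.hgens (n := 175560) upG.2 J1C.next0 J1C.ls J1C.fix0 J1C.chainOK
    (le_of_eq J1C.prodEq.symm)

theorem leOrd : Nat.card GJ ≤ J1A.cfg.N * (J1C.ls.map (·.n)).prod :=
  le_of_eq (inj.2.trans J1C.prodEq.symm)

/-- The group has no subgroup of index two. -/
theorem no_index_two (L : Subgroup GJ) : L.index ≠ 2 := by
  intro h
  have sq : ∀ x : GJ, x * x ∈ L := fun x => Subgroup.mul_self_mem_of_index_two h x
  let A : GJ := PresentedGroup.mk J1A.RR J1Rel.a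
  let B : GJ := PresentedGroup.mk J1A.RR J1Rel.b
  have hB3 : B ^ 3 = 1 := by
    rw [← map_pow]
    exact rel_of_mem (by simp [J1Rel.rsP])
  have hAB7 : (A * B) ^ 7 = 1 := by
    rw [← map_mul, ← map_pow]
    exact rel_of_mem (by simp [J1Rel.rsP])
  have hB : B ∈ L := by
    have h1 : B = B ^ 2 * B ^ 2 := by
      calc B = B * B ^ 3 := by rw [hB3, mul_one]
        _ = B ^ 2 * B ^ 2 := by rw [← pow_succ', ← pow_add]
    have h2 := sq (B ^ 2)
    rwa [← h1] at h2
  have hAB : A * B ∈ L := by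
    have h1 : A * B = (A * B) ^ 4 * (A * B) ^ 4 := by
      calc A * B = (A * B) * (A * B) ^ 7 := by rw [hAB7, mul_one]
        _ = (A * B) ^ 4 * (A * B) ^ 4 := by rw [← pow_succ', ← pow_add]
    have h2 := sq ((A * B) ^ 4)
    rwa [← h1] at h2
  have hA : A ∈ L := by
    have h1 : A = (A * B) * B⁻¹ := by group
    rw [h1]
    exact mul_mem hAB (inv_mem hB)
  have htop : L = ⊤ := by
    rw [eq_top_iff, ← PresentedGroup.closure_range_of, Subgroup.closure_le]
    rintro _ ⟨i, rfl⟩
    fin_cases i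
    · exact hA
    · exact hB
  rw [htop, Subgroup.index_top] at h
  omega

theorem simple : IsSimpleGroup GJ := by
  obtain ⟨q, ⟨h0, h1, h2, h3, h4⟩, hd⟩ := J1A.orbitsAll
  refine Cfsg.Agent.Lib.Compute.SimpleCrit2.simple_of_base2 J1A.hR J1A.small J1A.big J1A.hgens inj.1 J1C.next0 J1C.ls J1C.fix0 J1C.chainOK
    leOrd (k := 5) q (fun d => List.getD [1, 132, 110, 12, 11] d 0) ?_ hd (by decide +kernel) (by decide) rfl
    (by intro d h h'; interval_cases d <;> decide) (by decide +kernel) no_index_two (p := 19) (a := 1) (b := 1) (by norm_num)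
    (by decide +kernel) ?_ J1C.rr J1C.rPow J1C.x0 (by decide +kernel) J1C.rNe J1C.ds J1C.dsOK
  · intro d hd'
    interval_cases d
    · exact h0
    · exact h1
    · exact h2
    · exact h3
    · exact h4
  · rw [inj.2]
    norm_num

/-- the element of order three -/
noncomputable abbrev bO : GO := ONSubD.bJ.el elO

theorem e1 : aO ^ 2 = 1 := by
  have h := el_eqO _ _ ONSubD.j1
  rw [PE.el_pw] at h
  exact h

theorem e2 : bO ^ 3 = 1 := by
  have h := el_eqO _ _ ONSubD.j2
  rw [PE.el_pw] at h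
  exact h

theorem e3 : (aO * bO) ^ 7 = 1 := by
  have h := el_eqO _ _ ONSubD.j3
  rw [PE.el_pw] at h
  exact h

theorem e4 : (aO * bO * (aO * bO * aO * bO⁻¹) ^ 3) ^ 5 = 1 := by
  have h := el_eqO _ _ ONSubD.j4
  simp only [PE.el_pw, PE.el, ONSubD.uJ] at h
  exact h

theorem e5 : (aO * bO * (aO * bO * aO * bO⁻¹) ^ 6 * aO * bO * aO * bO * (aO * bO⁻¹) ^ 2) ^ 2 = 1 := by
  have h := el_eqO _ _ ONSubD.j5
  simp only [PE.el_pw, PE.el, ONSubD.uJ] at h
  exact h

/-- the map -/
noncomputable def psi : GJ →* GO :=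
  PresentedGroup.toGroup (f := ![aO, bO]) (by
    intro r hr
    have hr' : r ∈ J1Rel.rsP := hr
    have l0 : FreeGroup.lift ![aO, bO] J1Rel.a = aO := by simp [J1Rel.a]
    have l1 : FreeGroup.lift ![aO, bO] J1Rel.b = bO := by simp [J1Rel.b]
    simp only [J1Rel.rsP, List.mem_cons, List.not_mem_nil, or_false] at hr'
    rcases hr' with rfl | rfl | rfl | rfl | rfl
    · simp only [map_pow, map_mul, map_inv, l0, l1]
      exact e1
    · simp only [map_pow, map_mul, map_inv, l0, l1]
      exact e2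
    · simp only [map_pow, map_mul, map_inv, l0, l1]
      exact e3
    · simp only [map_pow, map_mul, map_inv, l0, l1]
      exact e4
    · simp only [map_pow, map_mul, map_inv, l0, l1]
      exact e5)

theorem psi_inj : Function.Injective psi := by
  haveI := simple
  rw [← MonoidHom.ker_eq_bot_iff]
  rcases IsSimpleGroup.eq_bot_or_eq_top_of_normal psi.ker psi.normal_ker with h | h
  · exact h
  · exfalso
    have h2 : PresentedGroup.of 0 ∈ psi.ker := by
      rw [h]
      trivial
    rw [MonoidHom.mem_ker, psi, PresentedGroup.toGroup.of] at h2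
    exact aO_ne h2

end J1

/-! ### The Mathieu group -/

namespace M11

/-- the group -/
abbrev GM : Type := PresentedGroup M11A.RR

theorem rel_of_mem {r : FreeGroup (Fin 2)} (h : r ∈ M11Rel.rsP) : PresentedGroup.mk M11A.RR r = 1 :=
  PresentedGroup.one_of_mem h

theorem upG : Finite GM ∧ Nat.card GM ≤ 7920 := by
  have hi : (HOf M11A.RR M11U.D.Hs).index = 720 := M11U.index
  have h := cyc_bound (HOf M11A.RR M11U.D.Hs) (PresentedGroup.mk M11A.RR (M11Rel.a * M11Rel.b))
    (hof_le _ (by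
      intro x hx
      have hx' : x ∈ M11Rel.hsU := hx
      simpa [M11Rel.hsU] using hx')) (m := 11) (by norm_num)
    (by
      rw [← map_pow]
      exact rel_of_mem (by simp [M11Rel.rsP])) hi (by norm_num)
  exact ⟨h.1, le_trans h.2 (by norm_num)⟩

instance finM : Finite GM := upG.1

theorem inj : Function.Injective (phiG M11A.hR M11A.small M11A.big M11A.hgens) ∧ Nat.card GM = 7920 :=
  phi_inj M11A.hR M11A.small M11A.big M11A.hgens (n := 7920) upG.2 M11C.next0 M11C.ls M11C.fix0 M11C.chainOK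
    (le_of_eq M11C.prodEq.symm)

theorem leOrd : Nat.card GM ≤ M11A.cfg.N * (M11C.ls.map (·.n)).prod :=
  le_of_eq (inj.2.trans M11C.prodEq.symm)

theorem simple : IsSimpleGroup GM := by
  obtain ⟨q, ⟨h0, h1⟩, hd⟩ := M11A.orbitsAll
  refine simple_of_base M11A.hR M11A.small M11A.big M11A.hgens inj.1 M11C.next0 M11C.ls M11C.fix0 M11C.chainOK
    leOrd (k := 2) q (fun d => List.getD [1, 10] d 0) ?_ hd (by decide +kernel) (by decide) rfl
    (by intro d h h'; interval_cases d <;> decide) (by decide +kernel) (p := 11) (a := 1) (b := 1) (by norm_num)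
    (by decide +kernel) ?_ M11C.rr M11C.rPow M11C.x0 (by decide +kernel) M11C.rNe M11C.ds M11C.dsOK
  · intro d hd'
    interval_cases d
    · exact h0
    · exact h1
  · rw [inj.2]
    norm_num

/-- the element of order four -/
noncomputable abbrev bO : GO := ONSubD.bM.el elO

theorem e1 : aO ^ 2 = 1 := by
  have h := el_eqO _ _ ONSubD.m1
  rw [PE.el_pw] at h
  exact h

theorem e2 : bO ^ 4 = 1 := by
  have h := el_eqO _ _ ONSubD.m2
  rw [PE.el_pw] at h
  exact h

theorem e3 : (aO * bO) ^ 11 = 1 := by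
  have h := el_eqO _ _ ONSubD.m3
  rw [PE.el_pw] at h
  exact h

theorem e4 : (aO * bO ^ 2) ^ 6 = 1 := by
  have h := el_eqO _ _ ONSubD.m4
  simp only [PE.el_pw, PE.el] at h
  exact h

theorem e5 : aO * bO * aO * bO * aO * bO⁻¹ * aO * bO * aO * bO ^ 2 * aO * bO⁻¹ * aO * bO * aO * bO⁻¹ * aO * bO⁻¹ = 1 := by
  have h := el_eqO _ _ ONSubD.m5
  simp only [PE.el_pw, PE.el] at h
  exact h

/-- the map -/
noncomputable def psi : GM →* GO :=
  PresentedGroup.toGroup (f := ![aO, bO]) (by
    intro r hr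
    have hr' : r ∈ M11Rel.rsP := hr
    have l0 : FreeGroup.lift ![aO, bO] M11Rel.a = aO := by simp [M11Rel.a]
    have l1 : FreeGroup.lift ![aO, bO] M11Rel.b = bO := by simp [M11Rel.b]
    simp only [M11Rel.rsP, List.mem_cons, List.not_mem_nil, or_false] at hr'
    rcases hr' with rfl | rfl | rfl | rfl | rfl
    · simp only [map_pow, map_mul, map_inv, l0, l1]
      exact e1
    · simp only [map_pow, map_mul, map_inv, l0, l1]
      exact e2
    · simp only [map_pow, map_mul, map_inv, l0, l1]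
      exact e3
    · simp only [map_pow, map_mul, map_inv, l0, l1]
      exact e4
    · simp only [map_pow, map_mul, map_inv, l0, l1]
      exact e5)

theorem psi_inj : Function.Injective psi := by
  haveI := simple
  rw [← MonoidHom.ker_eq_bot_iff]
  rcases IsSimpleGroup.eq_bot_or_eq_top_of_normal psi.ker psi.normal_ker with h | h
  · exact h
  · exfalso
    have h2 : PresentedGroup.of 0 ∈ psi.ker := by
      rw [h]
      trivial
    rw [MonoidHom.mem_ker, psi, PresentedGroup.toGroup.of] at h2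
    exact aO_ne h2

end M11

/-- The statement. -/
theorem main : ∃ H : Subgroup (Equiv.Perm (Fin 122760)), Cfsg.IsON H ∧ MulAction.IsPretransitive H (Fin 122760) ∧
    Nat.card (MulAction.stabilizer H (0 : Fin 122760)) = 3753792 ∧ (∃ K : Subgroup H, Cfsg.IsJ1 K) ∧
    (∃ K : Subgroup H, Cfsg.IsM11 K) := by
  haveI : IsSimpleGroup GO := Cfsg.Agent.S1699.result.1
  have hcG : Nat.card GO = 460815505920 := Cfsg.Agent.S1699.inj.2
  let K0 : Subgroup GO := HOf ONT.RR ONT.D.Hs
  have hc : Nat.card K0 = 3753792 := by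
    have h1 := Subgroup.card_mul_index K0
    have h2 : K0.index = 122760 := ONT.index
    rw [h2, hcG] at h1
    omega
  obtain ⟨H, ⟨iso⟩, hp, ⟨st⟩⟩ := AltEmbed.exists_perm_rep K0.subtype K0.subtype_injective 122760
    (by rw [hc, hcG]) (by norm_num)
  refine ⟨H, ⟨iso.symm.isSimpleGroup, ?_⟩, hp, ?_, ?_, ?_⟩
  · rw [← Nat.card_congr iso.toEquiv]
    exact hcG
  · rw [Nat.card_congr st.toEquiv]
    exact hc
  · haveI := J1.simple
    have hi : Function.Injective (iso.toMonoidHom.comp J1.psi) := iso.injective.comp J1.psi_inj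
    obtain ⟨h1, h2⟩ := sub_simple _ hi
    exact ⟨_, h1, h2.trans J1.inj.2⟩
  · haveI := M11.simple
    have hi : Function.Injective (iso.toMonoidHom.comp M11.psi) := iso.injective.comp M11.psi_inj
    obtain ⟨h1, h2⟩ := sub_simple _ hi
    exact ⟨_, h1, h2.trans M11.inj.2⟩

end Cfsg.Agent.Lib.Compute.ONSub
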