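import Mathlib
import Cfsg.Agent.Lib.Compute.GFModel
import Cfsg.Agent.Lib.Compute.SLHom
import Cfsg.Agent.Lib.Compute.SmallField
import Cfsg.Agent.Lib.Compute.ConjCount
import Cfsg.Agent.Lib.PSL2.Basic

/-!
# `PSL₂(11)`: the subgroups isomorphic to `A₅`

The two classes of subgroups isomorphic to `A₅` of `PSL₂(11)`, from lists of codes of their preimages in `SL₂(11)`.
-/

set_option autoImplicit false

namespace Cfsg.Agent.Lib.Compute.PSL211

open Matrix
open scoped MatrixGroups Pointwise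
open Cfsg.Agent.Lib.Compute.GFModel Cfsg.Agent.Lib.Compute.SLHom Cfsg.Agent.Lib.Compute.ConjCount

/-- `11` is prime. -/
instance fact11 : Fact (Nat.Prime 11) := ⟨by norm_num⟩

/-- The field. -/
abbrev F := ZMod 11
/-- `SL₂(11)`. -/
abbrev S := SL(2, F)
/-- `PSL₂(11)`. -/
abbrev P := PSL(2, F)
/-- The `ℕ`-model of the field. -/
abbrev m11 : FieldModel F := zmodModel 11
/-- The quotient map. -/
abbrev pi : S →* P := Cfsg.Agent.Lib.PSL2.Basic.mkP

theorem hone : m11.enc 1 = 1 := rfl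

theorem enc_one : enc2 m11 (1 : S).1 = 1332 := by decide +kernel
theorem enc_neg_one : enc2 m11 (-1 : S).1 = 13320 := by decide +kernel

theorem two_ne : (2 : F) ≠ 0 := by decide

theorem card_S : Nat.card S = 1320 := by
  rw [Cfsg.Agent.Lib.PSL2.Basic.card_SL2, ZMod.card]
  norm_num

theorem card_P : Nat.card P = 660 := by
  have h : 2 * Nat.card P = Fintype.card F * (Fintype.card F ^ 2 - 1) :=
    Cfsg.Agent.Lib.PSL2.Basic.card_PSL2_of_two_ne_zero two_ne
  have h2 : Fintype.card F * (Fintype.card F ^ 2 - 1) = 1320 := by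
    rw [ZMod.card]
    norm_num
  rw [h2] at h
  omega

theorem center_iff {A : S} : A ∈ Subgroup.center S ↔ A = 1 ∨ A = -1 :=
  Cfsg.Agent.Lib.PSL2.Basic.mem_center_iff₂

theorem pi_eq_one_iff {A : S} : pi A = 1 ↔ A = 1 ∨ A = -1 :=
  Cfsg.Agent.Lib.PSL2.Basic.mkP_eq_one_iff

theorem pi_surjective : Function.Surjective pi := QuotientGroup.mk'_surjective _

theorem mem_map_pi {T : Subgroup S} (hc : Subgroup.center S ≤ T) {A : S} :
    pi A ∈ T.map pi ↔ A ∈ T := by
  constructor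
  · rintro ⟨B, hB, hAB⟩
    have h1 : B⁻¹ * A ∈ Subgroup.center S := QuotientGroup.eq.mp hAB
    have h2 : A = B * (B⁻¹ * A) := by group
    rw [h2]
    exact T.mul_mem hB (hc h1)
  · exact fun h => ⟨A, h, rfl⟩

/-- `x` is the code of `1` or `-1`. -/
def isPM (x : ℕ) : Bool := Nat.beq x 1332 || Nat.beq x 13320

theorem isPM_enc {A : S} (h : A = 1 ∨ A = -1) : isPM (enc2 m11 A.1) = true := by
  rcases h with rfl | rfl
  · rw [enc_one]; rfl
  · rw [enc_neg_one]; rfl

theorem eq_of_isPM {A : S} (h : isPM (enc2 m11 A.1) = true) : A = 1 ∨ A = -1 := by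
  simp only [isPM, Bool.or_eq_true] at h
  rcases h with h | h
  · left
    apply Subtype.ext
    apply enc2_injective (m := m11)
    rw [enc_one]
    simpa [Nat.beq_eq] using h
  · right
    apply Subtype.ext
    apply enc2_injective (m := m11)
    rw [enc_neg_one]
    simpa [Nat.beq_eq] using h

/-- A valid code is the code of an element. -/
theorem exists_of_valid {c : ℕ} (h : valid2 m11 1 c = true) : ∃ A : S, enc2 m11 A.1 = c :=
  ⟨⟨dec2 m11 c, det_dec2 hone h⟩, enc2_dec2 h⟩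

theorem enc_mul (A B : S) : enc2 m11 (A * B).1 = mul2N m11 (enc2 m11 A.1) (enc2 m11 B.1) :=
  enc2_mul A.1 B.1

/-- Negation on codes. -/
def neg11 (a : ℕ) : ℕ := (11 - a) % 11

/-- The inverse of a code. -/
def inv11 (x : ℕ) : ℕ :=
  let x1 := x / 11
  let x2 := x1 / 11
  let a := x % 11
  let b := x1 % 11
  let c := x2 % 11
  let d := x2 / 11
  d + 11 * (neg11 b + 11 * (neg11 c + 11 * a))

private theorem mod_aux {a b : ℕ} (ha : a < 11) : (a + 11 * b) % 11 = a := by omega
private theorem div_aux {a b : ℕ} (ha : a < 11) : (a + 11 * b) / 11 = b := by omega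

theorem enc_inv (A : S) : enc2 m11 (A⁻¹).1 = inv11 (enc2 m11 A.1) := by
  have hl : ∀ x : ZMod 11, x.val < 11 := fun x => ZMod.val_lt x
  have hneg : ∀ x : ZMod 11, (-x).val = neg11 x.val := by decide
  change ((A⁻¹).1 0 0).val + 11 * (((A⁻¹).1 0 1).val + 11 * (((A⁻¹).1 1 0).val + 11 * ((A⁻¹).1 1 1).val)) =
    inv11 ((A.1 0 0).val + 11 * ((A.1 0 1).val + 11 * ((A.1 1 0).val + 11 * (A.1 1 1).val)))
  simp only [Cfsg.Agent.Lib.PSL2.Basic.inv_00, Cfsg.Agent.Lib.PSL2.Basic.inv_01,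
    Cfsg.Agent.Lib.PSL2.Basic.inv_10, Cfsg.Agent.Lib.PSL2.Basic.inv_11, hneg, inv11,
    mod_aux (hl _), div_aux (hl _)]

/-- The checks on a list of codes of a subgroup and its index-5 subgroup. -/
def checkL (L L4 : List ℕ) : Bool :=
  checkClosed m11 1 L (maskOf L) && checkClosed m11 1 L4 (maskOf L4) &&
    Nat.beq L.length 120 && Nat.beq L4.length 24 &&
    (maskOf L).testBit 1332 && (maskOf L).testBit 13320 &&
    (maskOf L4).testBit 1332 && (maskOf L4).testBit 13320 &&
    L4.all (fun x => (maskOf L).testBit x) &&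
    L.all (fun x => isPM x || L.any (fun g => L4.all (fun y =>
      !Nat.beq (mul2N m11 g y) (mul2N m11 x g))))

/-- A checked pair of lists. -/
structure LData where
  /-- the codes of the subgroup -/
  L : List ℕ
  /-- the codes of the subgroup of index 5 -/
  L4 : List ℕ
  /-- the certificate -/
  chk : checkL L L4 = true

namespace LData

variable (D : LData)

theorem facts :
    (checkClosed m11 1 D.L (maskOf D.L) = true ∧ checkClosed m11 1 D.L4 (maskOf D.L4) = true) ∧
    D.L.length = 120 ∧ D.L4.length = 24 ∧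
    1332 ∈ D.L ∧ 13320 ∈ D.L ∧ 1332 ∈ D.L4 ∧ 13320 ∈ D.L4 ∧ (∀ x ∈ D.L4, x ∈ D.L) ∧
    (∀ x ∈ D.L, isPM x = true ∨ ∃ g ∈ D.L, ∀ y ∈ D.L4, mul2N m11 g y ≠ mul2N m11 x g) := by
  have h := D.chk
  simp only [checkL, Bool.and_eq_true, List.all_eq_true, Bool.or_eq_true, List.any_eq_true,
    Bool.not_eq_true'] at h
  obtain ⟨⟨⟨⟨⟨⟨⟨⟨⟨h1, h2⟩, h3⟩, h4⟩, h5⟩, h6⟩, h7⟩, h8⟩, h9⟩, h10⟩ := h
  refine ⟨⟨h1, h2⟩, Nat.eq_of_beq_eq_true h3, Nat.eq_of_beq_eq_true h4, mem_of_testBit_maskOf _ _ h5, mem_of_testBit_maskOf _ _ h6,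
    mem_of_testBit_maskOf _ _ h7, mem_of_testBit_maskOf _ _ h8,
    fun x hx => mem_of_testBit_maskOf _ _ (h9 x hx), ?_⟩
  intro x hx
  rcases h10 x hx with h | ⟨g, hg, hy⟩
  · exact Or.inl h
  · refine Or.inr ⟨g, hg, fun y hy' heq => ?_⟩
    have := hy y hy'
    rw [heq] at this
    simp at this

theorem closed : D.L.Nodup ∧ (∀ x ∈ D.L, valid2 m11 1 x = true) ∧
    (∀ x ∈ D.L, ∀ y ∈ D.L, mul2N m11 x y ∈ D.L) := of_checkClosed m11 D.facts.1.1

theorem closed4 : D.L4.Nodup ∧ (∀ x ∈ D.L4, valid2 m11 1 x = true) ∧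
    (∀ x ∈ D.L4, ∀ y ∈ D.L4, mul2N m11 x y ∈ D.L4) := of_checkClosed m11 D.facts.1.2

theorem len : D.L.length = 120 := D.facts.2.1
theorem len4 : D.L4.length = 24 := D.facts.2.2.1
theorem one_mem : 1332 ∈ D.L := D.facts.2.2.2.1
theorem neg_one_mem : 13320 ∈ D.L := D.facts.2.2.2.2.1
theorem one_mem4 : 1332 ∈ D.L4 := D.facts.2.2.2.2.2.1
theorem neg_one_mem4 : 13320 ∈ D.L4 := D.facts.2.2.2.2.2.2.1
theorem sub : ∀ x ∈ D.L4, x ∈ D.L := D.facts.2.2.2.2.2.2.2.1
theorem core : ∀ x ∈ D.L, isPM x = true ∨ ∃ g ∈ D.L, ∀ y ∈ D.L4, mul2N m11 g y ≠ mul2N m11 x g :=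
  D.facts.2.2.2.2.2.2.2.2

/-- The preimage in `SL₂(11)` of the subgroup. -/
def Ht : Subgroup S := sl2OfList m11 D.L (by rw [enc_one]; exact D.one_mem) D.closed.2.2

/-- The preimage in `SL₂(11)` of the subgroup of index 5. -/
def Ht4 : Subgroup S := sl2OfList m11 D.L4 (by rw [enc_one]; exact D.one_mem4) D.closed4.2.2

theorem mem_Ht {A : S} : A ∈ D.Ht ↔ enc2 m11 A.1 ∈ D.L := Iff.rfl
theorem mem_Ht4 {A : S} : A ∈ D.Ht4 ↔ enc2 m11 A.1 ∈ D.L4 := Iff.rfl

theorem center_le : Subgroup.center S ≤ D.Ht := by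
  intro A hA
  rcases center_iff.mp hA with rfl | rfl
  · exact D.Ht.one_mem
  · rw [mem_Ht, enc_neg_one]; exact D.neg_one_mem

theorem center_le4 : Subgroup.center S ≤ D.Ht4 := by
  intro A hA
  rcases center_iff.mp hA with rfl | rfl
  · exact D.Ht4.one_mem
  · rw [mem_Ht4, enc_neg_one]; exact D.neg_one_mem4

theorem card_Ht : Nat.card D.Ht = 120 := by
  rw [Ht, card_sl2OfList (m := m11) _ _ hone D.closed.2.1 D.closed.1, D.len]

theorem card_Ht4 : Nat.card D.Ht4 = 24 := by
  rw [Ht4, card_sl2OfList (m := m11) _ _ hone D.closed4.2.1 D.closed4.1, D.len4]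

/-- The subgroup of `PSL₂(11)`. -/
def H : Subgroup P := D.Ht.map pi

/-- Its subgroup of index 5. -/
def H4 : Subgroup P := D.Ht4.map pi

theorem mem_H {A : S} : pi A ∈ D.H ↔ A ∈ D.Ht := mem_map_pi D.center_le
theorem mem_H4 {A : S} : pi A ∈ D.H4 ↔ A ∈ D.Ht4 := mem_map_pi D.center_le4

theorem H4_le : D.H4 ≤ D.H := by
  refine Subgroup.map_mono ?_
  intro A hA
  exact D.sub _ hA

theorem index_Ht : D.Ht.index = 11 := by
  have h := Subgroup.index_mul_card D.Ht
  rw [card_S, D.card_Ht] at h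
  omega

theorem index_Ht4 : D.Ht4.index = 55 := by
  have h := Subgroup.index_mul_card D.Ht4
  rw [card_S, D.card_Ht4] at h
  omega

theorem index_H : D.H.index = 11 := by
  exact (Cfsg.Agent.Lib.Compute.SmallField.index_map_mk_center D.Ht D.center_le).trans D.index_Ht

theorem index_H4 : D.H4.index = 55 := by
  exact (Cfsg.Agent.Lib.Compute.SmallField.index_map_mk_center D.Ht4 D.center_le4).trans D.index_Ht4

theorem card_H : Nat.card D.H = 60 := by
  have h := Subgroup.index_mul_card D.H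
  rw [card_P, D.index_H] at h
  omega

theorem card_H4 : Nat.card D.H4 = 12 := by
  have h := Subgroup.index_mul_card D.H4
  rw [card_P, D.index_H4] at h
  omega

/-- The subgroup is isomorphic to `A₅`. -/
theorem equiv_a5 : Nonempty (D.H ≃* alternatingGroup (Fin 5)) := by
  have hK : (D.H4.subgroupOf D.H).index = 5 := by
    have h1 := Subgroup.index_mul_card (D.H4.subgroupOf D.H)
    rw [D.card_H, Nat.card_congr (Subgroup.subgroupOfEquivOfLe D.H4_le).toEquiv, D.card_H4] at h1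
    omega
  refine equiv_alternating_of_faithful (D.H4.subgroupOf D.H) 5 hK (by rw [D.card_H]; decide) ?_
  rintro ⟨x, hx⟩ hall
  obtain ⟨X, hX, rfl⟩ := hx
  rcases D.core _ hX with h | ⟨g, hg, hy⟩
  · have h1 := eq_of_isPM h
    apply Subtype.ext
    exact pi_eq_one_iff.mpr h1
  · exfalso
    obtain ⟨G, rfl⟩ := exists_of_valid (D.closed.2.1 g hg)
    have hGH : pi G ∈ D.H := D.mem_H.mpr hg
    have h1 := hall ⟨pi G, hGH⟩
    have h2 : pi (G⁻¹ * X * G) ∈ D.H4 := by
      have h3 := Subgroup.mem_subgroupOf.mp h1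
      simpa using h3
    have h3 := D.mem_H4.mp h2
    apply hy _ h3
    have h5 : G * (G⁻¹ * X * G) = X * G := by group
    rw [← enc_mul, ← enc_mul, h5]

end LData


/-- Codes of the first binary icosahedral subgroup. -/
def LH : List ℕ := [231, 297, 440, 572, 627, 825, 880, 1012, 1155, 1221, 1332, 1465, 1693, 1740, 1850, 2037, 2144, 2254, 2397, 2477, 2573, 2668, 2887, 2971, 3063, 3206, 3316, 3411, 3598, 3708, 3767, 3983, 3997, 4133, 4352, 4408, 4518, 4705, 4803, 4913, 5056, 5145, 5232, 5327, 5462, 5684, 5737, 5847, 6034, 6135, 6245, 6388, 6474, 6564, 6664, 6794, 7009, 7069, 7179, 7366, 7460, 7570, 7713, 7806, 7889, 7988, 8215, 8298, 8391, 8534, 8644, 8738, 8925, 9035, 9095, 9310, 9325, 9540, 9630, 9716, 9859, 9969, 10070, 10257, 10367, 10420, 10642, 10655, 10872, 10959, 11048, 11191, 11301, 11399, 11586, 11696, 11752, 11971, 11984, 12121, 12337, 12396, 12506, 12693, 12788, 12898, 13041, 13133, 13217, 13320, 13531, 13627, 13707, 13850, 13960, 14067,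 14254, 14364, 14411, 14639]
/-- Codes of a binary tetrahedral subgroup of the first one. -/
def LH4 : List ℕ := [627, 825, 1332, 2254, 4352, 4705, 5056, 5684, 5847, 6388, 6474, 7179, 7806, 8298, 8925, 9630, 9716, 10257, 10420, 11048, 11399, 11752, 13320, 13850]
/-- Codes of the second binary icosahedral subgroup. -/
def LK : List ℕ := [231, 297, 440, 572, 627, 825, 880, 1012, 1155, 1221, 1332, 1561, 1641, 1737, 1880, 1990, 2081, 2268, 2378, 2441, 2653, 2668, 2795, 3019, 3070, 3180, 3367, 3470, 3580, 3723, 3807, 3899, 3997, 4220, 4309, 4396, 4539, 4649, 4749, 4936, 5046, 5100, 5321, 5327, 5552, 5638, 5728, 5871, 5981, 6078, 6265, 6375, 6432, 6650, 6664, 6877, 6970, 7053, 7196, 7306, 7410, 7597, 7707, 7757, 7982, 7988, 8122, 8347, 8397, 8507, 8694, 8798, 8908, 9051, 9134, 9227, 9325, 9454, 9672, 9729, 9839, 10026, 10123, 10233, 10376, 10466, 10552, 10655, 10783, 11004, 11058, 11168, 11355, 11455, 11565, 11708, 11795, 11884, 11984, 12205, 12297, 12381,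 12524, 12634, 12737, 12924, 13034, 13085, 13309, 13320, 13451, 13663, 13726, 13836, 14023, 14114, 14224, 14367, 14463, 14543]
/-- Codes of a binary tetrahedral subgroup of the second one. -/
def LK4 : List ℕ := [440, 1012, 1332, 2441, 4220, 4539, 5046, 5552, 5638, 5871, 6650, 6970, 7982, 8122, 9134, 9454, 10233, 10466, 10552, 11058, 11565, 11884, 13320, 13663]
/-- The code of the diagonal element of order 5 (modulo the centre). -/
def y0 : ℕ := 5327
/-- An element of order 4 of the first list. -/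
def tH : ℕ := 14411
/-- An element of order 4 of the second list. -/
def tK : ℕ := 14543
/-- An element outside the first subgroup. -/
def g0 : ℕ := 2552
/-- A transversal of the double coset. -/
def T0 : List ℕ := [297, 627, 880, 1012, 1221, 1850, 3411, 3708, 13850, 13960]

/-- The first pair of lists. -/
def DH : LData := ⟨LH, LH4, by decide +kernel⟩

/-- The second pair of lists. -/
def DK : LData := ⟨LK, LK4, by decide +kernel⟩

theorem testBit_maskOf_of_mem : ∀ (L : List ℕ) (n : ℕ), n ∈ L → (maskOf L).testBit n = true := by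
  intro L
  induction L with
  | nil => intro n h; simp at h
  | cons x l ih =>
    intro n h
    simp only [maskOf]
    have : (Nat.lor (Nat.shiftLeft 1 x) (maskOf l)) = (1 <<< x) ||| maskOf l := rfl
    rw [this, Nat.testBit_or, Bool.or_eq_true]
    rcases List.mem_cons.mp h with rfl | h
    · left
      rw [Nat.one_shiftLeft, Nat.testBit_two_pow]
      simp
    · exact Or.inr (ih n h)

/-- The checks over all of `SL₂(11)`. -/
def checkAll (a : ℕ) : Bool :=
  (!isPM (mul2N m11 a a) || isPM a ||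
      !isPM (mul2N m11 (mul2N m11 (mul2N m11 y0 a) (mul2N m11 y0 a)) (mul2N m11 y0 a)) ||
      (maskOf LH).testBit a || (maskOf LK).testBit a) &&
    ([y0, tH].any (fun x => !(maskOf LK).testBit (mul2N m11 (mul2N m11 a x) (inv11 a)))) &&
    ((maskOf LH).testBit a ||
      [y0, tH].any (fun x => !(maskOf LH).testBit (mul2N m11 (mul2N m11 a x) (inv11 a)))) &&
    ((maskOf LK).testBit a ||
      [y0, tK].any (fun x => !(maskOf LK).testBit (mul2N m11 (mul2N m11 a x) (inv11 a)))) &&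
    ((maskOf LH).testBit a ||
      T0.any (fun s => (maskOf LH).testBit (mul2N m11 (inv11 (mul2N m11 s g0)) a)))

theorem all_check : (List.range (m11.q ^ 4)).all (fun x => !valid2 m11 1 x || checkAll x) = true := by
  decide +kernel

theorem check_spec (A : S) : checkAll (enc2 m11 A.1) = true := forall_sl2 hone all_check A

/-- The diagonal element of order 5. -/
def Y : S := ⟨!![3, 0; 0, 4], by decide +kernel⟩

theorem enc_Y : enc2 m11 Y.1 = y0 := by decide +kernel

theorem Y_pow : Y ^ 5 = 1 := by decide +kernel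

theorem Y_ne : ¬ (Y = 1 ∨ Y = -1) := by decide +kernel

theorem order_Y : orderOf (pi Y) = 5 := by
  have : Fact (Nat.Prime 5) := ⟨by norm_num⟩
  refine orderOf_eq_prime (by rw [← map_pow, Y_pow, map_one]) ?_
  intro h
  exact Y_ne (pi_eq_one_iff.mp h)

theorem Y_mem_H : pi Y ∈ DH.H := DH.mem_H.mpr (by
  rw [LData.mem_Ht, enc_Y]
  change y0 ∈ LH
  decide +kernel)

theorem Y_mem_K : pi Y ∈ DK.H := DK.mem_H.mpr (by
  rw [LData.mem_Ht, enc_Y]
  change y0 ∈ LK
  decide +kernel)

theorem mem_of_testBit (D : LData) {A : S} (h : (maskOf D.L).testBit (enc2 m11 A.1) = true) :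
    pi A ∈ D.H := D.mem_H.mpr (mem_of_testBit_maskOf _ _ h)

theorem classify (t : P) (h1 : t ^ 2 = 1) (h2 : t ≠ 1) (h3 : (pi Y * t) ^ 3 = 1) :
    t ∈ DH.H ∨ t ∈ DK.H := by
  obtain ⟨A, rfl⟩ := pi_surjective t
  have h := check_spec A
  simp only [checkAll, Bool.and_eq_true, Bool.or_eq_true] at h
  have e1 : isPM (mul2N m11 (enc2 m11 A.1) (enc2 m11 A.1)) = true := by
    rw [← enc_mul]
    apply isPM_enc
    apply pi_eq_one_iff.mp
    rw [map_mul, ← sq, h1]
  have e2 : isPM (enc2 m11 A.1) ≠ true := by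
    intro h0
    exact h2 (pi_eq_one_iff.mpr (eq_of_isPM h0))
  have e3 : isPM (mul2N m11 (mul2N m11 (mul2N m11 y0 (enc2 m11 A.1)) (mul2N m11 y0 (enc2 m11 A.1)))
      (mul2N m11 y0 (enc2 m11 A.1))) = true := by
    rw [← enc_Y, ← enc_mul, ← enc_mul, ← enc_mul]
    apply isPM_enc
    apply pi_eq_one_iff.mp
    rw [map_mul, map_mul, map_mul, ← h3]
    simp only [pow_succ, pow_zero, one_mul]
  rcases h.1.1.1.1 with (((h0 | h0) | h0) | h0) | h0
  · rw [e1] at h0; exact absurd h0 (by decide)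
  · exact absurd h0 e2
  · rw [e3] at h0; exact absurd h0 (by decide)
  · exact Or.inl (mem_of_testBit DH h0)
  · exact Or.inr (mem_of_testBit DK h0)

theorem conj_contra (D1 D2 : LData) (gs : List ℕ) (hgs : ∀ x ∈ gs, x ∈ D1.L) (A : S)
    (h : gs.any (fun x => !(maskOf D2.L).testBit
      (mul2N m11 (mul2N m11 (enc2 m11 A.1) x) (inv11 (enc2 m11 A.1)))) = true) :
    MulAut.conj (pi A) • D1.H ≠ D2.H := by
  intro heq
  obtain ⟨x, hx, hb⟩ := List.any_eq_true.mp h
  obtain ⟨X, rfl⟩ := exists_of_valid (D1.closed.2.1 x (hgs x hx))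
  have h1 : pi X ∈ D1.H := D1.mem_H.mpr (hgs _ hx)
  have h2 : pi (A * X * A⁻¹) ∈ D2.H := by
    rw [← heq, mem_conj_smul]
    have h3 : (pi A)⁻¹ * pi (A * X * A⁻¹) * pi A = pi X := by
      rw [map_mul, map_mul, map_inv]
      group
    rw [h3]
    exact h1
  have h3 := D2.mem_H.mp h2
  have h4 := testBit_maskOf_of_mem _ _ (D2.mem_Ht.mp h3)
  rw [enc_mul, enc_mul, enc_inv] at h4
  rw [h4] at hb
  simp at hb

theorem tH_mem : tH ∈ LH := by decide +kernel
theorem tK_mem : tK ∈ LK := by decide +kernel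
theorem y0_memH : y0 ∈ LH := by decide +kernel
theorem y0_memK : y0 ∈ LK := by decide +kernel
theorem T0_sub : ∀ s ∈ T0, s ∈ LH := by decide +kernel

private theorem gensH_sub : ∀ x ∈ [y0, tH], x ∈ DH.L := by
  intro x hx
  rcases List.mem_cons.mp hx with rfl | hx
  · exact y0_memH
  · rcases List.mem_cons.mp hx with rfl | hx
    · exact tH_mem
    · simp at hx

private theorem gensK_sub : ∀ x ∈ [y0, tK], x ∈ DK.L := by
  intro x hx
  rcases List.mem_cons.mp hx with rfl | hx
  · exact y0_memK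
  · rcases List.mem_cons.mp hx with rfl | hx
    · exact tK_mem
    · simp at hx

/-- The two classes are different. -/
theorem not_conj (g : P) : MulAut.conj g • DH.H ≠ DK.H := by
  obtain ⟨A, rfl⟩ := pi_surjective g
  have hc := check_spec A
  simp only [checkAll, Bool.and_eq_true] at hc
  exact conj_contra DH DK [y0, tH] gensH_sub A hc.1.1.1.2

/-- `H` is self-normalizing. -/
theorem norm_H (g : P) (h : MulAut.conj g • DH.H = DH.H) : g ∈ DH.H := by
  obtain ⟨A, rfl⟩ := pi_surjective g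
  have hc := check_spec A
  simp only [checkAll, Bool.and_eq_true] at hc
  rcases (Bool.or_eq_true _ _).mp hc.1.1.2 with h0 | h0
  · exact mem_of_testBit DH h0
  · exact absurd h (conj_contra DH DH [y0, tH] gensH_sub A h0)

/-- `K` is self-normalizing. -/
theorem norm_K (g : P) (h : MulAut.conj g • DK.H = DK.H) : g ∈ DK.H := by
  obtain ⟨A, rfl⟩ := pi_surjective g
  have hc := check_spec A
  simp only [checkAll, Bool.and_eq_true] at hc
  rcases (Bool.or_eq_true _ _).mp hc.1.2 with h0 | h0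
  · exact mem_of_testBit DK h0
  · exact absurd h (conj_contra DK DK [y0, tK] gensK_sub A h0)

/-- Every subgroup isomorphic to `A₅` is conjugate to `H` or `K`. -/
theorem cov (L : Subgroup P) (hL : Nonempty (L ≃* alternatingGroup (Fin 5))) :
    ∃ g : P, MulAut.conj g • L = DH.H ∨ MulAut.conj g • L = DK.H := by
  obtain ⟨e⟩ := hL
  have hcardL : Nat.card L = 60 := by rw [Nat.card_congr e.toEquiv, card_alt5]
  have : Fact (Nat.Prime 5) := ⟨by norm_num⟩
  have : Fact (Nat.Prime 2) := ⟨by norm_num⟩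
  have : Fact (Nat.Prime 3) := ⟨by norm_num⟩
  obtain ⟨z, hz⟩ := exists_prime_orderOf_dvd_card' (G := L) 5 (by rw [hcardL]; norm_num)
  have hz' : orderOf (z : P) = 5 := by rw [Subgroup.orderOf_coe, hz]
  obtain ⟨g, hg⟩ := exists_conj_of_order 5 132 (by rw [card_P]) (by norm_num) (pi Y) (z : P)
    order_Y hz' L z.2
  let e' : (MulAut.conj g • L : Subgroup P) ≃* alternatingGroup (Fin 5) :=
    (Subgroup.equivSMul (MulAut.conj g) L).symm.trans e
  obtain ⟨t, htL, ht2, ht1, hyt3, hyt1⟩ := a5_exists _ e' (pi Y) hg order_Y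
  have hcardL' : Nat.card (MulAut.conj g • L : Subgroup P) = 60 := by
    rw [Nat.card_congr e'.toEquiv, card_alt5]
  have ord2 : orderOf t = 2 := orderOf_eq_prime ht2 ht1
  have ord3 : orderOf (pi Y * t) = 3 := orderOf_eq_prime hyt3 hyt1
  refine ⟨g, ?_⟩
  have key : ∀ D : LData, pi Y ∈ D.H → t ∈ D.H → MulAut.conj g • L = D.H := by
    intro D hy ht
    have hle := a5_le _ D.H e' (pi Y) t (pi Y * t) hg htL (Subgroup.mul_mem _ hg htL) hy ht
      (D.H.mul_mem hy ht) order_Y ord2 ord3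
    exact Subgroup.eq_of_le_of_card_ge hle (by rw [D.card_H, hcardL'])
  rcases classify t ht2 ht1 hyt3 with h | h
  · exact Or.inl (key DH Y_mem_H h)
  · exact Or.inr (key DK Y_mem_K h)

/-- The conjugacy data in `PSL₂(11)`. -/
theorem classes : TwoClasses P (alternatingGroup (Fin 5)) DH.H DK.H :=
  ⟨DH.equiv_a5, DK.equiv_a5, not_conj, cov, norm_H, norm_K⟩

/-- An element outside `H`. -/
def G0 : S := ⟨!![0, 1; 10, 1], by decide +kernel⟩

theorem enc_G0 : enc2 m11 G0.1 = g0 := by decide +kernel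

/-- `PSL₂(11) = H ∪ H g H`. -/
theorem double_coset (x : P) (hx : x ∉ DH.H) : ∃ a ∈ DH.H, ∃ b ∈ DH.H, x = a * pi G0 * b := by
  obtain ⟨A, rfl⟩ := pi_surjective x
  have hc := check_spec A
  simp only [checkAll, Bool.and_eq_true] at hc
  rcases (Bool.or_eq_true _ _).mp hc.2 with h | h
  · exact absurd (mem_of_testBit DH h) hx
  · obtain ⟨s, hs, hb⟩ := List.any_eq_true.mp h
    have hsH := T0_sub s hs
    obtain ⟨B, rfl⟩ := exists_of_valid (DH.closed.2.1 s hsH)
    rw [← enc_G0, ← enc_mul, ← enc_inv, ← enc_mul] at hb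
    have hmem : (B * G0)⁻¹ * A ∈ DH.Ht := mem_of_testBit_maskOf _ _ hb
    refine ⟨pi B, DH.mem_H.mpr hsH, pi ((B * G0)⁻¹ * A), DH.mem_H.mpr hmem, ?_⟩
    rw [← map_mul, ← map_mul]
    congr 1
    group

end Cfsg.Agent.Lib.Compute.PSL211
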