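import Mathlib
import Cfsg.Agent.Lib.Compute.PSL34

/-!
# `PSL₃(4)`: all subgroups of order 3 are conjugate

A Sylow 3-subgroup of `PSL₃(4)` is elementary abelian of order 9, generated by the images of
`diag(1, ω, ω²)` and of a cyclic permutation matrix.
-/

set_option autoImplicit false

namespace Cfsg.Agent.Lib.Compute.PSL34

open Matrix
open scoped Pointwise
open Cfsg.Agent.Lib.Compute.GFModel Cfsg.Agent.Lib.Compute.SmallField

/-- `A` and `B` have the same image in `PSL` if `A = c B`. -/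
theorem pi_eq_of_scalar {A B : S3} {c : GF4} (hc : c ≠ 0)
    (h : A.1 = Matrix.scalar (Fin 3) c * B.1) : pi A = pi B := by
  have h1 : A * B⁻¹ ∈ Subgroup.center S3 := by
    refine mem_center_of_scalar (cube_one c hc) ?_
    have h2 : (A * B⁻¹ : S3).1 = A.1 * (B⁻¹ : S3).1 := rfl
    have h3 : B.1 * (B⁻¹ : S3).1 = 1 := congrArg Subtype.val (mul_inv_cancel B)
    rw [h2, h, Matrix.mul_assoc, h3, Matrix.mul_one]
  have h4 := pi_eq_one_iff.mpr h1
  rw [map_mul, map_inv] at h4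
  exact mul_inv_eq_one.mp h4

/-- Converse to `pi_eq_of_scalar`. -/
theorem scalar_of_pi_eq {A B : S3} (h : pi A = pi B) :
    ∃ c : GF4, c ≠ 0 ∧ A.1 = Matrix.scalar (Fin 3) c * B.1 := by
  have h1 : A * B⁻¹ ∈ Subgroup.center S3 := by
    rw [← pi_eq_one_iff, map_mul, map_inv, h, mul_inv_cancel]
  obtain ⟨r, hr, hA⟩ := center_scalar h1
  have hr0 : r ≠ 0 := by
    rintro rfl
    simp at hr
  refine ⟨r, hr0, ?_⟩
  rw [← hA]
  have h2 : A = A * B⁻¹ * B := by group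
  exact congrArg Subtype.val h2

/-- `diag(1, ω, ω²)`. -/
def dm : Matrix (Fin 3) (Fin 3) GF4 := !![1, 0, 0; 0, w, 0; 0, 0, w + 1]
/-- A cyclic permutation matrix. -/
def Pm : Matrix (Fin 3) (Fin 3) GF4 := !![0, 1, 0; 0, 0, 1; 1, 0, 0]

theorem dm_det : dm.det = 1 := by decide +kernel
theorem Pm_det : Pm.det = 1 := by decide +kernel

/-- The element `diag(1, ω, ω²)` of `SL₃(4)`. -/
def d : S3 := ⟨dm, dm_det⟩
/-- A cyclic permutation matrix in `SL₃(4)`. -/
def Q : S3 := ⟨Pm, Pm_det⟩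

theorem dm_pow : dm ^ 3 = 1 := by decide +kernel
theorem Pm_pow : Pm ^ 3 = 1 := by decide +kernel

/-- The image of `d`. -/
abbrev a : P3 := pi d
/-- The image of `Q`. -/
abbrev b : P3 := pi Q

theorem coe_pow' (X : S3) (n : ℕ) : ((X ^ n : S3) : Matrix (Fin 3) (Fin 3) GF4) = X.1 ^ n :=
  Matrix.SpecialLinearGroup.coe_pow X n

theorem a_pow : a ^ 3 = 1 := by
  rw [← map_pow]
  have h : d ^ 3 = 1 := Subtype.ext ((coe_pow' d 3).trans dm_pow)
  rw [h, map_one]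

theorem b_pow : b ^ 3 = 1 := by
  rw [← map_pow]
  have h : Q ^ 3 = 1 := Subtype.ext ((coe_pow' Q 3).trans Pm_pow)
  rw [h, map_one]

theorem dP_rel : dm * Pm = Matrix.scalar (Fin 3) (w + 1) * (Pm * dm) := by decide +kernel

theorem w_ne : w + 1 ≠ 0 := by decide +kernel

theorem ab_comm : Commute a b := by
  have h : pi (d * Q) = pi (Q * d) := pi_eq_of_scalar w_ne dP_rel
  rwa [map_mul, map_mul] at h

/-- The subgroup generated by `a` and `b`. -/
def E0 : Subgroup P3 where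
  carrier := {x | ∃ i j : ℤ, x = a ^ i * b ^ j}
  mul_mem' := by
    rintro _ _ ⟨i, j, rfl⟩ ⟨k, l, rfl⟩
    refine ⟨i + k, j + l, ?_⟩
    have h : Commute (b ^ j) (a ^ k) := (ab_comm.symm.zpow_zpow j k)
    rw [_root_.zpow_add, _root_.zpow_add, mul_assoc, mul_assoc, ← mul_assoc (b ^ j), h.eq]
    simp only [mul_assoc]
  one_mem' := ⟨0, 0, by simp⟩
  inv_mem' := by
    rintro _ ⟨i, j, rfl⟩
    refine ⟨-i, -j, ?_⟩
    have h : Commute (a ^ i) (b ^ j) := ab_comm.zpow_zpow i j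
    rw [_root_.mul_inv_rev, _root_.zpow_neg, _root_.zpow_neg]
    exact (h.inv_inv).eq.symm

theorem mem_E0_iff {x : P3} : x ∈ E0 ↔ ∃ i j : Fin 3, x = a ^ i.val * b ^ j.val := by
  constructor
  · rintro ⟨i, j, rfl⟩
    have h3 : (3 : ℤ) ≠ 0 := by norm_num
    have key : ∀ (c : P3), c ^ 3 = 1 → ∀ i : ℤ, ∃ f : Fin 3, c ^ i = c ^ f.val := by
      intro c hc i
      have h1 : 0 ≤ i % 3 := Int.emod_nonneg _ h3
      have h2 : i % 3 < 3 := Int.emod_lt_of_pos _ (by norm_num)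
      refine ⟨⟨(i % 3).toNat, by omega⟩, ?_⟩
      have h4 : ((i % 3).toNat : ℤ) = i % 3 := Int.toNat_of_nonneg h1
      change c ^ i = c ^ (i % 3).toNat
      rw [← zpow_natCast, h4]
      conv_lhs => rw [← Int.mul_ediv_add_emod i 3, _root_.zpow_add, _root_.zpow_mul]
      have h5 : c ^ (3 : ℤ) = 1 := by exact_mod_cast hc
      rw [h5, _root_.one_zpow, one_mul]
    obtain ⟨f, hf⟩ := key a a_pow i
    obtain ⟨g, hg⟩ := key b b_pow j
    exact ⟨f, g, by rw [hf, hg]⟩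
  · rintro ⟨i, j, rfl⟩
    exact ⟨i.val, j.val, by simp⟩

/-- The matrix `d^i Q^j`. -/
def DQ (i j : Fin 3) : Matrix (Fin 3) (Fin 3) GF4 := dm ^ i.val * Pm ^ j.val

theorem DQ_inj : ∀ (i j k l : Fin 3) (c : GF4), c ≠ 0 →
    DQ i j = Matrix.scalar (Fin 3) c * DQ k l → i = k ∧ j = l := by
  decide +kernel

theorem coe_dq (i j : Fin 3) : ((d ^ i.val * Q ^ j.val : S3) : Matrix (Fin 3) (Fin 3) GF4) = DQ i j := by
  have h : ((d ^ i.val * Q ^ j.val : S3) : Matrix (Fin 3) (Fin 3) GF4)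
      = ((d ^ i.val : S3) : Matrix (Fin 3) (Fin 3) GF4) * ((Q ^ j.val : S3) : Matrix (Fin 3) (Fin 3) GF4) := rfl
  rw [h, coe_pow', coe_pow']
  rfl

theorem pi_dq (i j : Fin 3) : a ^ i.val * b ^ j.val = pi (d ^ i.val * Q ^ j.val) := by
  rw [map_mul, map_pow, map_pow]

theorem ab_inj {i j k l : Fin 3} (h : a ^ i.val * b ^ j.val = a ^ k.val * b ^ l.val) :
    i = k ∧ j = l := by
  rw [pi_dq, pi_dq] at h
  obtain ⟨c, hc, hh⟩ := scalar_of_pi_eq h
  rw [coe_dq, coe_dq] at hh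
  exact DQ_inj i j k l c hc hh

theorem card_E0 : Nat.card E0 = 9 := by
  let f : Fin 3 × Fin 3 → E0 := fun p => ⟨a ^ p.1.val * b ^ p.2.val, mem_E0_iff.mpr ⟨p.1, p.2, rfl⟩⟩
  have hf : Function.Bijective f := by
    constructor
    · rintro ⟨i, j⟩ ⟨k, l⟩ h
      have h1 : a ^ i.val * b ^ j.val = a ^ k.val * b ^ l.val := congrArg Subtype.val h
      obtain ⟨rfl, rfl⟩ := ab_inj h1
      rfl
    · rintro ⟨x, hx⟩
      obtain ⟨i, j, rfl⟩ := mem_E0_iff.mp hx
      exact ⟨(i, j), rfl⟩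
  rw [← Nat.card_congr (Equiv.ofBijective f hf)]
  simp

/-- The conjugators: row `(i, j)` is a matrix `U`, a scalar `c` and an exponent `e` with
`U * (d^i Q^j) = c • (d^e * U)`. -/
def conjTable (i j : Fin 3) : Matrix (Fin 3) (Fin 3) GF4 × GF4 × Fin 3 :=
  match i.val, j.val with
  | 0, 1 => (!![1, 1, 1; 1, w, w + 1; 1, w + 1, w], 1, 2)
  | 0, 2 => (!![1, 1, 1; 1, w, w + 1; 1, w + 1, w], 1, 1)
  | 1, 0 => (!![0, 0, 1; 0, 1, 0; 1, 0, 0], w + 1, 2)
  | 1, 1 => (!![1, 1, w; 1, w, 1; w + 1, w, w], 1, 2)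
  | 1, 2 => (!![1, 1, w + 1; 1, w, w; w, 1, w], w, 1)
  | 2, 0 => (!![0, 0, 1; 0, 1, 0; 1, 0, 0], w, 1)
  | 2, 1 => (!![1, 1, w + 1; 1, w, w; w, 1, w], 1, 2)
  | 2, 2 => (!![1, 1, w; 1, w, 1; w + 1, w, w], w + 1, 1)
  | _, _ => (1, 1, 1)

theorem conjTable_spec : ∀ i j : Fin 3, ¬ (i = 0 ∧ j = 0) →
    (conjTable i j).1.det = 1 ∧ (conjTable i j).2.1 ≠ 0 ∧ (conjTable i j).2.2.val ≠ 0 ∧
    (conjTable i j).1 * DQ i j = Matrix.scalar (Fin 3) (conjTable i j).2.1 *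
      (dm ^ (conjTable i j).2.2.val * (conjTable i j).1) := by
  decide +kernel

theorem conj_ab (i j : Fin 3) (hij : ¬ (i = 0 ∧ j = 0)) :
    ∃ (u : P3) (e : Fin 3), e.val ≠ 0 ∧ u * (a ^ i.val * b ^ j.val) * u⁻¹ = a ^ e.val := by
  obtain ⟨h1, h2, h3, h4⟩ := conjTable_spec i j hij
  let U : S3 := ⟨(conjTable i j).1, h1⟩
  refine ⟨pi U, (conjTable i j).2.2, h3, ?_⟩
  have h5 : pi (U * (d ^ i.val * Q ^ j.val)) = pi (d ^ (conjTable i j).2.2.val * U) := by
    apply pi_eq_of_scalar h2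
    have h6 : ((U * (d ^ i.val * Q ^ j.val) : S3) : Matrix (Fin 3) (Fin 3) GF4)
        = U.1 * ((d ^ i.val * Q ^ j.val : S3) : Matrix (Fin 3) (Fin 3) GF4) := rfl
    have h7 : ((d ^ (conjTable i j).2.2.val * U : S3) : Matrix (Fin 3) (Fin 3) GF4)
        = ((d ^ (conjTable i j).2.2.val : S3) : Matrix (Fin 3) (Fin 3) GF4) * U.1 := rfl
    rw [h6, h7, coe_dq, coe_pow']
    exact h4
  have h8 : pi (d ^ (conjTable i j).2.2.val * U) = a ^ (conjTable i j).2.2.val * pi U := by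
    rw [map_mul, map_pow]
  rw [h8, map_mul, ← pi_dq] at h5
  rw [mul_inv_eq_iff_eq_mul]
  exact h5

theorem a_ne_one : a ≠ 1 := by
  intro h
  have h1 : a ^ (1 : Fin 3).val * b ^ (0 : Fin 3).val = a ^ (0 : Fin 3).val * b ^ (0 : Fin 3).val := by
    simp [h]
  have := (ab_inj h1).1
  exact absurd this (by decide)

theorem order_a : orderOf a = 3 := by
  have : Fact (Nat.Prime 3) := ⟨by norm_num⟩
  exact orderOf_eq_prime a_pow a_ne_one

theorem conj_subgroup_eq (g x : P3) (X : Subgroup P3) (hX : X = Subgroup.zpowers x) :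
    MulAut.conj g • X = Subgroup.zpowers (g * x * g⁻¹) := by
  subst hX
  change Subgroup.map (MulAut.conj g).toMonoidHom (Subgroup.zpowers x) = _
  rw [MonoidHom.map_zpowers]
  rfl

/-- Every subgroup of order 3 of `PSL₃(4)` is conjugate to `⟨a⟩`. -/
theorem conj_to_a (X : Subgroup P3) (hX : Nat.card X = 3) :
    ∃ g : P3, MulAut.conj g • X = Subgroup.zpowers a := by
  have : Fact (Nat.Prime 3) := ⟨by norm_num⟩
  have hcard3 : ∀ P : Sylow 3 P3, Nat.card P = 9 := by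
    intro P
    have h1 := P.card_eq_multiplicity
    rw [card_P3] at h1
    have h2 : (20160 : ℕ).factorization 3 = 2 := by
      have : (20160 : ℕ) = 3 ^ 2 * 2240 := by norm_num
      rw [this, Nat.factorization_mul (by norm_num) (by norm_num), Nat.Prime.factorization_pow (by norm_num)]
      have h3 : (2240 : ℕ).factorization 3 = 0 :=
        Nat.factorization_eq_zero_of_not_dvd (by norm_num)
      simp [h3]
    rw [h2] at h1
    simpa using h1
  obtain ⟨P, hP⟩ := IsPGroup.exists_le_sylow (p := 3) (P := X)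
    (by
      rw [IsPGroup.iff_card (p := 3)]
      exact ⟨1, by rw [hX, pow_one]⟩)
  obtain ⟨P0, hP0⟩ := IsPGroup.exists_le_sylow (p := 3) (P := E0)
    (by
      rw [IsPGroup.iff_card (p := 3)]
      exact ⟨2, by rw [card_E0]; norm_num⟩)
  have e0 : E0 = P0 := by
    apply Subgroup.eq_of_le_of_card_ge hP0
    rw [hcard3, card_E0]
  obtain ⟨t, ht⟩ := MulAction.exists_smul_eq P3 P P0
  -- a generator of `X`
  obtain ⟨x, hxX, hx1⟩ : ∃ x ∈ X, x ≠ 1 := by
    by_contra hcon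
    push Not at hcon
    have hbot : X = ⊥ := (Subgroup.eq_bot_iff_forall X).mpr hcon
    rw [hbot] at hX
    simp at hX
  have hXx : X = Subgroup.zpowers x := by
    have h1 : Subgroup.zpowers x ≤ X := by
      rw [Subgroup.zpowers_le]; exact hxX
    refine (Subgroup.eq_of_le_of_card_ge h1 ?_).symm
    have h2 : Nat.card (Subgroup.zpowers x) ∣ Nat.card X := Subgroup.card_dvd_of_le h1
    rw [hX] at h2 ⊢
    rcases (Nat.dvd_prime (by norm_num : Nat.Prime 3)).mp h2 with h3 | h3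
    · exfalso
      apply hx1
      have h4 : Subgroup.zpowers x = ⊥ := Subgroup.eq_bot_of_card_eq _ h3
      exact Subgroup.zpowers_eq_bot.mp h4
    · exact h3.ge
  have hmem : t * x * t⁻¹ ∈ E0 := by
    rw [e0, ← ht]
    have h1 : x ∈ (P : Subgroup P3) := hP hxX
    change t * x * t⁻¹ ∈ MulAut.conj t • (P : Subgroup P3)
    exact (Subgroup.mem_smul_pointwise_iff_exists _ _ _).mpr ⟨x, h1, rfl⟩
  obtain ⟨i, j, hij⟩ := mem_E0_iff.mp hmem
  have hne : ¬ (i = 0 ∧ j = 0) := by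
    rintro ⟨rfl, rfl⟩
    apply hx1
    have h1 : t * x * t⁻¹ = 1 := by simpa using hij
    have h2 : x = t⁻¹ * (t * x * t⁻¹) * t := by group
    rw [h2, h1]
    group
  obtain ⟨u, e, he, hu⟩ := conj_ab i j hne
  refine ⟨u * t, ?_⟩
  rw [conj_subgroup_eq (u * t) x X hXx]
  have h1 : u * t * x * (u * t)⁻¹ = a ^ e.val := by
    rw [← hu, ← hij]
    group
  rw [h1]
  have he' : Nat.Coprime e.val 3 := by
    have h2 := e.isLt
    have : e.val = 1 ∨ e.val = 2 := by omega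
    rcases this with h | h <;> rw [h] <;> norm_num
  apply le_antisymm
  · rw [Subgroup.zpowers_le]
    exact Subgroup.npow_mem_zpowers a e.val
  · rw [Subgroup.zpowers_le]
    obtain ⟨c, -, hc⟩ := Nat.exists_mul_mod_eq_one_of_coprime he' (by norm_num)
    have h3 : (a ^ e.val) ^ c = a := by
      rw [← pow_mul, ← pow_mod_orderOf, order_a, hc, pow_one]
    have h4 : (a ^ e.val) ^ c ∈ Subgroup.zpowers (a ^ e.val) := Subgroup.npow_mem_zpowers _ c
    rwa [h3] at h4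

/-- All subgroups of order 3 of `PSL₃(GF4)` are conjugate. -/
theorem subgroups_order_three_conj (X Y : Subgroup P3) (hX : Nat.card X = 3) (hY : Nat.card Y = 3) :
    ∃ g : P3, MulAut.conj g • X = Y := by
  obtain ⟨g, hg⟩ := conj_to_a X hX
  obtain ⟨h, hh⟩ := conj_to_a Y hY
  refine ⟨h⁻¹ * g, ?_⟩
  rw [map_mul, mul_smul, hg, ← hh, map_inv, inv_smul_smul]

end Cfsg.Agent.Lib.Compute.PSL34
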