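import Mathlib
import Cfsg.Agent.Lib.Classical.Herm.Unip

/-!
# Sylow `p`-subgroups of `SU₃(q)` and `PSU₃(q)` are trivial intersection sets (`p ∣ q`)

An element of `SU₃(q)` fixing a nonzero isotropic vector `e` lies in the unipotent radical `R_e`;
an element fixing two independent isotropic vectors is trivial. So a Sylow `p`-subgroup is `R_e`
for each of its fixed vectors, and two different Sylow `p`-subgroups meet trivially.
-/

set_option autoImplicit false
set_option linter.unusedSectionVars false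

namespace Cfsg.Agent.Lib.Compute.SU3TI

open Cfsg
open Cfsg.Agent.Lib.Classical.Herm.Basic Cfsg.Agent.Lib.Classical.Herm.Form
open Cfsg.Agent.Lib.Classical.Herm.GU Cfsg.Agent.Lib.Classical.Herm.SU
open Cfsg.Agent.Lib.Classical.Herm.Tv Cfsg.Agent.Lib.Classical.Herm.Unip
open scoped Matrix

variable {F : Type*} [Field F] [Fintype F] {q : ℕ}

local notation "⟪" x ", " y "⟫" => hermForm _ _ q x y

/-- The matrix with columns `a, b, c`. -/
def colMat (a b c : Fin 3 → F) : Matrix (Fin 3) (Fin 3) F :=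
  Matrix.of fun i j => ![a i, b i, c i] j

theorem colMat_mulVec (a b c : Fin 3 → F) (v : Fin 3 → F) :
    colMat a b c *ᵥ v = v 0 • a + v 1 • b + v 2 • c := by
  funext i
  simp [colMat, Matrix.mulVec, dotProduct, Fin.sum_univ_three, mul_comm]

theorem colMat_col (a b c : Fin 3 → F) :
    colMat a b c *ᵥ ![1, 0, 0] = a ∧ colMat a b c *ᵥ ![0, 1, 0] = b ∧ colMat a b c *ᵥ ![0, 0, 1] = c := by
  simp [colMat_mulVec]

/-- Independent columns: the matrix is invertible. -/
theorem isUnit_colMat {a b c : Fin 3 → F}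
    (h : ∀ α β γ : F, α • a + β • b + γ • c = 0 → α = 0 ∧ β = 0 ∧ γ = 0) :
    IsUnit (colMat a b c) := by
  rw [← Matrix.mulVec_injective_iff_isUnit]
  intro u v huv
  have h1 : (u 0 - v 0) • a + (u 1 - v 1) • b + (u 2 - v 2) • c = 0 := by
    have h2 : u 0 • a + u 1 • b + u 2 • c = v 0 • a + v 1 • b + v 2 • c := by
      rw [← colMat_mulVec, ← colMat_mulVec]
      exact huv
    have h3 : (u 0 - v 0) • a + (u 1 - v 1) • b + (u 2 - v 2) • c =
        (u 0 • a + u 1 • b + u 2 • c) - (v 0 • a + v 1 • b + v 2 • c) := by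
      simp only [sub_smul]
      abel
    rw [h3, h2, sub_self]
  obtain ⟨h0, h1', h2'⟩ := h _ _ _ h1
  funext i
  fin_cases i
  · exact sub_eq_zero.mp h0
  · exact sub_eq_zero.mp h1'
  · exact sub_eq_zero.mp h2'

/-- Coordinates in a basis: every element of `SU` has an upper-left matrix `T` of determinant one. -/
theorem exists_coords {a b c : Fin 3 → F}
    (h : ∀ α β γ : F, α • a + β • b + γ • c = 0 → α = 0 ∧ β = 0 ∧ γ = 0) (x : SU 3 F q) :
    ∃ T : Matrix (Fin 3) (Fin 3) F, T.det = 1 ∧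
      act x a = T 0 0 • a + T 1 0 • b + T 2 0 • c ∧
      act x b = T 0 1 • a + T 1 1 • b + T 2 1 • c ∧
      act x c = T 0 2 • a + T 1 2 • b + T 2 2 • c := by
  have hB := isUnit_colMat h
  set B := colMat a b c with hBdef
  obtain ⟨u, hu⟩ := hB
  refine ⟨(↑u⁻¹ : Matrix (Fin 3) (Fin 3) F) * mat x * B, ?_, ?_⟩
  · rw [Matrix.det_mul, Matrix.det_mul, mul_comm, ← mul_assoc, ← Matrix.det_mul, ← hu,
      Units.mul_inv, Matrix.det_one, one_mul]
    exact x.1.2
  · have key : mat x * B = B * ((↑u⁻¹ : Matrix (Fin 3) (Fin 3) F) * mat x * B) := by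
      rw [← mul_assoc, ← mul_assoc, ← hu, Units.mul_inv, one_mul]
    set T := (↑u⁻¹ : Matrix (Fin 3) (Fin 3) F) * mat x * B
    have hcol : ∀ w : Fin 3 → F, act x (B *ᵥ w) = B *ᵥ (T *ᵥ w) := by
      intro w
      rw [act, Matrix.mulVec_mulVec, key, Matrix.mulVec_mulVec]
    obtain ⟨h1, h2, h3⟩ := colMat_col a b c
    refine ⟨?_, ?_, ?_⟩
    · have := hcol ![1, 0, 0]
      rw [h1, colMat_mulVec] at this
      simpa [Matrix.mulVec, dotProduct, Fin.sum_univ_three] using this
    · have := hcol ![0, 1, 0]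
      rw [h2, colMat_mulVec] at this
      simpa [Matrix.mulVec, dotProduct, Fin.sum_univ_three] using this
    · have := hcol ![0, 0, 1]
      rw [h3, colMat_mulVec] at this
      simpa [Matrix.mulVec, dotProduct, Fin.sum_univ_three] using this

/-- Coefficients in an independent triple are unique. -/
theorem coords_unique {a b c : Fin 3 → F}
    (h : ∀ α β γ : F, α • a + β • b + γ • c = 0 → α = 0 ∧ β = 0 ∧ γ = 0) {α β γ α' β' γ' : F}
    (he : α • a + β • b + γ • c = α' • a + β' • b + γ' • c) : α = α' ∧ β = β' ∧ γ = γ' := by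
  have h1 : (α - α') • a + (β - β') • b + (γ - γ') • c = 0 := by
    have h3 : (α - α') • a + (β - β') • b + (γ - γ') • c =
        (α • a + β • b + γ • c) - (α' • a + β' • b + γ' • c) := by
      simp only [sub_smul]
      abel
    rw [h3, he, sub_self]
  obtain ⟨h0, h1', h2'⟩ := h _ _ _ h1
  exact ⟨sub_eq_zero.mp h0, sub_eq_zero.mp h1', sub_eq_zero.mp h2'⟩

theorem form_act_act (x : SU 3 F q) (u v : Fin 3 → F) : ⟪act x u, act x v⟫ = ⟪u, v⟫ :=
  h_act x u v

/-- A nonzero vector is not orthogonal to everything. -/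
theorem exists_not_perp (hF : Fintype.card F = q ^ 2) {e : Fin 3 → F} (he : e ≠ 0) :
    ∃ f : Fin 3 → F, ⟪f, e⟫ ≠ 0 := by
  by_contra hcon
  push Not at hcon
  exact he (hermForm_nondegenerate_right hF 3 e hcon)

/-- The stabiliser of a nonzero isotropic vector in `SU₃` is the unipotent radical. -/
theorem fix_mem_Re (hF : Fintype.card F = q ^ 2) {e : Fin 3 → F} (he : e ≠ 0)
    (hiso : ⟪e, e⟫ = 0) {x : SU 3 F q} (hx : act x e = e) : x ∈ Re q e := by
  refine ⟨hx, fun w hw => ?_⟩
  by_cases hdep : ∃ a : F, w = a • e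
  · obtain ⟨a, rfl⟩ := hdep
    exact ⟨0, by rw [act_smul, hx, zero_smul, add_zero]⟩
  have hdep' : ∀ a : F, w ≠ a • e := fun a ha => hdep ⟨a, ha⟩
  obtain ⟨f, hf⟩ := exists_not_perp hF he
  have hind : ∀ α β γ : F, α • e + β • w + γ • f = 0 → α = 0 ∧ β = 0 ∧ γ = 0 := by
    intro α β γ h
    have h1 : ⟪α • e + β • w + γ • f, e⟫ = 0 := by rw [h, hermForm_zero_left]
    simp only [hermForm_add_left, hermForm_smul_left, hiso, hw, mul_zero, zero_add] at h1
    have hγ : γ = 0 := (mul_eq_zero.mp h1).resolve_right hf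
    subst hγ
    have hβ : β = 0 := by
      by_contra hβ
      apply hdep' (-(α / β))
      have h2 : β • w = (-α) • e := by
        rw [zero_smul, add_zero] at h
        rw [neg_smul]
        exact eq_neg_of_add_eq_zero_right h
      have h3 : w = β⁻¹ • (β • w) := by rw [smul_smul, inv_mul_cancel₀ hβ, one_smul]
      rw [h3, h2, smul_smul]
      congr 1
      field_simp
    subst hβ
    have hα : α = 0 := by
      by_contra hα
      apply he
      simpa [hα] using h
    exact ⟨hα, rfl, rfl⟩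
  obtain ⟨T, hdet, he1, hw1, hf1⟩ := exists_coords hind x
  -- first column
  have hc0 := coords_unique hind (a := e) (b := w) (c := f) (α := T 0 0) (β := T 1 0) (γ := T 2 0)
    (α' := 1) (β' := 0) (γ' := 0) (by rw [← he1, hx]; simp)
  obtain ⟨h00, h10, h20⟩ := hc0
  -- the coefficient of `f` in the image of `w`
  have hT21 : T 2 1 = 0 := by
    have h1 : ⟪act x w, e⟫ = 0 := by
      have := form_act_act x w e
      rw [hx, hw] at this
      exact this
    rw [hw1] at h1
    simp only [hermForm_add_left, hermForm_smul_left, hiso, hw, mul_zero, zero_add] at h1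
    exact (mul_eq_zero.mp h1).resolve_right hf
  have hT22 : T 2 2 = 1 := by
    have h1 : ⟪act x f, e⟫ = ⟪f, e⟫ := by
      have := form_act_act x f e
      rwa [hx] at this
    rw [hf1] at h1
    simp only [hermForm_add_left, hermForm_smul_left, hiso, hw, mul_zero, zero_add] at h1
    exact mul_right_cancel₀ hf (by rw [h1, one_mul])
  have hT11 : T 1 1 = 1 := by
    rw [Matrix.det_fin_three, h00, h10, h20, hT21, hT22] at hdet
    linear_combination hdet
  refine ⟨T 0 1, ?_⟩
  rw [hw1, hT11, hT21]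
  simp [add_comm]

/-- In the three-dimensional unitary space no two independent isotropic vectors are orthogonal. -/
theorem not_perp_of_indep (hF : Fintype.card F = q ^ 2) {e f : Fin 3 → F} (he : e ≠ 0)
    (hiso : ⟪e, e⟫ = 0) (hfiso : ⟪f, f⟫ = 0) (hind : ∀ c : F, c • e ≠ f) : ⟪f, e⟫ ≠ 0 := by
  intro hfe
  have hef : ⟪e, f⟫ = 0 := hermForm_symm_zero hF hfe
  obtain ⟨g, hg⟩ := exists_not_perp hF he
  have hge : ⟪e, g⟫ ≠ 0 := fun h => hg (hermForm_symm_zero hF h)
  have hindep : ∀ α β γ : F, α • e + β • f + γ • g = 0 → α = 0 ∧ β = 0 ∧ γ = 0 := by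
    intro α β γ h
    have h1 : ⟪α • e + β • f + γ • g, e⟫ = 0 := by rw [h, hermForm_zero_left]
    simp only [hermForm_add_left, hermForm_smul_left, hiso, hfe, mul_zero, zero_add] at h1
    have hγ : γ = 0 := (mul_eq_zero.mp h1).resolve_right hg
    subst hγ
    have hβ : β = 0 := by
      by_contra hβ
      apply hind (-(α / β))
      have h2 : β • f = (-α) • e := by
        rw [zero_smul, add_zero] at h
        rw [neg_smul]
        exact (eq_neg_of_add_eq_zero_right h)
      have h3 : f = β⁻¹ • (β • f) := by rw [smul_smul, inv_mul_cancel₀ hβ, one_smul]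
      rw [h3, h2, smul_smul]
      congr 1
      field_simp
    subst hβ
    have hα : α = 0 := by
      by_contra hα
      apply he
      simpa [hα] using h
    exact ⟨hα, rfl, rfl⟩
  set c := ⟪f, g⟫ / ⟪e, g⟫ with hc
  set f' := f - c • e with hf'
  have h1 : ⟪f', e⟫ = 0 := by
    rw [hf', hermForm_sub_left, hermForm_smul_left, hiso, hfe]
    simp
  have h2 : ⟪f', g⟫ = 0 := by
    rw [hf', hermForm_sub_left, hermForm_smul_left, hc]
    field_simp
    simp
  have h3 : ⟪f', f⟫ = 0 := by
    rw [hf', hermForm_sub_left, hermForm_smul_left, hfiso, hef]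
    simp
  have hall : ∀ v : Fin 3 → F, ⟪f', v⟫ = 0 := by
    intro v
    obtain ⟨u, hu⟩ := isUnit_colMat hindep
    have hv : v = colMat e f g *ᵥ ((↑u⁻¹ : Matrix (Fin 3) (Fin 3) F) *ᵥ v) := by
      rw [Matrix.mulVec_mulVec, ← hu, Units.mul_inv, Matrix.one_mulVec]
    rw [hv, colMat_mulVec]
    simp only [hermForm_add_right hF, hermForm_smul_right, h1, h2, h3, mul_zero, add_zero]
  have h0 : f' = 0 := hermForm_nondegenerate_left hF 3 f' hall
  apply hind c
  exact (sub_eq_zero.mp h0).symm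

/-- An element of `SU₃` fixing two independent isotropic vectors is trivial. -/
theorem eq_one_of_two_fixed (hF : Fintype.card F = q ^ 2) {e f : Fin 3 → F} (he : e ≠ 0)
    (hiso : ⟪e, e⟫ = 0) (hfiso : ⟪f, f⟫ = 0) (hind : ∀ c : F, c • e ≠ f) {x : SU 3 F q}
    (hx : act x e = e) (hy : act x f = f) : x = 1 := by
  have hfe := not_perp_of_indep hF he hiso hfiso hind
  have hef : ⟪e, f⟫ ≠ 0 := fun h => hfe (hermForm_symm_zero hF h)
  have hfne : f ≠ 0 := by
    rintro rfl
    exact hind 0 (zero_smul _ _)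
  -- a vector orthogonal to both
  obtain ⟨w, hw0, hwe, hwf⟩ : ∃ w : Fin 3 → F, w ≠ 0 ∧ ⟪w, e⟫ = 0 ∧ ⟪w, f⟫ = 0 := by
    let L : (Fin 3 → F) →ₗ[F] F × F := LinearMap.prod (formB hF 3 e) (formB hF 3 f)
    have hlt : Module.finrank F (F × F) < Module.finrank F (Fin 3 → F) := by
      simp
    have hker := LinearMap.ker_ne_bot_of_finrank_lt (f := L) hlt
    obtain ⟨w, hw, hw0⟩ := Submodule.exists_mem_ne_zero_of_ne_bot hker
    have h1 : L w = 0 := hw
    refine ⟨w, hw0, ?_, ?_⟩
    · exact congrArg Prod.fst h1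
    · exact congrArg Prod.snd h1
  have hind3 : ∀ α β γ : F, α • e + β • f + γ • w = 0 → α = 0 ∧ β = 0 ∧ γ = 0 := by
    intro α β γ h
    have h1 : ⟪α • e + β • f + γ • w, e⟫ = 0 := by rw [h, hermForm_zero_left]
    simp only [hermForm_add_left, hermForm_smul_left, hiso, hwe, mul_zero, add_zero, zero_add] at h1
    have hβ : β = 0 := (mul_eq_zero.mp h1).resolve_right hfe
    have h2 : ⟪α • e + β • f + γ • w, f⟫ = 0 := by rw [h, hermForm_zero_left]
    simp only [hermForm_add_left, hermForm_smul_left, hfiso, hwf, mul_zero, add_zero] at h2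
    have hα : α = 0 := (mul_eq_zero.mp h2).resolve_right hef
    subst hβ hα
    simp only [zero_smul, zero_add] at h
    have hγ : γ = 0 := (smul_eq_zero.mp h).resolve_right hw0
    exact ⟨rfl, rfl, hγ⟩
  obtain ⟨T, hdet, he1, hf1, hw1⟩ := exists_coords hind3 x
  obtain ⟨h00, h10, h20⟩ := coords_unique hind3 (a := e) (b := f) (c := w) (α := T 0 0) (β := T 1 0)
    (γ := T 2 0) (α' := 1) (β' := 0) (γ' := 0) (by rw [← he1, hx]; simp)
  obtain ⟨h01, h11, h21⟩ := coords_unique hind3 (a := e) (b := f) (c := w) (α := T 0 1) (β := T 1 1)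
    (γ := T 2 1) (α' := 0) (β' := 1) (γ' := 0) (by rw [← hf1, hy]; simp)
  have hT12 : T 1 2 = 0 := by
    have h1 : ⟪act x w, e⟫ = 0 := by
      have := form_act_act x w e
      rw [hx, hwe] at this
      exact this
    rw [hw1] at h1
    simp only [hermForm_add_left, hermForm_smul_left, hiso, hwe, mul_zero, add_zero, zero_add] at h1
    exact (mul_eq_zero.mp h1).resolve_right hfe
  have hT02 : T 0 2 = 0 := by
    have h1 : ⟪act x w, f⟫ = 0 := by
      have := form_act_act x w f
      rw [hy, hwf] at this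
      exact this
    rw [hw1] at h1
    simp only [hermForm_add_left, hermForm_smul_left, hfiso, hwf, mul_zero, add_zero] at h1
    exact (mul_eq_zero.mp h1).resolve_right hef
  have hT22 : T 2 2 = 1 := by
    rw [Matrix.det_fin_three, h00, h10, h20, h01, h11, h21, hT12, hT02] at hdet
    linear_combination hdet
  have hfixw : act x w = w := by
    rw [hw1, hT12, hT02, hT22]
    simp
  -- `x` fixes a basis
  have hfixall : ∀ v, act x v = v := by
    intro v
    obtain ⟨u, hu⟩ := isUnit_colMat hind3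
    have hv : v = colMat e f w *ᵥ ((↑u⁻¹ : Matrix (Fin 3) (Fin 3) F) *ᵥ v) := by
      rw [Matrix.mulVec_mulVec, ← hu, Units.mul_inv, Matrix.one_mulVec]
    rw [hv, colMat_mulVec]
    simp only [act_add, act_smul, hx, hy, hfixw]
  apply Subtype.ext
  apply Subtype.ext
  apply Matrix.ext
  intro i j
  have h1 := congrFun (hfixall (Pi.single j 1)) i
  simp only [act, Matrix.mulVec_single_one] at h1
  simpa [Matrix.one_apply, Pi.single_apply, eq_comm] using h1

/-- Two different Sylow `p`-subgroups of `SU₃(q)` intersect trivially, `p ∣ q`. -/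
theorem sylow_inf_eq_bot (p : ℕ) [Fact p.Prime] [CharP F p] (hpq : p ∣ q)
    (hF : Fintype.card F = q ^ 2) (P Q : Sylow p (SU 3 F q)) (hne : P ≠ Q) :
    (P : Subgroup (SU 3 F q)) ⊓ Q = ⊥ := by
  obtain ⟨e, he0, heiso, heP⟩ := exists_fixed_iso p hpq hF (by norm_num)
    (P : Subgroup (SU 3 F q)) P.isPGroup'
  obtain ⟨f, hf0, hfiso, hfQ⟩ := exists_fixed_iso p hpq hF (by norm_num)
    (Q : Subgroup (SU 3 F q)) Q.isPGroup'
  have hind : ∀ c : F, c • e ≠ f := by
    intro c hc
    apply hne
    have hc0 : c ≠ 0 := by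
      rintro rfl
      apply hf0
      rw [← hc, zero_smul]
    have hQe : ∀ g ∈ (Q : Subgroup (SU 3 F q)), act g e = e := by
      intro g hg
      have h1 := hfQ g hg
      rw [← hc, act_smul] at h1
      exact smul_right_injective _ hc0 h1
    have h1 : (P : Subgroup (SU 3 F q)) ≤ Re q e := fun g hg => fix_mem_Re hF he0 heiso (heP g hg)
    have h2 : (Q : Subgroup (SU 3 F q)) ≤ Re q e := fun g hg => fix_mem_Re hF he0 heiso (hQe g hg)
    have h3 := Re_le_sylow p P heP
    have h4 := Re_le_sylow p Q hQe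
    apply Sylow.ext
    exact le_antisymm (h1.trans h4) (h2.trans h3)
  rw [eq_bot_iff]
  rintro x ⟨hxP, hxQ⟩
  rw [Subgroup.mem_bot]
  exact eq_one_of_two_fixed hF he0 heiso hfiso hind (heP x hxP) (hfQ x hxQ)

end Cfsg.Agent.Lib.Compute.SU3TI
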