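import Mathlib
import Cfsg.Prelude.Def_LieClassical
import Cfsg.Agent.Lib.Classical.Herm.Simple
import Cfsg.Agent.Lib.Compute.GF25
import Cfsg.Agent.Lib.Compute.SU3TI
import Cfsg.Agent.Lib.Compute.MinIndex50
import Cfsg.Agent.Lib.Compute.SU3Two
import Cfsg.Agent.S2366

/-!
# `PSU₃(5)`: every proper subgroup has index at least 50, and 50 occurs

The lower bound is the abstract theorem of `MinIndex50` applied to `PSU₃(5)`: it is simple of order 126000, its
Sylow 5-subgroups are trivial intersection sets and it has no elements of order 14, 21, 35.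
For the subgroup of index 50 (a copy of the alternating group of degree 7) four explicit matrices over `F25` are
given, together with a set of 105 points of the projective plane which they preserve and a unitary
matrix that does not preserve it.
-/

set_option autoImplicit false
set_option linter.unusedSectionVars false

namespace Cfsg.Agent.Lib.Compute.PSU35

open Cfsg Cfsg.Agent.Lib.Compute.GF25 Cfsg.Agent.Lib.Classical.Herm
open Cfsg.Agent.Lib.Classical.Herm.GU Cfsg.Agent.Lib.Classical.Herm.SU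
open Cfsg.Agent.Lib.Classical.Herm.Tv Cfsg.Agent.Lib.Classical.Herm.Simple
open Cfsg.Agent.Lib.Compute.MinIndex50 Cfsg.Agent.Lib.Compute.SU3TI
open scoped Matrix

local instance fact5 : Fact (Nat.Prime 5) := ⟨by norm_num⟩
local instance fact7 : Fact (Nat.Prime 7) := ⟨by norm_num⟩

section Psu

variable {F : Type*} [Field F] [Fintype F] {q : ℕ}

/-- Two different Sylow `p`-subgroups of `PSU₃(q)` intersect trivially, `p ∣ q`. -/
theorem psu_sylow_inf_eq_bot (p : ℕ) [Fact p.Prime] [CharP F p] (hpq : p ∣ q)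
    (hF : Fintype.card F = q ^ 2) (P Q : Sylow p (PSU 3 F q)) (hne : P ≠ Q) :
    (P : Subgroup (PSU 3 F q)) ⊓ Q = ⊥ := by
  have hπ : Function.Surjective (QuotientGroup.mk' (Subgroup.center (SU 3 F q))) :=
    QuotientGroup.mk'_surjective _
  obtain ⟨P₀, rfl⟩ := Sylow.mapSurjective_surjective hπ p P
  obtain ⟨Q₀, rfl⟩ := Sylow.mapSurjective_surjective hπ p Q
  have hne₀ : P₀ ≠ Q₀ := by
    rintro rfl
    exact hne rfl
  have hinf := sylow_inf_eq_bot p hpq hF P₀ Q₀ hne₀
  rw [eq_bot_iff]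
  rintro x ⟨hxP, hxQ⟩
  rw [Sylow.coe_mapSurjective] at hxP hxQ
  obtain ⟨a, ha, rfl⟩ := hxP
  obtain ⟨b, hb, hab⟩ := hxQ
  have hz : b⁻¹ * a ∈ Subgroup.center (SU 3 F q) := QuotientGroup.eq.1 hab
  -- the central factor is trivial
  obtain ⟨k, hk⟩ := P₀.isPGroup' ⟨a, ha⟩
  obtain ⟨l, hl⟩ := Q₀.isPGroup' ⟨b, hb⟩
  have hk' : a ^ p ^ k = 1 := congrArg Subtype.val hk
  have hl' : b ^ p ^ l = 1 := congrArg Subtype.val hl
  have hk'' : a ^ p ^ (k + l) = 1 := by rw [pow_add, pow_mul, hk', one_pow]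
  have hl'' : b ^ p ^ (k + l) = 1 := by rw [pow_add, mul_comm, pow_mul, hl', one_pow]
  set z := b⁻¹ * a with hzdef
  have haz : a = b * z := by rw [hzdef, mul_inv_cancel_left]
  have hcomm : Commute b z := ((Subgroup.mem_center_iff.1 hz) b)
  have hzp : z ^ p ^ (k + l) = 1 := by
    have h1 := hk''
    rw [haz, hcomm.mul_pow, hl'', one_mul] at h1
    exact h1
  have hhF : Fintype.card F = q ^ 2 := hF
  have hcard : Nat.card (Subgroup.center (SU 3 F q)) = Nat.gcd 3 (q + 1) :=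
    card_center_SU hF (by norm_num)
  have hzd : z ^ Nat.gcd 3 (q + 1) = 1 := by
    have h1 := pow_card_eq_one' (x := (⟨z, hz⟩ : Subgroup.center (SU 3 F q)))
    rw [hcard] at h1
    exact congrArg Subtype.val h1
  have hcop : Nat.Coprime (p ^ (k + l)) (Nat.gcd 3 (q + 1)) := by
    apply Nat.Coprime.pow_left
    apply Nat.Coprime.coprime_dvd_right (Nat.gcd_dvd_right 3 (q + 1))
    rw [Nat.Prime.coprime_iff_not_dvd Fact.out]
    intro h
    have h2 : p ∣ 1 := (Nat.dvd_add_right hpq).1 h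
    exact (Fact.out : p.Prime).one_lt.ne' (Nat.dvd_one.1 h2)
  have hz1 : z = 1 := by
    have := (pow_gcd_eq_one).2 ⟨hzp, hzd⟩
    rw [hcop] at this
    simpa using this
  have hab' : a = b := by rw [haz, hz1, mul_one]
  have hmem : a ∈ (P₀ : Subgroup (SU 3 F q)) ⊓ Q₀ := ⟨ha, hab' ▸ hb⟩
  rw [hinf, Subgroup.mem_bot] at hmem
  rw [Subgroup.mem_bot, hmem, map_one]

variable (hF : Fintype.card F = 25)
include hF

theorem hF' : Fintype.card F = 5 ^ 2 := by rw [hF]; norm_num

theorem charP_five : CharP F 5 := by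
  have h1 : ((25 : ℕ) : F) = 0 := by
    rw [← hF]
    exact Nat.cast_card_eq_zero F
  have h2 : (5 : F) = 0 := by
    have h3 : ((5 : F)) * 5 = 0 := by
      have : ((25 : ℕ) : F) = 5 * 5 := by norm_num
      rwa [this] at h1
    exact mul_self_eq_zero.1 h3
  obtain ⟨p, hp⟩ := CharP.exists F
  have hd : p ∣ 5 := (CharP.cast_eq_zero_iff F p 5).1 (by exact_mod_cast h2)
  have hp1 : p ≠ 1 := CharP.char_ne_one F p
  rcases (Nat.dvd_prime (by norm_num)).1 hd with h | h
  · exact absurd h hp1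
  · rw [h] at hp
    exact hp

theorem isSimple : IsSimpleGroup (PSU 3 F 5) :=
  isSimpleGroup_PSU (hF' hF) (by norm_num) (by norm_num)

theorem card_eq : Nat.card (PSU 3 F 5) = 126000 := by
  have h := card_PSU (hF' hF) (n := 3) (by norm_num)
  have h2 : (∏ i ∈ Finset.range 3, (if Even i then 5 ^ (i + 1) + 1 else 5 ^ (i + 1) - 1)) = 18144 := by
    decide
  rw [h2] at h
  norm_num at h
  omega

theorem ti : TI5 (PSU 3 F 5) := by
  have := charP_five hF
  exact fun P Q hne => psu_sylow_inf_eq_bot 5 dvd_rfl (hF' hF) P Q hne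

theorem spec : ∀ x : PSU 3 F 5, orderOf x ≠ 14 ∧ orderOf x ≠ 21 ∧ orderOf x ≠ 35 := by
  have := charP_five hF
  intro x
  have h := Cfsg.Agent.S2366.result (F := F) 5 (by norm_num) 5 (hF' hF)
  have hx : orderOf x ∈ Set.range (orderOf : PSU 3 F 5 → ℕ) := ⟨x, rfl⟩
  rw [h] at hx
  have hg : Nat.gcd 3 (5 + 1) = 3 := by norm_num
  simp only [hg, Set.mem_union, Set.mem_ofPred_eq] at hx
  norm_num at hx
  refine ⟨fun h14 => ?_, fun h21 => ?_, fun h35 => ?_⟩
  · rw [h14] at hx
    norm_num at hx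
  · rw [h21] at hx
    norm_num at hx
  · rw [h35] at hx
    norm_num at hx

theorem index_ge (H : Subgroup (PSU 3 F 5)) (hH : H ≠ ⊤) : 50 ≤ H.index := by
  have := isSimple hF
  exact index_ge_fifty (card_eq hF) (ti hF) (spec hF) H hH

end Psu

/-! ### The explicit subgroup over `F25` -/

abbrev V3 := F25 × F25 × F25
abbrev T3 := V3 × V3 × V3

def e (n : Nat) : F25 := F25.mk' n

def hermV (x y : V3) : F25 := x.1 * y.1 ^ 5 + x.2.1 * y.2.1 ^ 5 + x.2.2 * y.2.2 ^ 5

def matOf (t : T3) : Matrix (Fin 3) (Fin 3) F25 :=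
  !![t.1.1, t.2.1.1, t.2.2.1;
     t.1.2.1, t.2.1.2.1, t.2.2.2.1;
     t.1.2.2, t.2.1.2.2, t.2.2.2.2]

def ofV (v : V3) : Fin 3 → F25 := ![v.1, v.2.1, v.2.2]

theorem ofV_inj {u v : V3} (h : ofV u = ofV v) : u = v := by
  have h0 := congrFun h 0
  have h1 := congrFun h 1
  have h2 := congrFun h 2
  exact Prod.ext h0 (Prod.ext h1 h2)

def appV (t : T3) (y : V3) : V3 :=
  (t.1.1 * y.1 + t.2.1.1 * y.2.1 + t.2.2.1 * y.2.2,
   t.1.2.1 * y.1 + t.2.1.2.1 * y.2.1 + t.2.2.2.1 * y.2.2,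
   t.1.2.2 * y.1 + t.2.1.2.2 * y.2.1 + t.2.2.2.2 * y.2.2)

def mulT (s t : T3) : T3 := (appV s t.1, appV s t.2.1, appV s t.2.2)

def oneT : T3 := ((e 1, e 0, e 0), (e 0, e 1, e 0), (e 0, e 0, e 1))

def powT (t : T3) : ℕ → T3
  | 0 => oneT
  | n + 1 => mulT (powT t n) t

def det3 (t : T3) : F25 :=
  t.1.1 * t.2.1.2.1 * t.2.2.2.2 - t.1.1 * t.2.2.2.1 * t.2.1.2.2 - t.2.1.1 * t.1.2.1 * t.2.2.2.2 +
    t.2.1.1 * t.2.2.2.1 * t.1.2.2 + t.2.2.1 * t.1.2.1 * t.2.1.2.2 - t.2.2.1 * t.2.1.2.1 * t.1.2.2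

theorem det_matOf (t : T3) : (matOf t).det = det3 t := by
  rw [Matrix.det_fin_three]
  simp [matOf, det3]

theorem matOf_mulVec (t : T3) (v : V3) : matOf t *ᵥ ofV v = ofV (appV t v) := by
  funext i
  fin_cases i <;> simp [matOf, ofV, appV, Matrix.mulVec, dotProduct, Fin.sum_univ_three]

theorem matOf_mul (s t : T3) : matOf s * matOf t = matOf (mulT s t) := by
  ext i j
  fin_cases i <;> fin_cases j <;>
    simp [matOf, mulT, appV, Matrix.mul_apply, Fin.sum_univ_three]

theorem matOf_one : matOf oneT = 1 := by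
  ext i j
  have h0 : e 0 = 0 := rfl
  have h1 : e 1 = 1 := rfl
  fin_cases i <;> fin_cases j <;> simp [matOf, oneT, h0, h1]

theorem herm_ofV (x y : V3) : hermForm 3 F25 5 (ofV x) (ofV y) = hermV x y := by
  simp [hermForm, Fin.sum_univ_three, ofV, hermV]

theorem hF25 : Fintype.card F25 = 5 ^ 2 := by rw [F25.card_eq]; norm_num

/-- The check that `t` is a matrix in `SU₃(5)`. -/
def suB (t : T3) : Bool :=
  hermV t.1 t.1 == 1 && hermV t.1 t.2.1 == 0 && hermV t.1 t.2.2 == 0 &&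
  hermV t.2.1 t.1 == 0 && hermV t.2.1 t.2.1 == 1 && hermV t.2.1 t.2.2 == 0 &&
  hermV t.2.2 t.1 == 0 && hermV t.2.2 t.2.1 == 0 && hermV t.2.2 t.2.2 == 1 && det3 t == 1

theorem preserves_of {t : T3} (h : suB t = true) : Preserves 5 (matOf t) := by
  simp only [suB, Bool.and_eq_true, beq_iff_eq] at h
  obtain ⟨⟨⟨⟨⟨⟨⟨⟨⟨h00, h01⟩, h02⟩, h10⟩, h11⟩, h12⟩, h20⟩, h21⟩, h22⟩, hd⟩ := h
  rw [preserves_iff_frame hF25]
  have hc0 : (fun i => matOf t i 0) = ofV t.1 := by
    funext i
    fin_cases i <;> rfl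
  have hc1 : (fun i => matOf t i 1) = ofV t.2.1 := by
    funext i
    fin_cases i <;> rfl
  have hc2 : (fun i => matOf t i 2) = ofV t.2.2 := by
    funext i
    fin_cases i <;> rfl
  intro j k
  fin_cases j <;> fin_cases k
  · change hermForm 3 F25 5 (fun i => matOf t i 0) (fun i => matOf t i 0) = _
    rw [hc0, herm_ofV, h00]
    rfl
  · change hermForm 3 F25 5 (fun i => matOf t i 0) (fun i => matOf t i 1) = _
    rw [hc0, hc1, herm_ofV, h01]
    rfl
  · change hermForm 3 F25 5 (fun i => matOf t i 0) (fun i => matOf t i 2) = _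
    rw [hc0, hc2, herm_ofV, h02]
    rfl
  · change hermForm 3 F25 5 (fun i => matOf t i 1) (fun i => matOf t i 0) = _
    rw [hc0, hc1, herm_ofV, h10]
    rfl
  · change hermForm 3 F25 5 (fun i => matOf t i 1) (fun i => matOf t i 1) = _
    rw [hc1, herm_ofV, h11]
    rfl
  · change hermForm 3 F25 5 (fun i => matOf t i 1) (fun i => matOf t i 2) = _
    rw [hc1, hc2, herm_ofV, h12]
    rfl
  · change hermForm 3 F25 5 (fun i => matOf t i 2) (fun i => matOf t i 0) = _
    rw [hc0, hc2, herm_ofV, h20]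
    rfl
  · change hermForm 3 F25 5 (fun i => matOf t i 2) (fun i => matOf t i 1) = _
    rw [hc1, hc2, herm_ofV, h21]
    rfl
  · change hermForm 3 F25 5 (fun i => matOf t i 2) (fun i => matOf t i 2) = _
    rw [hc2, herm_ofV, h22]
    rfl

theorem det_of {t : T3} (h : suB t = true) : (matOf t).det = 1 := by
  simp only [suB, Bool.and_eq_true, beq_iff_eq] at h
  rw [det_matOf]
  exact h.2

/-- The element of `SU₃(5)` of a checked matrix. -/
def gOf (t : T3) (h : suB t = true) : SU 3 F25 5 := mkSU (matOf t) (det_of h) (preserves_of h)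

theorem mat_gOf (t : T3) (h : suB t = true) : mat (gOf t h) = matOf t := rfl

theorem mat_pow (g : SU 3 F25 5) (n : ℕ) : mat (g ^ n) = mat g ^ n := by
  induction n with
  | zero => rfl
  | succ n ih => rw [pow_succ, mat_mul, ih, pow_succ]

theorem matOf_powT (t : T3) (n : ℕ) : matOf (powT t n) = matOf t ^ n := by
  induction n with
  | zero => rw [pow_zero]; exact matOf_one
  | succ n ih => rw [pow_succ, ← ih, matOf_mul]; rfl

theorem su_ext {a b : SU 3 F25 5} (h : mat a = mat b) : a = b :=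
  Subtype.ext (Subtype.ext h)

theorem gOf_pow {t : T3} (h : suB t = true) {n : ℕ} (hn : powT t n = oneT) : gOf t h ^ n = 1 := by
  apply su_ext
  rw [mat_pow, mat_gOf, ← matOf_powT, hn, matOf_one]
  rfl

def tY : T3 := ((e 10, e 0, e 17), (e 3, e 13, e 24), (e 22, e 10, e 2))
def tT : T3 := ((e 0, e 11, e 0), (e 0, e 0, e 4), (e 12, e 0, e 0))
def tF : T3 := ((e 3, e 0, e 21), (e 24, e 2, e 7), (e 15, e 14, e 1))
def tW : T3 := ((e 0, e 18, e 0), (e 22, e 0, e 16), (e 21, e 0, e 3))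
def tC : T3 := ((e 24, e 8, e 15), (e 6, e 10, e 22), (e 17, e 24, e 24))
def s0 : V3 := (e 0, e 1, e 10)

theorem suY : suB tY = true := by decide +kernel
theorem suT : suB tT = true := by decide +kernel
theorem suF : suB tF = true := by decide +kernel
theorem suW : suB tW = true := by decide +kernel
theorem suC : suB tC = true := by decide +kernel

def gY : SU 3 F25 5 := gOf tY suY
theorem mat_gY : mat gY = matOf tY := rfl
def gT : SU 3 F25 5 := gOf tT suT
theorem mat_gT : mat gT = matOf tT := rfl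
def gF : SU 3 F25 5 := gOf tF suF
theorem mat_gF : mat gF = matOf tF := rfl
def gW : SU 3 F25 5 := gOf tW suW
theorem mat_gW : mat gW = matOf tW := rfl
def gC : SU 3 F25 5 := gOf tC suC
theorem mat_gC : mat gC = matOf tC := rfl

theorem y7 : gY ^ 7 = 1 := gOf_pow suY (by decide +kernel)
theorem t3 : gT ^ 3 = 1 := gOf_pow suT (by decide +kernel)
theorem f4 : gF ^ 4 = 1 := gOf_pow suF (by decide +kernel)
theorem w5 : gW ^ 5 = 1 := gOf_pow suW (by decide +kernel)

theorem rel : gT * gY = gY ^ 2 * gT := by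
  apply su_ext
  rw [mat_mul, mat_mul, mat_pow, mat_gY, mat_gT, ← matOf_powT, matOf_mul, matOf_mul]
  have h : mulT tT tY = mulT (powT tY 2) tT := by decide +kernel
  rw [h]

theorem y_ne : gY ≠ 1 := by
  intro h
  have h1 : mat gY = 1 := by rw [h]; rfl
  rw [mat_gY, ← matOf_one] at h1
  have h2 := congrFun (congrFun h1 0) 0
  exact absurd h2 (by decide +kernel)

theorem f_ne : gF ^ 2 ≠ 1 := by
  intro h
  have h1 : mat (gF ^ 2) = 1 := by rw [h]; rfl
  rw [mat_pow, mat_gF, ← matOf_powT, ← matOf_one] at h1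
  have h2 := congrFun (congrFun h1 0) 0
  exact absurd h2 (by decide +kernel)

theorem w_ne : gW ≠ 1 := by
  intro h
  have h1 : mat gW = 1 := by rw [h]; rfl
  rw [mat_gW, ← matOf_one] at h1
  have h2 := congrFun (congrFun h1 0) 0
  exact absurd h2 (by decide +kernel)

/-! ### The set of 105 points -/

def ptsS : List V3 := [
  (e 0, e 1, e 10), (e 0, e 1, e 11), (e 0, e 1, e 16), (e 1, e 0, e 1),
  (e 1, e 0, e 5), (e 1, e 0, e 13), (e 1, e 1, e 4), (e 1, e 1, e 6),
  (e 1, e 1, e 9), (e 1, e 2, e 2), (e 1, e 2, e 7), (e 1, e 2, e 9),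
  (e 1, e 2, e 10), (e 1, e 2, e 24), (e 1, e 3, e 4), (e 1, e 3, e 10),
  (e 1, e 3, e 12), (e 1, e 3, e 22), (e 1, e 3, e 23), (e 1, e 4, e 3),
  (e 1, e 4, e 11), (e 1, e 4, e 20), (e 1, e 5, e 7), (e 1, e 5, e 10),
  (e 1, e 5, e 13), (e 1, e 6, e 4), (e 1, e 6, e 9), (e 1, e 6, e 11),
  (e 1, e 6, e 15), (e 1, e 6, e 16), (e 1, e 7, e 2), (e 1, e 7, e 10),
  (e 1, e 7, e 21), (e 1, e 8, e 5), (e 1, e 8, e 9), (e 1, e 8, e 18),
  (e 1, e 8, e 19), (e 1, e 8, e 23), (e 1, e 9, e 2), (e 1, e 9, e 10),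
  (e 1, e 9, e 11), (e 1, e 10, e 2), (e 1, e 10, e 6), (e 1, e 10, e 22),
  (e 1, e 11, e 12), (e 1, e 11, e 16), (e 1, e 11, e 22), (e 1, e 12, e 0),
  (e 1, e 12, e 1), (e 1, e 12, e 4), (e 1, e 13, e 3), (e 1, e 13, e 9),
  (e 1, e 13, e 15), (e 1, e 14, e 3), (e 1, e 14, e 4), (e 1, e 14, e 6),
  (e 1, e 14, e 8), (e 1, e 14, e 10), (e 1, e 14, e 15), (e 1, e 14, e 18),
  (e 1, e 14, e 19), (e 1, e 15, e 8), (e 1, e 15, e 10), (e 1, e 15, e 14),
  (e 1, e 16, e 4), (e 1, e 16, e 17), (e 1, e 16, e 24), (e 1, e 17, e 7),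
  (e 1, e 17, e 8), (e 1, e 17, e 9), (e 1, e 17, e 10), (e 1, e 17, e 14),
  (e 1, e 17, e 17), (e 1, e 17, e 20), (e 1, e 17, e 22), (e 1, e 18, e 1),
  (e 1, e 18, e 3), (e 1, e 18, e 9), (e 1, e 18, e 18), (e 1, e 18, e 19),
  (e 1, e 18, e 21), (e 1, e 18, e 22), (e 1, e 18, e 24), (e 1, e 19, e 4),
  (e 1, e 19, e 6), (e 1, e 19, e 9), (e 1, e 20, e 3), (e 1, e 20, e 12),
  (e 1, e 20, e 13), (e 1, e 21, e 0), (e 1, e 21, e 6), (e 1, e 21, e 24),
  (e 1, e 22, e 4), (e 1, e 22, e 5), (e 1, e 22, e 8), (e 1, e 22, e 21),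
  (e 1, e 22, e 24), (e 1, e 23, e 0), (e 1, e 23, e 14), (e 1, e 23, e 16),
  (e 1, e 24, e 2), (e 1, e 24, e 8), (e 1, e 24, e 17), (e 1, e 24, e 20),
  (e 1, e 24, e 23)]

def smulV (a : F25) (v : V3) : V3 := (a * v.1, a * v.2.1, a * v.2.2)

theorem ofV_smulV (a : F25) (v : V3) : ofV (smulV a v) = a • ofV v := by
  funext i
  fin_cases i <;> rfl

def lead (v : V3) : F25 := if v.1 ≠ 0 then v.1 else if v.2.1 ≠ 0 then v.2.1 else v.2.2

def nrm (v : V3) : V3 := smulV (lead v)⁻¹ v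

theorem eq_lead_smul {v : V3} (h : lead v ≠ 0) : ofV v = lead v • ofV (nrm v) := by
  rw [nrm, ofV_smulV, smul_smul, mul_inv_cancel₀ h, one_smul]

def pres (t : T3) : Bool := ptsS.all fun s => lead (appV t s) != 0 && ptsS.contains (nrm (appV t s))

theorem presY : pres tY = true := by decide +kernel
theorem presT : pres tT = true := by decide +kernel
theorem presF : pres tF = true := by decide +kernel
theorem presW : pres tW = true := by decide +kernel

/-- The vectors on the lines of the set. -/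
def Shat : Set (Fin 3 → F25) := {v | ∃ a : F25, a ≠ 0 ∧ ∃ s ∈ ptsS, v = a • ofV s}

theorem act_pres {t : T3} (h : suB t = true) (hp : pres t = true) :
    ∀ v ∈ Shat, act (gOf t h) v ∈ Shat := by
  rintro v ⟨a, ha, s, hs, rfl⟩
  have h1 := List.all_eq_true.1 hp s hs
  simp only [Bool.and_eq_true, bne_iff_ne, ne_eq, List.contains_iff_mem] at h1
  obtain ⟨hl, hn⟩ := h1
  refine ⟨a * lead (appV t s), mul_ne_zero ha hl, _, hn, ?_⟩
  rw [act_smul, act, mat_gOf, matOf_mulVec, eq_lead_smul hl, smul_smul]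

theorem act_pow_pres {g : SU 3 F25 5} (h : ∀ v ∈ Shat, act g v ∈ Shat) (n : ℕ) :
    ∀ v ∈ Shat, act (g ^ n) v ∈ Shat := by
  induction n with
  | zero =>
    intro v hv
    rw [pow_zero, act_one]
    exact hv
  | succ n ih =>
    intro v hv
    rw [pow_succ, act_mul]
    exact ih _ (h v hv)

theorem act_inv_pres {g : SU 3 F25 5} (h : ∀ v ∈ Shat, act g v ∈ Shat) {n : ℕ} (hn : g ^ (n + 1) = 1) :
    ∀ v ∈ Shat, act g⁻¹ v ∈ Shat := by
  have h1 : g⁻¹ = g ^ n := by
    rw [inv_eq_iff_mul_eq_one, ← pow_succ', hn]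
  rw [h1]
  exact act_pow_pres h n

/-- The subgroup generated by the four matrices. -/
def K : Subgroup (SU 3 F25 5) := Subgroup.closure {gY, gT, gF, gW}

theorem K_pres : ∀ g ∈ K, (∀ v ∈ Shat, act g v ∈ Shat) ∧ ∀ v ∈ Shat, act g⁻¹ v ∈ Shat := by
  intro g hg
  induction hg using Subgroup.closure_induction with
  | mem x hx =>
    rcases hx with rfl | rfl | rfl | rfl
    · exact ⟨act_pres suY presY, act_inv_pres (act_pres suY presY) y7⟩
    · exact ⟨act_pres suT presT, act_inv_pres (act_pres suT presT) t3⟩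
    · exact ⟨act_pres suF presF, act_inv_pres (act_pres suF presF) f4⟩
    · exact ⟨act_pres suW presW, act_inv_pres (act_pres suW presW) w5⟩
  | one =>
    simp
  | mul x y _ _ hx hy =>
    refine ⟨fun v hv => ?_, fun v hv => ?_⟩
    · rw [act_mul]
      exact hx.1 _ (hy.1 v hv)
    · rw [mul_inv_rev, act_mul]
      exact hy.2 _ (hx.2 v hv)
  | inv x _ hx =>
    refine ⟨hx.2, ?_⟩
    rw [inv_inv]
    exact hx.1

set_option maxRecDepth 100000 in
theorem not_pres_check : ∀ a : F25, a ≠ 0 → ptsS.all (fun s => smulV a s != appV tC s0) = true := by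
  decide +kernel

theorem s0_mem : s0 ∈ ptsS := by decide +kernel

theorem C_not_pres : act gC (ofV s0) ∉ Shat := by
  rintro ⟨a, ha, s, hs, h⟩
  have h1 := List.all_eq_true.1 (not_pres_check a ha) s hs
  simp only [bne_iff_ne, ne_eq] at h1
  apply h1
  apply ofV_inj
  rw [ofV_smulV, ← h, act, mat_gC, matOf_mulVec]

/-- The map to `PSU₃(5)`. -/
abbrev piF : SU 3 F25 5 →* PSU 3 F25 5 := QuotientGroup.mk' (Subgroup.center (SU 3 F25 5))

/-- The subgroup of index 50. -/
def H50 : Subgroup (PSU 3 F25 5) := K.map piF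

theorem H50_ne_top : H50 ≠ ⊤ := by
  intro htop
  have hc : piF gC ∈ H50 := by rw [htop]; trivial
  obtain ⟨g, hg, hgc⟩ := hc
  have hz : g⁻¹ * gC ∈ Subgroup.center (SU 3 F25 5) := QuotientGroup.eq.1 hgc
  obtain ⟨c, hc⟩ := center_scalar hF25 _ hz
  have hc0 : c ≠ 0 := by
    rintro rfl
    have h1 := (g⁻¹ * gC).1.2
    have h2 : mat (g⁻¹ * gC) = 0 := by
      have hc' : mat (g⁻¹ * gC) = Matrix.scalar (Fin 3) (0 : F25) := hc
      rw [hc']
      simp
    have h3 : (mat (g⁻¹ * gC)).det = 1 := h1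
    rw [h2] at h3
    simp at h3
  have hact : act gC (ofV s0) = c • act g (ofV s0) := by
    have h1 : gC = g * (g⁻¹ * gC) := by rw [mul_inv_cancel_left]
    rw [h1, act_mul, ← act_smul]
    congr 1
    have hc' : mat (g⁻¹ * gC) = Matrix.scalar (Fin 3) c := hc
    rw [act, hc', scalar_mulVec']
  apply C_not_pres
  rw [hact]
  have hs : ofV s0 ∈ Shat := ⟨1, one_ne_zero, s0, s0_mem, (one_smul _ _).symm⟩
  obtain ⟨a, ha, s, hs', hv⟩ := (K_pres g hg).1 _ hs
  refine ⟨c * a, mul_ne_zero hc0 ha, s, hs', ?_⟩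
  rw [hv, smul_smul]

/-- Elements of the centre have exponent three. -/
theorem center_cube {z : SU 3 F25 5} (hz : z ∈ Subgroup.center (SU 3 F25 5)) : z ^ 3 = 1 := by
  have hcard : Nat.card (Subgroup.center (SU 3 F25 5)) = Nat.gcd 3 (5 + 1) :=
    card_center_SU hF25 (by norm_num)
  have h1 := pow_card_eq_one' (x := (⟨z, hz⟩ : Subgroup.center (SU 3 F25 5)))
  rw [hcard] at h1
  exact congrArg Subtype.val h1

theorem piF_eq_one {g : SU 3 F25 5} (h : piF g = 1) : g ∈ Subgroup.center (SU 3 F25 5) :=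
  (QuotientGroup.eq_one_iff g).1 h

theorem ord_prime {g : SU 3 F25 5} {p : ℕ} [hp : Fact p.Prime] (hp3 : Nat.Coprime 3 p) (h1 : g ^ p = 1)
    (hne : g ≠ 1) : orderOf (piF g) = p := by
  apply orderOf_eq_prime
  · rw [← map_pow, h1, map_one]
  · intro h
    have h3 := center_cube (piF_eq_one h)
    have h4 := (pow_gcd_eq_one).2 ⟨h3, h1⟩
    rw [hp3] at h4
    exact hne (by simpa using h4)

theorem ord_three {g : SU 3 F25 5} (h1 : g ^ 3 = 1) (hne : g ∉ Subgroup.center (SU 3 F25 5)) :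
    orderOf (piF g) = 3 := by
  apply orderOf_eq_prime
  · rw [← map_pow, h1, map_one]
  · intro h
    exact hne (piF_eq_one h)

theorem ord_four {g : SU 3 F25 5} (h1 : g ^ 4 = 1) (hne : g ^ 2 ≠ 1) : orderOf (piF g) = 4 := by
  have h := orderOf_eq_prime_pow (p := 2) (n := 1) (x := piF g) ?_ ?_
  · simpa using h
  · intro h
    have h0 : piF (g ^ 2) = 1 := by
      rw [map_pow]
      simpa using h
    have h3 := center_cube (piF_eq_one h0)
    have h4 : (g ^ 2) ^ 2 = 1 := by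
      rw [← pow_mul]
      exact h1
    have h5 := (pow_gcd_eq_one).2 ⟨h3, h4⟩
    have h6 : Nat.gcd 3 2 = 1 := by norm_num
    rw [h6] at h5
    exact hne (by simpa using h5)
  · have h2 : g ^ 2 ^ (1 + 1) = 1 := h1
    rw [← map_pow, h2, map_one]

theorem ord_y : orderOf (piF gY) = 7 := ord_prime (by norm_num) y7 y_ne

theorem t_not_center : gT ∉ Subgroup.center (SU 3 F25 5) := by
  intro h
  have hc := (Subgroup.mem_center_iff.1 h) gY
  have h1 : gY * gT = gY ^ 2 * gT := hc.trans rel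
  have h2 : gY = gY ^ 2 := mul_right_cancel h1
  rw [pow_two] at h2
  exact y_ne (mul_eq_left.1 h2.symm)

theorem ord_t : orderOf (piF gT) = 3 := ord_three t3 t_not_center

theorem ord_f : orderOf (piF gF) = 4 := ord_four f4 f_ne

theorem ord_w : orderOf (piF gW) = 5 := ord_prime (by norm_num) w5 w_ne

theorem H50_index : H50.index = 50 := by
  have hsimp : IsSimpleGroup (PSU 3 F25 5) := isSimple F25.card_eq
  have mem : ∀ {g : SU 3 F25 5}, g ∈ K → piF g ∈ H50 := fun hg => ⟨_, hg, rfl⟩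
  refine index_eq_fifty (card_eq F25.card_eq) (ti F25.card_eq) (spec F25.card_eq) H50 H50_ne_top
    (y := piF gY) (t := piF gT) (f := piF gF) (w := piF gW)
    (mem (Subgroup.subset_closure (by simp))) (mem (Subgroup.subset_closure (by simp)))
    (mem (Subgroup.subset_closure (by simp))) (mem (Subgroup.subset_closure (by simp)))
    ord_y ord_t ord_f ord_w ?_
  rw [← map_inv, ← map_mul, ← map_mul, ← map_pow]
  congr 1
  rw [rel, mul_inv_cancel_right]

/-! ### Transport to an arbitrary field -/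

section Transport

variable {F : Type*} [Field F] [Fintype F]

/-- `SU` along a ring isomorphism, as an isomorphism. -/
noncomputable def suEquiv (e : F ≃+* F25) : SU 3 F 5 ≃* SU 3 F25 5 :=
  { toFun := SU3Two.suCongrHom e 3 5
    invFun := SU3Two.suCongrHom e.symm 3 5
    left_inv := by
      intro g
      apply Subtype.ext
      apply Subtype.ext
      ext i j
      exact e.symm_apply_apply _
    right_inv := by
      intro g
      apply Subtype.ext
      apply Subtype.ext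
      ext i j
      exact e.apply_symm_apply _
    map_mul' := map_mul _ }

/-- `PSU` along a ring isomorphism. -/
noncomputable def psuEquiv (e : F ≃+* F25) : PSU 3 F 5 ≃* PSU 3 F25 5 :=
  QuotientGroup.congr _ _ (suEquiv e) (SmallField.map_center_eq _)

theorem exists_index_fifty (hF : Fintype.card F = 25) : ∃ H : Subgroup (PSU 3 F 5), H.index = 50 := by
  refine ⟨H50.comap (psuEquiv (equivOfCard F hF)).toMonoidHom, ?_⟩
  rw [Subgroup.index_comap_of_surjective H50 (f := (psuEquiv (equivOfCard F hF)).toMonoidHom)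
    (psuEquiv (equivOfCard F hF)).surjective, H50_index]

end Transport

end Cfsg.Agent.Lib.Compute.PSU35
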