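import Mathlib
import Cfsg.Agent.Lib.Compute.Ree3

/-!
# The derived group of `²G₂(3)`, as a group of permutations of 9 points
-/

set_option autoImplicit false
set_option linter.unusedVariables false

namespace Cfsg.Agent.Lib.Compute.Ree3

open Matrix Cfsg.Lie Cfsg.Agent.Lib.Compute.GF8
open Cfsg.Agent.Lib.Compute.IndexTwo Cfsg.Agent.Lib.Compute.ChevTransport
open scoped MatrixGroups

/-- The transvections of `SL₂(F8)`: upper for `n < 8`, lower otherwise. -/
def uu (n : Fin 16) : SL(2, F8) :=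
  bif Nat.blt n.val 8 then Cfsg.Agent.Lib.PSL2.Basic.x (F8.ofN n.val) else Cfsg.Agent.Lib.PSL2.Basic.y (F8.ofN (n.val - 8))

/-- The point of the projective line of a vector. -/
def pt (v : Fin 2 → F8) : Option (Fin 9) :=
  if v 0 = 0 then (if v 1 = 0 then none else some 8) else some (Fin.castSucc (v 1 * (v 0)⁻¹).v)

/-- The packed permutations of the transvections. -/
def TA : List ℕ := [36344967696, 4922230656, 22305469536, 26979279696, 32282923296, 8913250416, 14268073536, 18910549296, 36344967696, 36092322561, 35776761906, 35524116771, 35199678036, 34947032901, 34631472246, 34378827111]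

theorem TA_inv : ∀ (n : Fin 16) (i : Fin 9), pkd (TA.getD n 0) (pkd (TA.getD n 0) i) = i := by decide +kernel

/-- The permutation of a transvection. -/
def tauF (n : Fin 16) : Equiv.Perm (Fin 9) :=
  ⟨pkd (TA.getD n 0), pkd (TA.getD n 0), TA_inv n, TA_inv n⟩

/-- The relation between `SL₂(F8)` and the permutations of the 9 points. -/
def R1 : Subgroup (SL(2, F8) × Equiv.Perm (Fin 9)) where
  carrier := {p | ∀ v, pt ((p.1 : Matrix (Fin 2) (Fin 2) F8) *ᵥ v) = (pt v).map p.2}
  one_mem' := by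
    intro v
    simp
  mul_mem' := by
    intro p q hp hq v
    have h1 : ((p * q).1 : Matrix (Fin 2) (Fin 2) F8) = (p.1 : Matrix (Fin 2) (Fin 2) F8) * (q.1 : Matrix (Fin 2) (Fin 2) F8) := rfl
    rw [h1, ← Matrix.mulVec_mulVec, hp, hq, Option.map_map]
    rfl
  inv_mem' := by
    intro p hp v
    have h1 := hp (((p⁻¹).1 : Matrix (Fin 2) (Fin 2) F8) *ᵥ v)
    have h2 : ((p.1 : SL(2, F8)) : Matrix (Fin 2) (Fin 2) F8) *ᵥ (((p⁻¹).1 : Matrix (Fin 2) (Fin 2) F8) *ᵥ v) = v := by
      rw [Matrix.mulVec_mulVec]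
      have : ((p.1 : SL(2, F8)) : Matrix (Fin 2) (Fin 2) F8) * ((p⁻¹).1 : Matrix (Fin 2) (Fin 2) F8) = 1 := by
        have h3 : p.1 * (p⁻¹).1 = 1 := by simp
        exact congrArg Subtype.val h3
      rw [this, Matrix.one_mulVec]
    rw [h2] at h1
    rw [h1, Option.map_map]
    have h4 : (⇑p⁻¹.2 ∘ ⇑p.2) = id := by
      funext i
      simp
    rw [h4, Option.map_id]
    rfl

theorem hR1_chk : ∀ (n : Fin 16) (a b : F8), pt ((uu n : Matrix (Fin 2) (Fin 2) F8) *ᵥ ![a, b]) = (pt ![a, b]).map (tauF n) := by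
  decide +kernel

theorem eta2 (v : Fin 2 → F8) : v = ![v 0, v 1] := by
  funext i
  fin_cases i <;> rfl

theorem hR1 (n : Fin 16) : (uu n, tauF n) ∈ R1 := by
  intro v
  rw [eta2 v]
  exact hR1_chk n _ _

theorem pt_surj : ∀ i : Fin 9, ∃ a b : F8, pt ![a, b] = some i := by decide +kernel

theorem R1_fst {p : SL(2, F8) × Equiv.Perm (Fin 9)} (hp : p ∈ R1) (h : p.1 = 1) : p.2 = 1 := by
  ext i
  obtain ⟨a, b, hab⟩ := pt_surj i
  have h1 := hp ![a, b]
  rw [h, hab] at h1
  have hone : ((1 : SL(2, F8)).1 : Matrix (Fin 2) (Fin 2) F8) = 1 := rfl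
  have h2 : pt ((1 : SL(2, F8)).1 *ᵥ ![a, b]) = some i := by
    rw [hone, Matrix.one_mulVec, hab]
  have h3 : some i = Option.map p.2 (some i) := h2.symm.trans h1
  exact congrArg Fin.val (Option.some.inj h3).symm

theorem k0 : ∀ a c : F8, pt ![a, c] = pt ![1, 0] → c = 0 := by decide +kernel
theorem k1 : ∀ b d : F8, pt ![b, d] = pt ![0, 1] → b = 0 := by decide +kernel
theorem k2 : ∀ x y : F8, pt ![x, y] = pt ![1, 1] → x = y := by decide +kernel
theorem k3 : ∀ a : F8, a * a = 1 → a = 1 := by decide +kernel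

theorem R1_snd {p : SL(2, F8) × Equiv.Perm (Fin 9)} (hp : p ∈ R1) (h : p.2 = 1) : p.1 = 1 := by
  set M : Matrix (Fin 2) (Fin 2) F8 := (p.1 : Matrix (Fin 2) (Fin 2) F8) with hM
  have h1 : ∀ v, pt (M *ᵥ v) = pt v := by
    intro v
    have h2 := hp v
    rw [h] at h2
    simpa using h2
  have hv : ∀ a b : F8, M *ᵥ ![a, b] = ![M 0 0 * a + M 0 1 * b, M 1 0 * a + M 1 1 * b] := by
    intro a b
    funext i
    fin_cases i <;> simp [Matrix.mulVec, dotProduct, Fin.sum_univ_two]
  have e0 := k0 _ _ ((congrArg pt (hv 1 0).symm).trans (h1 _))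
  have e1 := k1 _ _ ((congrArg pt (hv 0 1).symm).trans (h1 _))
  have e2 := k2 _ _ ((congrArg pt (hv 1 1).symm).trans (h1 _))
  simp only [mul_one, mul_zero, add_zero, zero_add] at e0 e1 e2
  rw [e0, e1] at e2
  simp only [add_zero, zero_add] at e2
  have hdet : M.det = 1 := p.1.2
  rw [Matrix.det_fin_two, e0, e1, ← e2] at hdet
  simp only [mul_zero, sub_zero] at hdet
  have e3 := k3 _ hdet
  apply Subtype.ext
  change M = 1
  apply Matrix.ext
  intro i j
  fin_cases i <;> fin_cases j <;> simp [e0, e1, e3, ← e2]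

/-- The transvections generate. -/
theorem tv_eq : ∀ c : F8, (∃ n, uu n = SpecialLinearGroup.transvection (i := 0) (j := 1) (by decide) c) ∧
    (∃ n, uu n = SpecialLinearGroup.transvection (i := 1) (j := 0) (by decide) c) := by
  decide +kernel

theorem closure_uu : Subgroup.closure (Set.range uu) = ⊤ := by
  rw [eq_top_iff]
  intro B _
  refine Matrix.SL2.transvection_induction (fun B => B ∈ Subgroup.closure (Set.range uu)) ?_ ?_ B
  · intro i j h c
    fin_cases i <;> fin_cases j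
    · exact absurd rfl h
    · obtain ⟨n, hn⟩ := (tv_eq c).1
      exact Subgroup.subset_closure ⟨n, hn⟩
    · obtain ⟨n, hn⟩ := (tv_eq c).2
      exact Subgroup.subset_closure ⟨n, hn⟩
    · exact absurd rfl h
  · intro C D hC hD
    exact mul_mem hC hD

/-- The image of `SL₂(F8)` in the permutations of the 9 points. -/
def T : Subgroup (Equiv.Perm (Fin 9)) := Subgroup.closure (Set.range tauF)

theorem equiv_T : Nonempty (SL(2, F8) ≃* ↥T) := by
  obtain ⟨e⟩ := equiv_of_graph uu tauF R1 hR1 (fun _ hp h => R1_fst hp h) (fun _ hp h => R1_snd hp h)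
  exact ⟨(Subgroup.topEquiv.symm.trans (MulEquiv.subgroupCongr closure_uu).symm).trans e⟩

/-! ### Inside the permutations -/

theorem F_inv : ∀ i : Fin 9, pkd 35772331536 (pkd 35206353936 i) = i ∧ pkd 35206353936 (pkd 35772331536 i) = i := by decide +kernel

/-- The Frobenius map on the 9 points. -/
def Fr : Equiv.Perm (Fin 9) := ⟨pkd 35206353936, pkd 35772331536, fun i => (F_inv i).1, fun i => (F_inv i).2⟩

/-- The product of a word in the generators of `Q`. -/
def prodS : List (Fin 54) → Equiv.Perm (Fin 9)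
  | [] => 1
  | j :: w => sg j * prodS w

/-- The product of a word in the transvections. -/
def prodT : List (Fin 16) → Equiv.Perm (Fin 9)
  | [] => 1
  | j :: w => tauF j * prodT w

theorem prodS_mem (w : List (Fin 54)) : prodS w ∈ Q := by
  induction w with
  | nil => exact one_mem _
  | cons j w ih => exact mul_mem (Subgroup.subset_closure ⟨j, rfl⟩) ih

theorem prodT_mem (w : List (Fin 16)) : prodT w ∈ T := by
  induction w with
  | nil => exact one_mem _
  | cons j w ih => exact mul_mem (Subgroup.subset_closure ⟨j, rfl⟩) ih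

/-- Words for the transvections in the generators of `Q`. -/
def twd : List (List (Fin 54)) := [[], [4, 45], [5, 24, 43], [2, 13, 10], [3, 26, 47], [2, 7, 16], [33, 20], [9, 36], [], [30, 23], [11, 18], [2, 29], [4, 7, 14], [4, 13, 8], [3, 42, 25], [3, 20, 31]]
/-- A word for the Frobenius map. -/
def fwd : List (Fin 54) := [28, 19]
/-- The powers of the Frobenius map in the generators of `Q`. -/
def kk : List ℕ := [0, 0, 0, 0, 0, 0, 2, 2, 2, 2, 2, 2, 1, 1, 1, 1, 1, 1, 1, 1, 1, 1, 1, 1, 0, 0, 0, 0, 0, 0, 2, 2, 2, 2, 2, 2, 1, 1, 1, 1, 1, 1, 0, 0, 0, 0, 0, 0, 2, 2, 2, 2, 2, 2]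
/-- The words in the transvections for the generators of `Q`. -/
def swd : List (List (Fin 16)) := [[], [], [4, 15], [6, 10, 3], [15, 4], [3, 10, 6], [1, 11, 5, 14], [1, 15, 2], [3, 14, 7], [6, 15, 7], [5, 14, 3], [10, 6, 14], [1, 10, 6, 14], [6, 13, 1], [7, 12, 3], [12, 4, 14], [5, 12, 7], [5, 13, 4], [7, 13, 7], [6, 10, 4], [11, 5], [3, 11, 6], [2, 14, 5], [3, 9, 3], [5, 13, 1], [12, 5], [3, 9, 7], [2, 11, 7], [6, 12, 2], [1, 15, 4], [1, 13, 4], [1, 12, 7], [1, 10], [5, 13], [5, 15, 7], [2, 9], [5, 13, 3], [9, 6], [14, 1], [11, 3], [2, 11, 1], [5, 10, 1], [1, 13, 5], [5, 12], [2, 12, 6], [4, 15, 1], [7, 9, 3], [7, 11, 2], [7, 13], [2, 13, 5], [3, 15, 3], [6, 12, 2], [7, 10, 4], [5, 9, 5]]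
/-- Conjugation of the transvections by the Frobenius map. -/
def cf : List (Fin 16) := [0, 1, 4, 5, 6, 7, 2, 3, 0, 9, 12, 13, 14, 15, 10, 11]
/-- Conjugation of the transvections by the inverse of the Frobenius map. -/
def cfi : List (Fin 16) := [0, 1, 6, 7, 2, 3, 4, 5, 0, 9, 14, 15, 10, 11, 12, 13]

theorem tw_chk : ∀ n : Fin 16, prodS (twd.getD n.val []) = tauF n := by decide +kernel
theorem fw_chk : prodS fwd = Fr := by decide +kernel
theorem sw_chk : ∀ j : Fin 54, sg j = Fr ^ (kk.getD j.val 0) * prodT (swd.getD j.val []) := by decide +kernel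
theorem cf_chk : ∀ n : Fin 16, Fr * tauF n * Fr⁻¹ = tauF (cf.getD n.val 0) := by decide +kernel
theorem cfi_chk : ∀ n : Fin 16, Fr⁻¹ * tauF n * Fr = tauF (cfi.getD n.val 0) := by decide +kernel

theorem T_le_Q : T ≤ Q := by
  rw [T, Subgroup.closure_le]
  rintro _ ⟨n, rfl⟩
  rw [← tw_chk n]
  exact prodS_mem _

theorem Fr_mem_Q : Fr ∈ Q := by
  rw [← fw_chk]
  exact prodS_mem _

theorem conj_T (h : Equiv.Perm (Fin 9)) (hh : h ∈ T) : Fr * h * Fr⁻¹ ∈ T := by
  induction hh using Subgroup.closure_induction with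
  | mem x hx =>
    obtain ⟨n, rfl⟩ := hx
    rw [cf_chk]
    exact Subgroup.subset_closure ⟨_, rfl⟩
  | one => simp [one_mem]
  | mul x y _ _ hx hy =>
    have : Fr * (x * y) * Fr⁻¹ = (Fr * x * Fr⁻¹) * (Fr * y * Fr⁻¹) := by group
    rw [this]
    exact mul_mem hx hy
  | inv x _ hx =>
    have : Fr * x⁻¹ * Fr⁻¹ = (Fr * x * Fr⁻¹)⁻¹ := by group
    rw [this]
    exact inv_mem hx

theorem conj_T' (h : Equiv.Perm (Fin 9)) (hh : h ∈ T) : Fr⁻¹ * h * Fr ∈ T := by
  induction hh using Subgroup.closure_induction with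
  | mem x hx =>
    obtain ⟨n, rfl⟩ := hx
    rw [cfi_chk]
    exact Subgroup.subset_closure ⟨_, rfl⟩
  | one => simp [one_mem]
  | mul x y _ _ hx hy =>
    have : Fr⁻¹ * (x * y) * Fr = (Fr⁻¹ * x * Fr) * (Fr⁻¹ * y * Fr) := by group
    rw [this]
    exact mul_mem hx hy
  | inv x _ hx =>
    have : Fr⁻¹ * x⁻¹ * Fr = (Fr⁻¹ * x * Fr)⁻¹ := by group
    rw [this]
    exact inv_mem hx

theorem Fr_norm : Fr ∈ Subgroup.normalizer (T : Set (Equiv.Perm (Fin 9))) := by
  rw [Subgroup.mem_normalizer_iff]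
  intro h
  constructor
  · exact conj_T h
  · intro hh
    have := conj_T' _ hh
    have e : Fr⁻¹ * (Fr * h * Fr⁻¹) * Fr = h := by group
    rwa [e] at this

theorem Q_le_sup : Q ≤ T ⊔ Subgroup.zpowers Fr := by
  rw [Q, Subgroup.closure_le]
  rintro _ ⟨j, rfl⟩
  rw [sw_chk j]
  refine mul_mem ?_ (Subgroup.mem_sup_left (prodT_mem _))
  exact Subgroup.mem_sup_right (pow_mem (Subgroup.mem_zpowers Fr) _)

theorem sup_le_Q : T ⊔ Subgroup.zpowers Fr ≤ Q :=
  sup_le T_le_Q ((Subgroup.zpowers_le).2 Fr_mem_Q)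

theorem Q_norm : Q ≤ Subgroup.normalizer (T : Set (Equiv.Perm (Fin 9))) := by
  refine Q_le_sup.trans (sup_le Subgroup.le_normalizer ?_)
  exact (Subgroup.zpowers_le).2 Fr_norm

/-- The derived group of `Q`, from a perfect group `T`. -/
theorem commutator_Q (hperf : commutator ↥T = ⊤) : commutator ↥Q = T.subgroupOf Q := by
  have hn : (T.subgroupOf Q).Normal := (Subgroup.normal_subgroupOf_iff_le_normalizer T_le_Q).2 Q_norm
  apply le_antisymm
  · refine Subgroup.Normal.commutator_le_of_self_sup_commutative_eq_top (H := (Subgroup.zpowers Fr).subgroupOf Q) ?_ ?_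
    · rw [← Subgroup.subgroupOf_sup T_le_Q ((Subgroup.zpowers_le).2 Fr_mem_Q)]
      exact Subgroup.subgroupOf_eq_top.2 Q_le_sup
    · refine ⟨⟨fun a b => ?_⟩⟩
      apply Subtype.ext
      apply Subtype.ext
      obtain ⟨m, hm⟩ := a.2
      obtain ⟨l, hl⟩ := b.2
      change (a.1.1) * (b.1.1) = (b.1.1) * (a.1.1)
      have hm' : (Fr ^ m : Equiv.Perm (Fin 9)) = a.1.1 := hm
      have hl' : (Fr ^ l : Equiv.Perm (Fin 9)) = b.1.1 := hl
      rw [← hm', ← hl', ← _root_.zpow_add, ← _root_.zpow_add, add_comm]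
  · have h1 : commutator ↥(T.subgroupOf Q) = ⊤ := by
      obtain ⟨f⟩ := commutator_congr (Subgroup.subgroupOfEquivOfLe T_le_Q)
      have h2 : Nat.card (commutator ↥(T.subgroupOf Q)) = Nat.card ↥(T.subgroupOf Q) := by
        rw [Nat.card_congr f.toEquiv, hperf, Subgroup.card_top,
          Nat.card_congr (Subgroup.subgroupOfEquivOfLe T_le_Q).toEquiv]
      exact Subgroup.eq_top_of_card_eq _ h2
    exact le_commutator_of_perfect _ h1

end Cfsg.Agent.Lib.Compute.Ree3
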