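import Cfsg.Agent.Lib.Compute.GFModel
import Cfsg.Agent.Lib.Compute.BlockIso
import Cfsg.Agent.Lib.Classical.Symp.Count

/-!
# The symplectic group `Sp(4, 4)` acting on the 85 points of the projective space

Canonical labelling of the projective points of `GF4 ^ 4` by `Fin 85`, and the homomorphism
`rho : Sp(4,4) →* Equiv.Perm (Fin 85)`.
-/

set_option autoImplicit false

namespace Cfsg.Agent.Lib.Compute.Sp44

open Cfsg.Agent.Lib.Compute.GFModel Cfsg.Agent.Lib.Compute.BlockIso

/-- The coordinates. -/
abbrev I4 : Type := Fin 2 ⊕ Fin 2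
/-- Vectors. -/
abbrev V4 : Type := I4 → GF4
/-- The symplectic group. -/
abbrev Sp4 : Type := Matrix.symplecticGroup (Fin 2) GF4

/-- Code of a field element. -/
def codeC (x : GF4) : ℕ := x.re.val + 2 * x.im.val
/-- Field element of a code. -/
def decC (n : ℕ) : GF4 := ⟨((n % 2 : ℕ) : ZMod 2), ((n / 2 % 2 : ℕ) : ZMod 2)⟩
/-- Code of a vector. -/
def enc (v : V4) : ℕ :=
  codeC (v (.inl 0)) + 4 * codeC (v (.inl 1)) + 16 * codeC (v (.inr 0)) + 64 * codeC (v (.inr 1))
/-- Vector of a code. -/
def dec (e : ℕ) : V4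
  | .inl 0 => decC (e % 4)
  | .inl 1 => decC (e / 4 % 4)
  | .inr 0 => decC (e / 16 % 4)
  | .inr 1 => decC (e / 64 % 4)

/-- Normalised representatives of the projective points. -/
def repsL : List ℕ := [1,4,5,9,13,16,17,20,21,25,29,33,36,37,41,45,49,52,53,57,61,64,65,68,69,73,77,80,81,84,85,89,93,97,100,101,105,109,113,116,117,121,125,129,132,133,137,141,144,145,148,149,153,157,161,164,165,169,173,177,180,181,185,189,193,196,197,201,205,208,209,212,213,217,221,225,228,229,233,237,241,244,245,249,253]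
/-- The label of a vector code (85 for the zero vector). -/
def labL : List ℕ := [85,0,0,0,1,2,4,3,1,3,2,4,1,4,3,2,5,6,16,11,7,8,20,14,17,9,18,15,12,10,19,13,5,11,6,16,12,13,10,19,7,14,8,20,17,15,9,18,5,16,11,6,17,18,15,9,12,19,13,10,7,20,14,8,21,22,64,43,23,24,68,46,65,25,66,47,44,26,67,45,27,28,80,54,29,30,84,57,81,31,82,58,55,32,83,56,69,33,70,59,34,35,74,62,71,36,72,63,60,37,73,61,48,38,75,49,39,40,79,52,76,41,77,53,50,42,78,51,21,43,22,64,44,45,26,67,23,46,24,68,65,47,25,66,48,49,38,75,50,51,42,78,39,52,40,79,76,53,41,77,27,54,28,80,55,56,32,83,29,57,30,84,81,58,31,82,69,59,33,70,60,61,37,73,34,62,35,74,71,63,36,72,21,64,43,22,65,66,47,25,44,67,45,26,23,68,46,24,69,70,59,33,71,72,63,36,60,73,61,37,34,74,62,35,48,75,49,38,76,77,53,41,50,78,51,42,39,79,52,40,27,80,54,28,81,82,58,31,55,83,56,32,29,84,57,30]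

/-- The representative with a given number. -/
def rep' (n : ℕ) : V4 := dec (repsL.getD n 0)
/-- The representative of a label. -/
def rep (y : Fin 85) : V4 := rep' y
/-- The label of a vector, as a number. -/
def lab (v : V4) : ℕ := labL.getD (enc v) 85
/-- The partial labelling. -/
def l (v : V4) : Option (Fin 85) := if h : lab v < 85 then some ⟨lab v, h⟩ else none

set_option maxRecDepth 100000 in
theorem H1 : ∀ v : V4, v ≠ 0 → lab v < 85 ∧ ∃ c : GF4, c ≠ 0 ∧ v = c • rep' (lab v) := by decide +kernel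

set_option maxRecDepth 100000 in
theorem H2 : ∀ y : Fin 85, lab (rep y) = y := by decide +kernel

theorem H3 : lab 0 = 85 := by decide +kernel

set_option maxRecDepth 100000 in
theorem H4 : ∀ v : V4, v ≠ 0 → ∀ c : GF4, c ≠ 0 → lab (c • v) = lab v := by decide +kernel

theorem l_rep (y : Fin 85) : l (rep y) = some y := by
  unfold l
  rw [dif_pos (by rw [H2]; exact y.2)]
  congr 1
  exact Fin.ext (H2 y)

theorem l_eq_some {v : V4} {y : Fin 85} : l v = some y ↔ lab v = y := by
  unfold l
  split_ifs with h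
  · constructor
    · intro h1
      have := Option.some.inj h1
      rw [← this]
    · intro h1
      congr 1
      exact Fin.ext h1
  · constructor
    · intro h1; cases h1
    · intro h1
      exact absurd (by rw [h1]; exact y.2) h

theorem rep_ne (y : Fin 85) : rep y ≠ 0 := by
  intro h
  have h1 := H2 y
  rw [h, H3] at h1
  have := y.2
  omega

/-- The action on vectors. -/
def spPerm : Sp4 →* Equiv.Perm V4 where
  toFun A :=
    { toFun := fun v => Matrix.mulVec A.1 v
      invFun := fun v => Matrix.mulVec (A⁻¹).1 v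
      left_inv := fun v => by
        show Matrix.mulVec (A⁻¹).1 (Matrix.mulVec A.1 v) = v
        rw [Matrix.mulVec_mulVec]
        have : (A⁻¹).1 * A.1 = 1 := congrArg Subtype.val (inv_mul_cancel A)
        rw [this, Matrix.one_mulVec]
      right_inv := fun v => by
        show Matrix.mulVec A.1 (Matrix.mulVec (A⁻¹).1 v) = v
        rw [Matrix.mulVec_mulVec]
        have : A.1 * (A⁻¹).1 = 1 := congrArg Subtype.val (mul_inv_cancel A)
        rw [this, Matrix.one_mulVec] }
  map_one' := Equiv.ext fun v => by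
    show Matrix.mulVec (1 : Sp4).1 v = v
    exact Matrix.one_mulVec v
  map_mul' A B := Equiv.ext fun v => by
    show Matrix.mulVec (A * B).1 v = Matrix.mulVec A.1 (Matrix.mulVec B.1 v)
    rw [Matrix.mulVec_mulVec]
    rfl

theorem spPerm_apply (A : Sp4) (v : V4) : spPerm A v = Matrix.mulVec A.1 v := rfl

theorem exists_rho : ∃ ψ : Sp4 →* Equiv.Perm (Fin 85),
    ∀ a i y, l i = some y → l (spPerm a i) = some (ψ a y) := by
  refine hom_of_label spPerm l (fun y => ⟨rep y, l_rep y⟩) ?_
  intro A y
  have hne : spPerm A (rep y) ≠ 0 := by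
    intro h
    have h1 : spPerm A (rep y) = spPerm A 0 := by
      rw [h, spPerm_apply, Matrix.mulVec_zero]
    exact rep_ne y ((spPerm A).injective h1)
  have h2 := (H1 _ hne).1
  refine ⟨⟨lab (spPerm A (rep y)), h2⟩, ?_⟩
  intro i hi
  have hlab := l_eq_some.1 hi
  have hi0 : i ≠ 0 := by
    rintro rfl
    rw [H3] at hlab
    have := y.2
    omega
  obtain ⟨-, c, hc, hic⟩ := H1 i hi0
  rw [hlab] at hic
  rw [l_eq_some]
  show lab (spPerm A i) = lab (spPerm A (rep y))
  have h3 : i = c • rep y := hic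
  rw [h3, spPerm_apply, Matrix.mulVec_smul, ← spPerm_apply]
  exact H4 _ hne c hc

/-- The action of `Sp(4,4)` on the projective points. -/
noncomputable def rho : Sp4 →* Equiv.Perm (Fin 85) := exists_rho.choose

theorem rho_spec (a : Sp4) (i : V4) (y : Fin 85) (h : l i = some y) :
    l (spPerm a i) = some (rho a y) := exists_rho.choose_spec a i y h

/-- The action of a symplectic matrix on the labels, from a table. -/
theorem rho_eq (A : Sp4) (π : Equiv.Perm (Fin 85))
    (h : ∀ y, lab (Matrix.mulVec A.1 (rep y)) = π y) : rho A = π := by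
  refine Equiv.ext fun y => ?_
  have h1 := rho_spec A (rep y) y (l_rep y)
  rw [l_eq_some, spPerm_apply, h y] at h1
  exact Fin.ext h1.symm

/-- The order of the group. -/
theorem card_Sp4 : Nat.card Sp4 = 979200 := by
  have h : Nat.card GF4 = 4 := by rw [Nat.card_eq_fintype_card, card_GF4]
  rw [Cfsg.Agent.Lib.Classical.Symp.Count.card_symplecticGroup h 2]
  decide

end Cfsg.Agent.Lib.Compute.Sp44
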