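import Mathlib
import Cfsg.Prelude.Def_Sz

/-! The Suzuki group `Cfsg.Lie.Sz F k` over isomorphic fields. -/

set_option autoImplicit false

namespace Cfsg.Agent.Lib.Compute.SzCongr

/-- The general linear group over two isomorphic fields. -/
noncomputable def glMap {F F' : Type*} [Field F] [Field F'] (e : F ≃+* F') : GL (Fin 4) F ≃* GL (Fin 4) F' :=
  Units.mapEquiv (RingEquiv.mapMatrix e).toMulEquiv

theorem glMap_val {F F' : Type*} [Field F] [Field F'] (e : F ≃+* F') (x : GL (Fin 4) F) :
    ((glMap e x : GL (Fin 4) F') : Matrix (Fin 4) (Fin 4) F') = (x : Matrix (Fin 4) (Fin 4) F).map e := rfl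

theorem glMap_mem {F F' : Type*} [Field F] [Field F'] (e : F ≃+* F') (k : ℕ) {x : GL (Fin 4) F}
    (hx : x ∈ Cfsg.Lie.Sz F k) : glMap e x ∈ Cfsg.Lie.Sz F' k := by
  unfold Cfsg.Lie.Sz at hx
  induction hx using Subgroup.closure_induction with
  | mem x hx =>
    obtain ⟨h1, h2⟩ := hx
    apply Subgroup.subset_closure
    constructor
    · intro u v
      have h3 := h1 (fun i => e.symm (u i)) (fun i => e.symm (v i))
      have h4 := congrArg e h3
      simp only [Cfsg.Lie.altForm4, map_add, map_mul, Units.coeHom_apply] at h4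
      simp only [Cfsg.Lie.altForm4, Units.coeHom_apply, glMap_val]
      have hu : ∀ (w : Fin 4 → F') (i : Fin 4), (((x : Matrix (Fin 4) (Fin 4) F).map e).mulVec w) i =
          e (((x : Matrix (Fin 4) (Fin 4) F).mulVec (fun i => e.symm (w i))) i) := by
        intro w i
        simp [Matrix.mulVec, dotProduct, map_sum]
      simp only [hu]
      simpa using h4
    · ext p r
      have h3 := congrFun (congrFun h2 p) r
      have h4 := congrArg e h3
      simpa [Cfsg.Lie.star4, glMap_val, Matrix.map_apply] using h4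
  | one => rw [map_one]; exact one_mem _
  | mul a b _ _ ha hb => rw [map_mul]; exact mul_mem ha hb
  | inv a _ ha => rw [map_inv]; exact inv_mem ha

/-- The Suzuki group over two isomorphic fields. -/
noncomputable def szCongr {F F' : Type*} [Field F] [Field F'] (e : F ≃+* F') (k : ℕ) :
    Cfsg.Lie.Sz F k ≃* Cfsg.Lie.Sz F' k :=
  ((glMap e).subgroupMap (Cfsg.Lie.Sz F k)).trans (MulEquiv.subgroupCongr (by
    apply le_antisymm
    · rintro _ ⟨x, hx, rfl⟩
      exact glMap_mem e k hx
    · intro y hy
      refine ⟨glMap e.symm y, glMap_mem e.symm k hy, ?_⟩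
      apply Units.ext
      ext i j
      simp [glMap_val]))

end Cfsg.Agent.Lib.Compute.SzCongr
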