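import Cfsg.Prelude.Def_SporadicCombinatorics

/-!
An explicit parametrisation of the length-12 ternary code by `Fin 6 → ZMod 3`, its weight
distribution, self-orthogonality and the Steiner system of its weight-6 supports.
-/

set_option autoImplicit false

namespace Cfsg.Agent.Lib.Compute.TernaryGolay

open Cfsg

/-- A basis of the code; the coordinates are listed column by column. -/
def B : Fin 6 → Fin 12 → ZMod 3 :=
  ![![2,2,2,1,1,1,0,0,0,0,0,0],
    ![0,1,2,1,2,0,2,1,0,0,0,0],
    ![2,1,0,2,1,0,2,0,1,0,0,0],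
    ![0,2,1,1,2,0,0,0,0,2,1,0],
    ![2,0,1,2,1,0,0,0,0,2,0,1],
    ![1,2,2,2,0,0,2,0,0,2,0,0]]

/-- Position of a point of the array in the list of coordinates. -/
def idx (p : ArrayPt) : Fin 12 := ⟨3 * p.1.val + p.2.val, by
  have h1 := p.1.isLt
  have h2 : p.2.val < 3 := ZMod.val_lt p.2
  omega⟩

/-- The word with coordinates `c` in the basis `B`. -/
def word (c : Fin 6 → ZMod 3) : ArrayPt → ZMod 3 := fun p =>
  c 0 * B 0 (idx p) + c 1 * B 1 (idx p) + c 2 * B 2 (idx p) + c 3 * B 3 (idx p) +
    c 4 * B 4 (idx p) + c 5 * B 5 (idx p)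

theorem forall_arrayPt {P : ArrayPt → Prop}
    (h00 : P (0,0)) (h01 : P (0,1)) (h02 : P (0,2))
    (h10 : P (1,0)) (h11 : P (1,1)) (h12 : P (1,2))
    (h20 : P (2,0)) (h21 : P (2,1)) (h22 : P (2,2))
    (h30 : P (3,0)) (h31 : P (3,1)) (h32 : P (3,2)) : ∀ p, P p := by
  rintro ⟨i, r⟩
  fin_cases i <;> fin_cases r <;> assumption

theorem sum_zmod3 (f : ZMod 3 → ZMod 3) : ∑ r, f r = f 0 + f 1 + f 2 := by
  have : (Finset.univ : Finset (ZMod 3)) = {0, 1, 2} := by decide
  rw [this, Finset.sum_insert (by decide), Finset.sum_insert (by decide), Finset.sum_singleton]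
  ring

theorem mem_tetracode_iff (t : Fin 4 → ZMod 3) :
    t ∈ tetracode ↔ ∃ a b : ZMod 3, t = a • ![0, 1, 1, 1] + b • ![1, 0, 1, 2] := by
  unfold tetracode
  rw [Submodule.mem_span_pair]
  constructor
  · rintro ⟨a, b, rfl⟩; exact ⟨a, b, rfl⟩
  · rintro ⟨a, b, rfl⟩; exact ⟨a, b, rfl⟩

/-- Every word of the code is given by the parametrisation. -/
theorem exists_word_of_mem (x : ArrayPt → ZMod 3) (hx : x ∈ ternaryGolayCode) :
    x = word ![x (1,2), x (2,1), x (2,2), x (3,1), x (3,2), -(x (0,0) + x (0,1) + x (0,2))] := by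
  obtain ⟨s, hc, ht⟩ := hx
  have hc0 : x (0,0) + x (0,1) + x (0,2) = -s := by rw [← hc 0, sum_zmod3]
  have hc1 : x (1,0) + x (1,1) + x (1,2) = -s := by rw [← hc 1, sum_zmod3]
  have hc2 : x (2,0) + x (2,1) + x (2,2) = -s := by rw [← hc 2, sum_zmod3]
  have hc3 : x (3,0) + x (3,1) + x (3,2) = -s := by rw [← hc 3, sum_zmod3]
  have hs : -(x (0,0) + x (0,1) + x (0,2)) = s := by rw [hc0, neg_neg]
  rw [hs]
  have mk : ∀ a b : ZMod 3,
      x (0, (a • ![0, 1, 1, 1] + b • ![1, 0, 1, 2] : Fin 4 → ZMod 3) 0) +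
      x (1, (a • ![0, 1, 1, 1] + b • ![1, 0, 1, 2] : Fin 4 → ZMod 3) 1) +
      x (2, (a • ![0, 1, 1, 1] + b • ![1, 0, 1, 2] : Fin 4 → ZMod 3) 2) +
      x (3, (a • ![0, 1, 1, 1] + b • ![1, 0, 1, 2] : Fin 4 → ZMod 3) 3) = s := by
    intro a b
    have := ht _ ((mem_tetracode_iff _).2 ⟨a, b, rfl⟩)
    rw [Fin.sum_univ_four] at this
    exact this
  have ht00 : x (0,0) + x (1,0) + x (2,0) + x (3,0) = s := mk 0 0
  have ht01 : x (0,1) + x (1,0) + x (2,1) + x (3,2) = s := mk 0 1
  have ht10 : x (0,0) + x (1,1) + x (2,1) + x (3,1) = s := mk 1 0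
  have h3 : (3 : ZMod 3) = 0 := by decide
  funext p
  revert p
  refine forall_arrayPt ?_ ?_ ?_ ?_ ?_ ?_ ?_ ?_ ?_ ?_ ?_ ?_
  · show x (0,0) = x (1,2) * 2 + x (2,1) * 0 + x (2,2) * 2 + x (3,1) * 0 + x (3,2) * 2 + s * 1
    linear_combination 1 * hc1 + 1 * hc2 + 1 * hc3 + 2 * ht00 + 2 * ht10 + ((-1) * x (0,0) + (-1) * x (1,0) + (-1) * x (1,1) + (-1) * x (1,2) + (-1) * x (2,0) + (-1) * x (2,1) + (-1) * x (2,2) + (-1) * x (3,0) + (-1) * x (3,1) + (-1) * x (3,2)) * h3
  · show x (0,1) = x (1,2) * 2 + x (2,1) * 1 + x (2,2) * 1 + x (3,1) * 2 + x (3,2) * 0 + s * 2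
    linear_combination 1 * hc1 + 2 * hc2 + 2 * hc3 + 1 * ht00 + 1 * ht01 + 2 * ht10 + ((-1) * x (0,0) + (-1) * x (1,0) + (-1) * x (1,1) + (-1) * x (1,2) + (-1) * x (2,0) + (-2) * x (2,1) + (-1) * x (2,2) + (-1) * x (3,0) + (-2) * x (3,1) + (-1) * x (3,2) + (-1) * s) * h3
  · show x (0,2) = x (1,2) * 2 + x (2,1) * 2 + x (2,2) * 0 + x (3,1) * 1 + x (3,2) * 1 + s * 2
    linear_combination 1 * hc0 + 1 * hc1 + 2 * ht01 + 2 * ht10 + ((-1) * x (0,0) + (-1) * x (0,1) + (-1) * x (1,0) + (-1) * x (1,1) + (-1) * x (1,2) + (-2) * x (2,1) + (-1) * x (3,1) + (-1) * x (3,2)) * h3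
  · show x (1,0) = x (1,2) * 1 + x (2,1) * 1 + x (2,2) * 2 + x (3,1) * 1 + x (3,2) * 2 + s * 2
    linear_combination 2 * hc1 + 1 * hc2 + 1 * hc3 + 2 * ht00 + 1 * ht10 + ((-1) * x (0,0) + (-1) * x (1,0) + (-1) * x (1,1) + (-1) * x (1,2) + (-1) * x (2,0) + (-1) * x (2,1) + (-1) * x (2,2) + (-1) * x (3,0) + (-1) * x (3,1) + (-1) * x (3,2) + (-1) * s) * h3
  · show x (1,1) = x (1,2) * 1 + x (2,1) * 2 + x (2,2) * 1 + x (3,1) * 2 + x (3,2) * 1 + s * 0
    linear_combination 2 * hc1 + 2 * hc2 + 2 * hc3 + 1 * ht00 + 2 * ht10 + ((-1) * x (0,0) + (-1) * x (1,0) + (-1) * x (1,1) + (-1) * x (1,2) + (-1) * x (2,0) + (-2) * x (2,1) + (-1) * x (2,2) + (-1) * x (3,0) + (-2) * x (3,1) + (-1) * x (3,2) + (-1) * s) * h3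
  · show x (1,2) = x (1,2) * 1 + x (2,1) * 0 + x (2,2) * 0 + x (3,1) * 0 + x (3,2) * 0 + s * 0
    ring
  · show x (2,0) = x (1,2) * 0 + x (2,1) * 2 + x (2,2) * 2 + x (3,1) * 0 + x (3,2) * 0 + s * 2
    linear_combination 1 * hc2 + ((-1) * x (2,1) + (-1) * x (2,2) + (-1) * s) * h3
  · show x (2,1) = x (1,2) * 0 + x (2,1) * 1 + x (2,2) * 0 + x (3,1) * 0 + x (3,2) * 0 + s * 0
    ring
  · show x (2,2) = x (1,2) * 0 + x (2,1) * 0 + x (2,2) * 1 + x (3,1) * 0 + x (3,2) * 0 + s * 0
    ring
  · show x (3,0) = x (1,2) * 0 + x (2,1) * 0 + x (2,2) * 0 + x (3,1) * 2 + x (3,2) * 2 + s * 2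
    linear_combination 1 * hc3 + ((-1) * x (3,1) + (-1) * x (3,2) + (-1) * s) * h3
  · show x (3,1) = x (1,2) * 0 + x (2,1) * 0 + x (2,2) * 0 + x (3,1) * 1 + x (3,2) * 0 + s * 0
    ring
  · show x (3,2) = x (1,2) * 0 + x (2,1) * 0 + x (2,2) * 0 + x (3,1) * 0 + x (3,2) * 1 + s * 0
    ring

/-- The basis words lie in the code. -/
theorem B_mem (j : Fin 6) : (fun p => B j (idx p)) ∈ ternaryGolayCode := by
  refine ⟨B j 0 * 0 + (if j = 5 then 1 else 0), fun i => ?_, fun t ht => ?_⟩
  · revert j i
    decide +kernel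
  · obtain ⟨a, b, rfl⟩ := (mem_tetracode_iff t).1 ht
    clear ht
    revert j a b
    decide +kernel

theorem word_mem (c : Fin 6 → ZMod 3) : word c ∈ ternaryGolayCode := by
  have h : word c = c 0 • (fun p => B 0 (idx p)) + c 1 • (fun p => B 1 (idx p)) +
      c 2 • (fun p => B 2 (idx p)) + c 3 • (fun p => B 3 (idx p)) +
      c 4 • (fun p => B 4 (idx p)) + c 5 • (fun p => B 5 (idx p)) := by
    funext p
    simp [word]
  rw [h]
  exact add_mem (add_mem (add_mem (add_mem (add_mem
    (Submodule.smul_mem _ _ (B_mem 0)) (Submodule.smul_mem _ _ (B_mem 1)))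
    (Submodule.smul_mem _ _ (B_mem 2))) (Submodule.smul_mem _ _ (B_mem 3)))
    (Submodule.smul_mem _ _ (B_mem 4))) (Submodule.smul_mem _ _ (B_mem 5))

theorem mem_code_iff (x : ArrayPt → ZMod 3) :
    x ∈ ternaryGolayCode ↔ ∃ c, x = word c :=
  ⟨fun h => ⟨_, exists_word_of_mem x h⟩, by rintro ⟨c, rfl⟩; exact word_mem c⟩

theorem word_injective : Function.Injective word := by
  intro c d h
  have key : ∀ c : Fin 6 → ZMod 3, c = ![word c (1,2), word c (2,1), word c (2,2), word c (3,1),
      word c (3,2), -(word c (0,0) + word c (0,1) + word c (0,2))] := by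
    decide +kernel
  rw [key c, key d, h]

theorem card_code : Nat.card ↥ternaryGolayCode = 729 := by
  have hbij : Function.Bijective (fun c : Fin 6 → ZMod 3 =>
      (⟨word c, word_mem c⟩ : ↥ternaryGolayCode)) := by
    constructor
    · intro c d h
      exact word_injective (congrArg Subtype.val h)
    · rintro ⟨x, hx⟩
      obtain ⟨c, rfl⟩ := (mem_code_iff x).1 hx
      exact ⟨c, rfl⟩
  rw [← Nat.card_congr (Equiv.ofBijective _ hbij), Nat.card_eq_fintype_card]
  simp [ZMod.card]

/-- The list of weights, by a single kernel computation. -/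
theorem weights_word : ∀ c : Fin 6 → ZMod 3, c ≠ 0 →
    (ternarySupport (word c)).card = 6 ∨ (ternarySupport (word c)).card = 9 ∨
      (ternarySupport (word c)).card = 12 := by
  decide +kernel

theorem weight_count_6 :
    (Finset.univ.filter fun c : Fin 6 → ZMod 3 => (ternarySupport (word c)).card = 6).card = 264 := by
  decide +kernel

theorem weight_count_9 :
    (Finset.univ.filter fun c : Fin 6 → ZMod 3 => (ternarySupport (word c)).card = 9).card = 440 := by
  decide +kernel

theorem weight_count_12 :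
    (Finset.univ.filter fun c : Fin 6 → ZMod 3 => (ternarySupport (word c)).card = 12).card = 24 := by
  decide +kernel

theorem word_zero : word 0 = 0 := by
  funext p
  simp [word]

/-- Weight list on the code. -/
theorem weights (x : ArrayPt → ZMod 3) (hx : x ∈ ternaryGolayCode) (h0 : x ≠ 0) :
    (ternarySupport x).card = 6 ∨ (ternarySupport x).card = 9 ∨ (ternarySupport x).card = 12 := by
  obtain ⟨c, rfl⟩ := (mem_code_iff x).1 hx
  refine weights_word c ?_
  rintro rfl
  exact h0 word_zero

/-- The set of words of a given weight is the image of the filter. -/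
theorem ncard_weight (n : ℕ) :
    {x : ArrayPt → ZMod 3 | x ∈ ternaryGolayCode ∧ (ternarySupport x).card = n}.ncard =
      (Finset.univ.filter fun c : Fin 6 → ZMod 3 => (ternarySupport (word c)).card = n).card := by
  have : {x : ArrayPt → ZMod 3 | x ∈ ternaryGolayCode ∧ (ternarySupport x).card = n} =
      word '' ((Finset.univ.filter fun c : Fin 6 → ZMod 3 =>
        (ternarySupport (word c)).card = n : Finset _) : Set (Fin 6 → ZMod 3)) := by
    ext x
    simp only [Set.mem_ofPred_eq, Set.mem_image, Finset.coe_filter, Finset.mem_univ, true_and]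
    constructor
    · rintro ⟨hx, hc⟩
      obtain ⟨c, rfl⟩ := (mem_code_iff x).1 hx
      exact ⟨c, hc, rfl⟩
    · rintro ⟨c, hc, rfl⟩
      exact ⟨word_mem c, hc⟩
  rw [this, Set.ncard_image_of_injective _ word_injective, Set.ncard_coe_finset]

/-- The code is self-orthogonal. -/
theorem gram_zero : ∀ j k : Fin 6, ∑ p : ArrayPt, B j (idx p) * B k (idx p) = 0 := by
  decide +kernel

theorem self_orthogonal (x y : ArrayPt → ZMod 3) (hx : x ∈ ternaryGolayCode)
    (hy : y ∈ ternaryGolayCode) : ∑ p, x p * y p = 0 := by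
  obtain ⟨c, rfl⟩ := (mem_code_iff x).1 hx
  obtain ⟨d, rfl⟩ := (mem_code_iff y).1 hy
  have h : ∀ p, word c p * word d p =
      ∑ j : Fin 6, ∑ k : Fin 6, c j * d k * (B j (idx p) * B k (idx p)) := by
    intro p
    simp only [word, Fin.sum_univ_six]
    ring
  simp_rw [h]
  rw [Finset.sum_comm]
  refine Finset.sum_eq_zero fun j _ => ?_
  rw [Finset.sum_comm]
  refine Finset.sum_eq_zero fun k _ => ?_
  rw [← Finset.mul_sum, gram_zero, mul_zero]

/-- The weight-6 supports, computed. -/
def hexadFinset : Finset (Finset ArrayPt) :=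
  (Finset.univ.filter fun c : Fin 6 → ZMod 3 => (ternarySupport (word c)).card = 6).image
    fun c => ternarySupport (word c)

theorem hexad_set_eq : {h : Finset ArrayPt | ∃ x ∈ ternaryGolayCode, ternarySupport x = h ∧ h.card = 6} =
    (hexadFinset : Set (Finset ArrayPt)) := by
  ext h
  simp only [Set.mem_ofPred_eq, hexadFinset, Finset.coe_image, Finset.coe_filter, Finset.mem_univ,
    true_and, Set.mem_image]
  constructor
  · rintro ⟨x, hx, rfl, hc⟩
    obtain ⟨c, rfl⟩ := (mem_code_iff x).1 hx
    exact ⟨c, hc, rfl⟩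
  · rintro ⟨c, hc, rfl⟩
    exact ⟨word c, word_mem c, rfl, hc⟩

/-- A word of the code vanishing outside fewer than six positions is zero. -/
theorem eq_zero_of_small (z : ArrayPt → ZMod 3) (hz : z ∈ ternaryGolayCode) (A : Finset ArrayPt)
    (hA : A.card < 6) (h : ∀ i, i ∉ A → z i = 0) : z = 0 := by
  by_contra h0
  have hsub : ternarySupport z ⊆ A := by
    intro i hi
    by_contra hiA
    simp only [ternarySupport, Finset.mem_filter, Finset.mem_univ, true_and] at hi
    exact hi (h i hiA)
  have hle := Finset.card_le_card hsub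
  rcases weights z hz h0 with h' | h' | h' <;> omega

theorem zmod3_cases (a b : ZMod 3) (ha : a ≠ 0) (hb : b ≠ 0) : a = b ∨ a = -b := by
  revert a b
  decide

/-- Comparing two words on common support: if at least five coordinates are common then
the supports coincide and the words agree up to a sign. -/
theorem eq_or_eq_neg_of_inter (x y : ArrayPt → ZMod 3) (hx : x ∈ ternaryGolayCode)
    (hy : y ∈ ternaryGolayCode) (hxc : (ternarySupport x).card = 6)
    (hyc : (ternarySupport y).card = 6) (hT : 5 ≤ (ternarySupport x ∩ ternarySupport y).card) :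
    y = x ∨ y = -x := by
  classical
  set X := ternarySupport x with hX
  set Y := ternarySupport y with hY
  set T := X ∩ Y with hT'
  set Tp := T.filter (fun i => x i = y i) with hTp
  set Tm := T.filter (fun i => x i ≠ y i) with hTm
  have hsplit : Tp.card + Tm.card = T.card := Finset.card_filter_add_card_filter_not _
  have hunion : (X ∪ Y).card + T.card = 12 := by
    rw [Finset.card_union_add_card_inter, hxc, hyc]
  have hmemX : ∀ i, i ∉ X → x i = 0 := by
    intro i hi
    by_contra h
    exact hi (by simp [hX, ternarySupport, h])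
  have hmemY : ∀ i, i ∉ Y → y i = 0 := by
    intro i hi
    by_contra h
    exact hi (by simp [hY, ternarySupport, h])
  have hneg : ∀ i, i ∈ Tm → x i = - y i := by
    intro i hi
    rw [hTm, Finset.mem_filter, hT', Finset.mem_inter] at hi
    have hxi : x i ≠ 0 := by
      have := hi.1.1
      simpa [hX, ternarySupport] using this
    have hyi : y i ≠ 0 := by
      have := hi.1.2
      simpa [hY, ternarySupport] using this
    rcases zmod3_cases _ _ hxi hyi with h | h
    · exact absurd h hi.2
    · exact h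
  by_cases hp : 3 ≤ Tp.card
  · left
    have hz : x - y = 0 := by
      apply eq_zero_of_small (x - y) (Submodule.sub_mem _ hx hy) ((X ∪ Y) \ Tp)
      · have hsub : Tp ⊆ X ∪ Y := fun i hi => by
          rw [hTp, Finset.mem_filter, hT', Finset.mem_inter] at hi
          exact Finset.mem_union_left _ hi.1.1
        rw [Finset.card_sdiff_of_subset hsub]
        omega
      · intro i hi
        simp only [Finset.mem_sdiff, not_and, not_not] at hi
        by_cases hiU : i ∈ X ∪ Y
        · have := hi hiU
          rw [hTp, Finset.mem_filter] at this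
          simp [this.2]
        · rw [Finset.mem_union, not_or] at hiU
          simp [hmemX i hiU.1, hmemY i hiU.2]
    exact (sub_eq_zero.1 hz).symm
  · right
    have hm : 3 ≤ Tm.card := by omega
    have hz : x + y = 0 := by
      apply eq_zero_of_small (x + y) (Submodule.add_mem _ hx hy) ((X ∪ Y) \ Tm)
      · have hsub : Tm ⊆ X ∪ Y := fun i hi => by
          rw [hTm, Finset.mem_filter, hT', Finset.mem_inter] at hi
          exact Finset.mem_union_left _ hi.1.1
        rw [Finset.card_sdiff_of_subset hsub]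
        omega
      · intro i hi
        simp only [Finset.mem_sdiff, not_and, not_not] at hi
        by_cases hiU : i ∈ X ∪ Y
        · have := hi hiU
          simp [hneg i this]
        · rw [Finset.mem_union, not_or] at hiU
          simp [hmemX i hiU.1, hmemY i hiU.2]
    exact eq_neg_of_add_eq_zero_right hz

theorem support_neg (x : ArrayPt → ZMod 3) : ternarySupport (-x) = ternarySupport x := by
  ext i
  simp [ternarySupport]

theorem word_neg (c : Fin 6 → ZMod 3) : word (-c) = - word c := by
  funext p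
  simp only [word, Pi.neg_apply]
  ring

/-- Two hexads sharing five points coincide. -/
theorem hexad_unique (s h h' : Finset ArrayPt) (hs : s.card = 5) (hh : h ∈ hexadFinset)
    (hh' : h' ∈ hexadFinset) (hsh : s ⊆ h) (hsh' : s ⊆ h') : h = h' := by
  simp only [hexadFinset, Finset.mem_image, Finset.mem_filter, Finset.mem_univ, true_and] at hh hh'
  obtain ⟨c, hc, rfl⟩ := hh
  obtain ⟨d, hd, rfl⟩ := hh'
  have hT : 5 ≤ (ternarySupport (word c) ∩ ternarySupport (word d)).card := by
    rw [← hs]
    exact Finset.card_le_card (Finset.subset_inter hsh hsh')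
  rcases eq_or_eq_neg_of_inter _ _ (word_mem c) (word_mem d) hc hd hT with h | h
  · rw [h]
  · rw [h, support_neg]

theorem hexadFinset_card : hexadFinset.card = 132 := by
  classical
  set W := Finset.univ.filter fun c : Fin 6 → ZMod 3 => (ternarySupport (word c)).card = 6 with hW
  have hfib : ∀ h ∈ hexadFinset, (W.filter (fun c => ternarySupport (word c) = h)).card = 2 := by
    intro h hh
    rw [hexadFinset, Finset.mem_image] at hh
    obtain ⟨c, hc, rfl⟩ := hh
    have hc6 : (ternarySupport (word c)).card = 6 := by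
      simpa [hW] using hc
    have hne : c ≠ -c := by
      intro hcc
      have hc0 : c = 0 := by
        funext j
        have := congrFun hcc j
        simp only [Pi.neg_apply] at this
        have key : ∀ a : ZMod 3, a = -a → a = 0 := by decide
        exact key _ this
      rw [hc0, word_zero] at hc6
      simp [ternarySupport] at hc6
    have : W.filter (fun d => ternarySupport (word d) = ternarySupport (word c)) = {c, -c} := by
      ext d
      simp only [Finset.mem_filter, Finset.mem_insert, Finset.mem_singleton, hW, Finset.mem_univ,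
        true_and]
      constructor
      · rintro ⟨hd6, hd⟩
        have hT : 5 ≤ (ternarySupport (word c) ∩ ternarySupport (word d)).card := by
          rw [hd, Finset.inter_self, hc6]
          omega
        rcases eq_or_eq_neg_of_inter _ _ (word_mem c) (word_mem d) hc6 hd6 hT with h | h
        · left; exact word_injective h
        · right
          rw [← word_neg] at h
          exact word_injective h
      · rintro (rfl | rfl)
        · exact ⟨hc6, rfl⟩
        · rw [word_neg, support_neg]
          exact ⟨hc6, rfl⟩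
    rw [this, Finset.card_pair hne]
  have hcard : W.card = ∑ h ∈ hexadFinset, (W.filter (fun c => ternarySupport (word c) = h)).card := by
    apply Finset.card_eq_sum_card_fiberwise
    intro c hc
    exact Finset.mem_coe.2 (Finset.mem_image_of_mem _ (Finset.mem_coe.1 hc))
  rw [Finset.sum_congr rfl hfib, Finset.sum_const, smul_eq_mul, weight_count_6] at hcard
  omega

/-- A family of `k`-subsets such that two members share fewer than `t` points and whose
size is `C(v,t)/C(k,t)` is a Steiner system. -/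
theorem steiner_of_count {α : Type*} [Fintype α] [DecidableEq α] (t k : ℕ) (O : Finset (Finset α))
    (hk : ∀ b ∈ O, b.card = k)
    (huniq : ∀ s b b', s.card = t → b ∈ O → b' ∈ O → s ⊆ b → s ⊆ b' → b = b')
    (hcount : O.card * k.choose t = (Fintype.card α).choose t) :
    IsSteinerSystem t k (O : Set (Finset α)) := by
  classical
  refine ⟨fun b hb => hk b (Finset.mem_coe.1 hb), ?_⟩
  set T : Finset (Finset α) := Finset.powersetCard t Finset.univ with hT
  have hcardT : T.card = (Fintype.card α).choose t := by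
    rw [hT, Finset.card_powersetCard, Finset.card_univ]
  set U : Finset (Finset α) := O.biUnion (fun b => Finset.powersetCard t b) with hU
  have hdisj : (O : Set (Finset α)).PairwiseDisjoint (fun b => Finset.powersetCard t b) := by
    intro b hb b' hb' hne
    rw [Function.onFun, Finset.disjoint_left]
    intro s hs hs'
    rw [Finset.mem_powersetCard] at hs hs'
    exact hne (huniq s b b' hs.2 (Finset.mem_coe.1 hb) (Finset.mem_coe.1 hb') hs.1 hs'.1)
  have hcardU : U.card = (Fintype.card α).choose t := by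
    rw [hU, Finset.card_biUnion hdisj, ← hcount]
    have : ∀ b ∈ O, (Finset.powersetCard t b).card = k.choose t := by
      intro b hb
      rw [Finset.card_powersetCard, hk b hb]
    rw [Finset.sum_congr rfl this, Finset.sum_const, smul_eq_mul]
  have hUT : U ⊆ T := by
    intro s hs
    rw [hU, Finset.mem_biUnion] at hs
    obtain ⟨b, -, hs⟩ := hs
    rw [Finset.mem_powersetCard] at hs
    rw [hT, Finset.mem_powersetCard]
    exact ⟨Finset.subset_univ _, hs.2⟩
  have hUeq : U = T := Finset.eq_of_subset_of_card_le hUT (by rw [hcardU, hcardT])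
  intro s hs
  have hsT : s ∈ T := by
    rw [hT, Finset.mem_powersetCard]
    exact ⟨Finset.subset_univ _, hs⟩
  rw [← hUeq, hU, Finset.mem_biUnion] at hsT
  obtain ⟨b, hb, hsb⟩ := hsT
  rw [Finset.mem_powersetCard] at hsb
  refine ⟨b, ⟨Finset.mem_coe.2 hb, hsb.1⟩, ?_⟩
  rintro b' ⟨hb', hsb'⟩
  exact huniq s b' b hs (Finset.mem_coe.1 hb') hb hsb' hsb.1

theorem hexads_steiner : IsSteinerSystem 5 6
    {h : Finset ArrayPt | ∃ x ∈ ternaryGolayCode, ternarySupport x = h ∧ h.card = 6} := by
  rw [hexad_set_eq]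
  refine steiner_of_count 5 6 hexadFinset ?_ hexad_unique ?_
  · intro b hb
    simp only [hexadFinset, Finset.mem_image, Finset.mem_filter, Finset.mem_univ, true_and] at hb
    obtain ⟨c, hc, rfl⟩ := hb
    exact hc
  · rw [hexadFinset_card]
    have : Fintype.card ArrayPt = 12 := by simp [ZMod.card]
    rw [this]
    decide

/-- Diagonal automorphisms of the code are the two scalars. -/
theorem diag_const (c : ArrayPt → (ZMod 3)ˣ)
    (h : ∀ x ∈ ternaryGolayCode, monomialMap 1 c x ∈ ternaryGolayCode) (p q : ArrayPt) :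
    c p = c q := by
  classical
  by_cases hpq : p = q
  · rw [hpq]
  -- a hexad through `p` and `q`
  obtain ⟨s, hs1, hs2⟩ := Finset.exists_superset_card_eq (s := ({p, q} : Finset ArrayPt))
    (n := 5) (by rw [Finset.card_pair hpq]; omega)
    (by rw [show Fintype.card ArrayPt = 12 by simp [ZMod.card]]; omega)
  obtain ⟨X, ⟨⟨x, hx, hxX, hX6⟩, hsX⟩, -⟩ := hexads_steiner.2 s hs2
  have hpX : p ∈ X := hsX (hs1 (by simp))
  have hqX : q ∈ X := hsX (hs1 (by simp))
  have hy := h x hx
  set y := monomialMap 1 c x with hyd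
  have hyi : ∀ i, y i = (c i : ZMod 3) * x i := fun i => rfl
  have hunit : ∀ u : (ZMod 3)ˣ, u = 1 ∨ u = -1 := by decide
  have hmemX : ∀ i, x i ≠ 0 ↔ i ∈ X := by
    intro i
    rw [← hxX]
    simp [ternarySupport]
  set Xp := X.filter (fun i => c i = 1) with hXp
  set Xm := X.filter (fun i => ¬ c i = 1) with hXm
  have hsplit : Xp.card + Xm.card = 6 := by
    rw [← hX6]
    exact Finset.card_filter_add_card_filter_not _
  have hcoe : ∀ u : (ZMod 3)ˣ, ((u : ZMod 3) = 1 ↔ u = 1) := by decide
  have hnz : ∀ a : ZMod 3, a ≠ 0 → a + a ≠ 0 := by decide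
  -- one of the two parts is empty
  have hcase : Xp = ∅ ∨ Xm = ∅ := by
    by_contra hne
    rw [not_or] at hne
    have hp1 : 1 ≤ Xp.card := Finset.card_pos.2 (Finset.nonempty_iff_ne_empty.2 hne.1)
    have hm1 : 1 ≤ Xm.card := Finset.card_pos.2 (Finset.nonempty_iff_ne_empty.2 hne.2)
    -- `x - y` vanishes outside `Xm`
    have hz : x - y = 0 := by
      apply eq_zero_of_small (x - y) (Submodule.sub_mem _ hx hy) Xm (by omega)
      intro i hi
      simp only [Pi.sub_apply]
      rw [hyi]
      by_cases hiX : i ∈ X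
      · have hci : c i = 1 := by
          by_contra hci
          exact hi (by rw [hXm, Finset.mem_filter]; exact ⟨hiX, hci⟩)
        rw [hci]
        simp
      · have : x i = 0 := by
          by_contra h0
          exact hiX ((hmemX i).1 h0)
        simp [this]
    obtain ⟨i, hi⟩ := Finset.nonempty_iff_ne_empty.2 hne.2
    rw [hXm, Finset.mem_filter] at hi
    have hx0 := (hmemX i).2 hi.1
    have hci : c i = -1 := (hunit (c i)).resolve_left hi.2
    have := congrFun hz i
    simp only [Pi.sub_apply, Pi.zero_apply] at this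
    rw [hyi, hci] at this
    apply hnz _ hx0
    simpa using this
  rcases hcase with hc | hc
  · have key : ∀ i ∈ X, c i = -1 := by
      intro i hi
      refine (hunit (c i)).resolve_left fun h1 => ?_
      have : i ∈ Xp := by rw [hXp, Finset.mem_filter]; exact ⟨hi, h1⟩
      rw [hc] at this
      simp at this
    rw [key p hpX, key q hqX]
  · have key : ∀ i ∈ X, c i = 1 := by
      intro i hi
      by_contra h1
      have : i ∈ Xm := by rw [hXm, Finset.mem_filter]; exact ⟨hi, h1⟩
      rw [hc] at this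
      simp at this
    rw [key p hpX, key q hqX]

end Cfsg.Agent.Lib.Compute.TernaryGolay
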