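/-
The group P on the diagram Y₅₃₂ with only the spider relation: upper bound 2·|Fi₂₃| from coset enumerations,
a surjection onto the presented Fi₂₃ sending the end node to the central involution of an E₇, and hence
(with the sign) the relation "end node = ninth power of the Coxeter element", plus the spider with two arms swapped.
-/
import Cfsg.Agent.S1697
import Cfsg.Agent.Lib.Compute.TC.Y5A.Final
import Cfsg.Agent.Lib.Compute.TC.Y5B.Final
import Cfsg.Agent.Lib.Compute.TC.Y5C.Final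

set_option autoImplicit false
set_option linter.unusedSectionVars false
set_option linter.unusedVariables false

namespace Cfsg.Agent.Lib.Compute.Y5Core

open Cfsg.Agent.Lib.Compute.ToddCoxeterCore Cfsg.Agent.Lib.Compute.ToddCoxeterPresented
  Cfsg.Agent.Lib.Compute.TCFast Cfsg.Agent.Lib.Compute.TCChain
open Cfsg.Agent.Lib.Compute.TC

/-! ### The upper bound -/

/-- letters of the lowest step -/
def g2 (i : Fin 8) : Fin 9 := List.getD [1, 2, 3, 4, 5, 6, 7, 8] i 0

theorem rel2 : ∀ r ∈ Fi23U2.D.rs, FreeGroup.map g2 r ∈ Y5C.D.rs := by decide +kernel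

theorem upC : Finite (PresentedGroup Y5C.RR) ∧
    Nat.card (PresentedGroup Y5C.RR) ≤ 28160 * (3159 * (576 * (5040))) := by
  refine card_le_presented g2 (fun r hr => rel2 r hr) ?_ Y5C.index (by norm_num) Cfsg.Agent.S1697.up1
  intro x
  simp [Y5C.D, g2, Fin.exists_fin_succ]

/-- letters of the middle step -/
def g1 (i : Fin 9) : Fin 10 := List.getD [0, 1, 2, 3, 4, 5, 6, 8, 9] i 0

theorem rel1 : ∀ r ∈ Y5C.D.rs, FreeGroup.map g1 r ∈ Y5B.D.rs := by decide +kernel

theorem upB : Finite (PresentedGroup Y5B.RR) ∧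
    Nat.card (PresentedGroup Y5B.RR) ≤ 31671 * (28160 * (3159 * (576 * (5040)))) := by
  refine card_le_presented g1 (fun r hr => rel1 r hr) ?_ Y5B.index (by norm_num) upC
  intro x
  simp [Y5B.D, g1, Fin.exists_fin_succ]

/-- letters of the top step -/
def g0 (i : Fin 10) : Fin 11 := List.getD [0, 1, 2, 3, 4, 5, 6, 7, 9, 10] i 0

theorem rel0 : ∀ r ∈ Y5B.D.rs, FreeGroup.map g0 r ∈ Y5A.D.rs := by decide +kernel

theorem upA : Finite (PresentedGroup Y5A.RR) ∧
    Nat.card (PresentedGroup Y5A.RR) ≤ 1 * (31671 * (28160 * (3159 * (576 * (5040))))) := by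
  refine card_le_presented g0 (fun r hr => rel0 r hr) ?_ Y5A.index (by norm_num) upB
  intro x
  simp [Y5A.D, g0, Fin.exists_fin_succ]

/-! ### The presented Fi₂₃ -/

/-- the relators of Fi₂₃ -/
abbrev RF := Fi23a.RR
/-- Fi₂₃ -/
abbrev F := PresentedGroup RF
/-- the relators of P -/
abbrev RP := Y5A.RR
/-- the group P -/
abbrev P := PresentedGroup RP

/-- the word of the central involution of the E₇ -/
def zF : FreeGroup Cfsg.Spor.Fi23.Gen :=
  (Cfsg.Spor.Fi23.d * Cfsg.Spor.Fi23.e * Cfsg.Spor.Fi23.c * Cfsg.Spor.Fi23.h * Cfsg.Spor.Fi23.f *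
    Cfsg.Spor.Fi23.b * Cfsg.Spor.Fi23.g) ^ 9

/-- the central involution of the E₇ in Fi₂₃ -/
noncomputable def zG : F := PresentedGroup.mk RF zF

/-- the Coxeter element as an expression -/
def wE : PE := .mul (.lt 3) (.mul (.lt 4) (.mul (.lt 2) (.mul (.lt 8) (.mul (.lt 5) (.mul (.lt 1) (.lt 6))))))
/-- the central involution as an expression -/
def zE : PE := wE.pw 9

/-- the letters of the group -/
theorem elG_letters :
    elG Fi23a.D RF 0 = PresentedGroup.of .a ∧ elG Fi23a.D RF 1 = PresentedGroup.of .b ∧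
    elG Fi23a.D RF 2 = PresentedGroup.of .c ∧ elG Fi23a.D RF 3 = PresentedGroup.of .d ∧
    elG Fi23a.D RF 4 = PresentedGroup.of .e ∧ elG Fi23a.D RF 5 = PresentedGroup.of .f ∧
    elG Fi23a.D RF 6 = PresentedGroup.of .g ∧ elG Fi23a.D RF 7 = PresentedGroup.of .j ∧
    elG Fi23a.D RF 8 = PresentedGroup.of .h ∧ elG Fi23a.D RF 9 = PresentedGroup.of .i := by
  refine ⟨?_, ?_, ?_, ?_, ?_, ?_, ?_, ?_, ?_, ?_⟩ <;> rfl

theorem zE_el : zE.el (elG Fi23a.D RF) = zG := by
  obtain ⟨h0, h1, h2, h3, h4, h5, h6, h7, h8, h9⟩ := elG_letters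
  unfold zE
  rw [PE.el_pw]
  simp only [wE, PE.el, h1, h2, h3, h4, h5, h6, h8]
  simp only [zG, zF, map_pow, map_mul]
  simp only [mul_assoc]
  rfl

theorem base_eq (e1 e2 : PE) (h : eqOn (ev0 Fi23a.cfg) e1 e2 (0 :: Fi23C.ls.map (·.b)) = true) :
    e1.el (elG Fi23a.D RF) = e2.el (elG Fi23a.D RF) := by
  haveI := Cfsg.Agent.S1697.finG
  exact el_eq_of_base Fi23a.hR Fi23a.small Fi23a.big Fi23a.hgens Cfsg.Agent.S1697.inj.1 Fi23C.next0 Fi23C.ls
    Fi23C.fix0 Fi23C.chainOK Cfsg.Agent.S1697.leOrd e1 e2 h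

/-! ### The map to Fi₂₃ -/

/-- the letters of the middle group in Fi₂₃ -/
def mB (i : Fin 10) : Cfsg.Spor.Fi23.Gen :=
  List.getD [.a, .b, .c, .d, .e, .f, .g, .j, .h, .i] i .a

theorem relBF : ∀ r ∈ Y5B.D.rs, FreeGroup.map mB r ∈ Fi23a.D.rs := by decide +kernel

/-- the relators of P with the end node -/
def kRels : List (FreeGroup (Fin 11)) :=
  [(FreeGroup.of 0 * FreeGroup.of 8) ^ 2, (FreeGroup.of 1 * FreeGroup.of 8) ^ 2,
   (FreeGroup.of 2 * FreeGroup.of 8) ^ 2, (FreeGroup.of 3 * FreeGroup.of 8) ^ 2,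
   (FreeGroup.of 4 * FreeGroup.of 8) ^ 2, (FreeGroup.of 5 * FreeGroup.of 8) ^ 2,
   (FreeGroup.of 6 * FreeGroup.of 8) ^ 2, (FreeGroup.of 7 * FreeGroup.of 8) ^ 3,
   (FreeGroup.of 8 * FreeGroup.of 8) ^ 1, (FreeGroup.of 8 * FreeGroup.of 9) ^ 2,
   (FreeGroup.of 8 * FreeGroup.of 10) ^ 2]

theorem rsSplit : ∀ r ∈ Y5A.D.rs, r ∈ Y5B.D.rs.map (FreeGroup.map g0) ∨ r ∈ kRels := by decide +kernel

/-- the images of the letters of P -/
noncomputable def fL (i : Fin 11) : F :=
  List.getD [PresentedGroup.of .a, PresentedGroup.of .b, PresentedGroup.of .c, PresentedGroup.of .d,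
    PresentedGroup.of .e, PresentedGroup.of .f, PresentedGroup.of .g, PresentedGroup.of .j, zG,
    PresentedGroup.of .h, PresentedGroup.of .i] i 1

theorem zRel1 : ∀ x ∈ [0, 1, 2, 3, 4, 5, 6], eqOn (ev0 Fi23a.cfg) ((PE.mul (.lt x) zE).pw 2) .one
    (0 :: Fi23C.ls.map (·.b)) = true := by decide +kernel

theorem zRel2 : ∀ x ∈ [8, 9], eqOn (ev0 Fi23a.cfg) ((PE.mul zE (.lt x)).pw 2) .one
    (0 :: Fi23C.ls.map (·.b)) = true := by decide +kernel

theorem zRel3 : eqOn (ev0 Fi23a.cfg) ((PE.mul (.lt 7) zE).pw 3) .one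
    (0 :: Fi23C.ls.map (·.b)) = true := by decide +kernel

theorem zRel4 : eqOn (ev0 Fi23a.cfg) ((PE.mul zE zE).pw 1) .one
    (0 :: Fi23C.ls.map (·.b)) = true := by decide +kernel

theorem zp1 (x : ℕ) (hx : x ∈ [0, 1, 2, 3, 4, 5, 6]) : (elG Fi23a.D RF x * zG) ^ 2 = 1 := by
  have h := base_eq _ _ (zRel1 x hx)
  rw [PE.el_pw] at h
  simpa only [PE.el, zE_el] using h

theorem zp2 (x : ℕ) (hx : x ∈ [8, 9]) : (zG * elG Fi23a.D RF x) ^ 2 = 1 := by
  have h := base_eq _ _ (zRel2 x hx)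
  rw [PE.el_pw] at h
  simpa only [PE.el, zE_el] using h

theorem zp3 : (elG Fi23a.D RF 7 * zG) ^ 3 = 1 := by
  have h := base_eq _ _ zRel3
  rw [PE.el_pw] at h
  simpa only [PE.el, zE_el] using h

theorem zp4 : (zG * zG) ^ 1 = 1 := by
  have h := base_eq _ _ zRel4
  rw [PE.el_pw] at h
  simpa only [PE.el, zE_el] using h

theorem fL_comp : (FreeGroup.lift fL).comp (FreeGroup.map g0) = (PresentedGroup.mk RF).comp (FreeGroup.map mB) := by
  ext x
  fin_cases x <;> rfl

theorem hrelF : ∀ r ∈ RP, FreeGroup.lift fL r = 1 := by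
  intro r hr
  rcases rsSplit r ((Y5A.hR r).1 hr) with h | h
  · obtain ⟨r0, hr0, rfl⟩ := List.mem_map.1 h
    have h1 := congrArg (fun φ : FreeGroup (Fin 10) →* F => φ r0) fL_comp
    simp only [MonoidHom.comp_apply] at h1
    rw [h1]
    exact PresentedGroup.one_of_mem ((Fi23a.hR _).2 (relBF r0 hr0))
  · obtain ⟨h0, h1, h2, h3, h4, h5, h6, h7, h8, h9⟩ := elG_letters
    simp only [kRels, List.mem_cons, List.not_mem_nil, or_false] at h
    have e0 : fL 0 = elG Fi23a.D RF 0 := h0.symm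
    have e1 : fL 1 = elG Fi23a.D RF 1 := h1.symm
    have e2 : fL 2 = elG Fi23a.D RF 2 := h2.symm
    have e3 : fL 3 = elG Fi23a.D RF 3 := h3.symm
    have e4 : fL 4 = elG Fi23a.D RF 4 := h4.symm
    have e5 : fL 5 = elG Fi23a.D RF 5 := h5.symm
    have e6 : fL 6 = elG Fi23a.D RF 6 := h6.symm
    have e7 : fL 7 = elG Fi23a.D RF 7 := h7.symm
    have e8 : fL 8 = zG := rfl
    have e9 : fL 9 = elG Fi23a.D RF 8 := h8.symm
    have e10 : fL 10 = elG Fi23a.D RF 9 := h9.symm
    rcases h with rfl | rfl | rfl | rfl | rfl | rfl | rfl | rfl | rfl | rfl | rfl <;>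
      simp only [map_pow, map_mul, FreeGroup.lift_apply_of, e0, e1, e2, e3, e4, e5, e6, e7, e8, e9, e10]
    · exact zp1 0 (by simp)
    · exact zp1 1 (by simp)
    · exact zp1 2 (by simp)
    · exact zp1 3 (by simp)
    · exact zp1 4 (by simp)
    · exact zp1 5 (by simp)
    · exact zp1 6 (by simp)
    · exact zp3
    · exact zp4
    · exact zp2 8 (by simp)
    · exact zp2 9 (by simp)

/-- the map of P onto Fi₂₃ -/
noncomputable def chi : P →* F := PresentedGroup.toGroup hrelF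

theorem chi_mk (w : FreeGroup (Fin 11)) : chi (PresentedGroup.mk RP w) = FreeGroup.lift fL w := rfl

theorem chi_surj : Function.Surjective chi := by
  have h : chi.range = ⊤ := by
    rw [eq_top_iff, ← PresentedGroup.closure_range_of, Subgroup.closure_le]
    rintro _ ⟨x, rfl⟩
    cases x
    · exact ⟨PresentedGroup.of 0, by simp [chi, PresentedGroup.toGroup.of]; rfl⟩
    · exact ⟨PresentedGroup.of 1, by simp [chi, PresentedGroup.toGroup.of]; rfl⟩
    · exact ⟨PresentedGroup.of 2, by simp [chi, PresentedGroup.toGroup.of]; rfl⟩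
    · exact ⟨PresentedGroup.of 3, by simp [chi, PresentedGroup.toGroup.of]; rfl⟩
    · exact ⟨PresentedGroup.of 4, by simp [chi, PresentedGroup.toGroup.of]; rfl⟩
    · exact ⟨PresentedGroup.of 5, by simp [chi, PresentedGroup.toGroup.of]; rfl⟩
    · exact ⟨PresentedGroup.of 6, by simp [chi, PresentedGroup.toGroup.of]; rfl⟩
    · exact ⟨PresentedGroup.of 7, by simp [chi, PresentedGroup.toGroup.of]; rfl⟩
    · exact ⟨PresentedGroup.of 9, by simp [chi, PresentedGroup.toGroup.of]; rfl⟩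
    · exact ⟨PresentedGroup.of 10, by simp [chi, PresentedGroup.toGroup.of]; rfl⟩
  exact MonoidHom.range_eq_top.1 h

theorem card_ker_le : Nat.card chi.ker ≤ 2 := by
  haveI := upA.1
  haveI := Cfsg.Agent.S1697.finG
  have h2 : chi.ker.index = Nat.card F := by
    rw [Subgroup.index_ker, MonoidHom.range_eq_top.2 chi_surj]
    exact Nat.card_congr Subgroup.topEquiv.toEquiv
  have h3 : Nat.card F = 4089470473293004800 := Cfsg.Agent.S1697.inj.2
  have h1 : Nat.card chi.ker * 4089470473293004800 = Nat.card (PresentedGroup Y5A.RR) := by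
    rw [← h3, ← h2]
    exact Subgroup.card_mul_index chi.ker
  have h4 := upA.2
  norm_num at h4
  omega

/-! ### The sign -/

theorem hsgn : ∀ r ∈ Y5A.D.rs, FreeGroup.lift (fun _ : Fin 11 => (-1 : ℤˣ)) r = 1 := by decide +kernel

/-- the sign of P -/
noncomputable def sgn : P →* ℤˣ :=
  PresentedGroup.toGroup (f := fun _ : Fin 11 => (-1 : ℤˣ)) (fun r hr => hsgn r ((Y5A.hR r).1 hr))

theorem sgn_mk (w : FreeGroup (Fin 11)) :
    sgn (PresentedGroup.mk RP w) = FreeGroup.lift (fun _ : Fin 11 => (-1 : ℤˣ)) w := rfl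

/-- the word of the central involution of the E₇ which dies in Fi₂₃ -/
def epsW : FreeGroup (Fin 11) :=
  (FreeGroup.of 0 * FreeGroup.of 1 * FreeGroup.of 2 * FreeGroup.of 3 * FreeGroup.of 4 * FreeGroup.of 5 *
    FreeGroup.of 9) ^ 9

theorem eps_sgn : FreeGroup.lift (fun _ : Fin 11 => (-1 : ℤˣ)) epsW = -1 := by decide +kernel

theorem eps_rel : (Cfsg.Spor.Fi23.a * Cfsg.Spor.Fi23.b * Cfsg.Spor.Fi23.c * Cfsg.Spor.Fi23.d *
    Cfsg.Spor.Fi23.e * Cfsg.Spor.Fi23.f * Cfsg.Spor.Fi23.h) ^ 9 ∈ Fi23a.D.rs := by decide +kernel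

theorem eps_chi : chi (PresentedGroup.mk RP epsW) = 1 := by
  rw [chi_mk]
  have h := PresentedGroup.one_of_mem ((Fi23a.hR _).2 eps_rel)
  simp only [epsW, map_pow, map_mul, FreeGroup.lift_apply_of] at h ⊢
  exact h

/-- An element of P is trivial as soon as it dies in Fi₂₃ and has sign one. -/
theorem eq_one_of (w : P) (h1 : chi w = 1) (h2 : sgn w = 1) : w = 1 := by
  classical
  by_contra hne
  haveI := upA.1
  have hwk : w ∈ chi.ker := h1
  have hek : PresentedGroup.mk RP epsW ∈ chi.ker := eps_chi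
  have he1 : PresentedGroup.mk RP epsW ≠ 1 := by
    intro h
    have := congrArg sgn h
    rw [sgn_mk, eps_sgn, map_one] at this
    exact absurd this (by decide)
  have hew : PresentedGroup.mk RP epsW ≠ w := by
    intro h
    have := congrArg sgn h
    rw [sgn_mk, eps_sgn, h2] at this
    exact absurd this (by decide)
  let g : Fin 3 → chi.ker := ![⟨1, one_mem _⟩, ⟨_, hek⟩, ⟨w, hwk⟩]
  have hg : Function.Injective g := by
    intro i j hij
    have hij' : (g i : P) = g j := congrArg Subtype.val hij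
    fin_cases i <;> fin_cases j <;> first
      | rfl
      | exact absurd hij' (by simpa [g] using he1.symm)
      | exact absurd hij' (by simpa [g] using he1)
      | exact absurd hij' (by simpa [g] using hne)
      | exact absurd hij' (by simpa [g] using Ne.symm hne)
      | exact absurd hij' (by simpa [g] using hew)
      | exact absurd hij' (by simpa [g] using hew.symm)
  have h3 : 3 ≤ Nat.card chi.ker := by
    simpa using Nat.card_le_card_of_injective g hg
  have h4 := card_ker_le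
  omega

/-! ### The two relations -/

/-- the relation of the end node -/
def rW : FreeGroup (Fin 11) :=
  FreeGroup.of 8 * (((FreeGroup.of 3 * FreeGroup.of 4 * FreeGroup.of 2 * FreeGroup.of 9 * FreeGroup.of 5 *
    FreeGroup.of 1 * FreeGroup.of 6) ^ 9)⁻¹)

theorem rW_sgn : FreeGroup.lift (fun _ : Fin 11 => (-1 : ℤˣ)) rW = 1 := by decide +kernel

theorem rW_chi : chi (PresentedGroup.mk RP rW) = 1 := by
  rw [chi_mk]
  simp only [rW, map_pow, map_mul, map_inv, FreeGroup.lift_apply_of]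
  have e8 : fL 8 = zG := rfl
  have hz : (fL 3 * fL 4 * fL 2 * fL 9 * fL 5 * fL 1 * fL 6) ^ 9 = zG := by
    simp only [zG, zF, map_pow, map_mul]
    rfl
  rw [hz, e8, mul_inv_cancel]

/-- The relation of the end node holds in P. -/
theorem rW_one : PresentedGroup.mk RP rW = 1 :=
  eq_one_of _ rW_chi (by rw [sgn_mk, rW_sgn])

/-- the spider with two arms swapped -/
def soW : FreeGroup (Fin 11) :=
  (FreeGroup.of 3 * FreeGroup.of 4 * FreeGroup.of 5 * FreeGroup.of 3 * FreeGroup.of 2 * FreeGroup.of 1 *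
    FreeGroup.of 3 * FreeGroup.of 9 * FreeGroup.of 10) ^ 10

theorem soW_sgn : FreeGroup.lift (fun _ : Fin 11 => (-1 : ℤˣ)) soW = 1 := by decide +kernel

/-- the swapped spider as an expression -/
def soE : PE := (PE.mul (.lt 3) (.mul (.lt 4) (.mul (.lt 5) (.mul (.lt 3) (.mul (.lt 2) (.mul (.lt 1)
  (.mul (.lt 3) (.mul (.lt 8) (.lt 9))))))))).pw 10

theorem soChk : eqOn (ev0 Fi23a.cfg) soE .one (0 :: Fi23C.ls.map (·.b)) = true := by decide +kernel

theorem soW_chi : chi (PresentedGroup.mk RP soW) = 1 := by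
  obtain ⟨h0, h1, h2, h3, h4, h5, h6, h7, h8, h9⟩ := elG_letters
  rw [chi_mk]
  have h := base_eq _ _ soChk
  unfold soE at h
  rw [PE.el_pw] at h
  simp only [PE.el, h1, h2, h3, h4, h5, h8, h9] at h
  simp only [soW, map_pow, map_mul, FreeGroup.lift_apply_of]
  have e1 : fL 1 = PresentedGroup.of .b := rfl
  have e2 : fL 2 = PresentedGroup.of .c := rfl
  have e3 : fL 3 = PresentedGroup.of .d := rfl
  have e4 : fL 4 = PresentedGroup.of .e := rfl
  have e5 : fL 5 = PresentedGroup.of .f := rfl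
  have e9 : fL 9 = PresentedGroup.of .h := rfl
  have e10 : fL 10 = PresentedGroup.of .i := rfl
  rw [e1, e2, e3, e4, e5, e9, e10]
  simpa only [mul_assoc] using h

/-- The spider with two arms swapped holds in P. -/
theorem soW_one : PresentedGroup.mk RP soW = 1 :=
  eq_one_of _ soW_chi (by rw [sgn_mk, soW_sgn])

end Cfsg.Agent.Lib.Compute.Y5Core
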